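import Cfsg.Agent.H73.AltDim.Tools

/-!
Weights of the elementary abelian group generated by equal blocks, indexed by their supports.
-/

set_option autoImplicit false

namespace Cfsg.Agent.H73.AltDim

open Equiv Equiv.Perm Module Cfsg.Agent.Weights

theorem card_support_functions (k j m : ℕ) :
    Fintype.card ((J : {J : Finset (Fin k) // J.card = j}) × (↥J.1 → Fin m)) = k.choose j * m ^ j := by
  rw [Fintype.card_sigma]
  simp only [Fintype.card_fun, Fintype.card_fin, Fintype.card_coe]
  rw [Finset.sum_congr rfl (fun J _ => by rw [J.2] : ∀ J ∈ (Finset.univ : Finset {J : Finset (Fin k) // J.card = j}), m ^ J.1.card = m ^ j),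
    Finset.sum_const, Finset.card_univ, Fintype.card_finset_len, Fintype.card_fin, smul_eq_mul]

theorem le_choose {k j : ℕ} (h1 : 1 ≤ j) (h2 : j < k) : k ≤ k.choose j := by
  induction k generalizing j with
  | zero => omega
  | succ k ih =>
    obtain ⟨i, rfl⟩ : ∃ i, j = i + 1 := ⟨j - 1, by omega⟩
    rw [Nat.choose_succ_succ]
    rcases Nat.eq_zero_or_pos i with rfl | hi
    · simp
    · rcases lt_or_eq_of_le (show i + 1 ≤ k by omega) with h | h
      · have := ih (j := i) (by omega) (by omega)
        have := Nat.choose_pos (show i + 1 ≤ k by omega)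
        simp only [Nat.succ_eq_add_one] at *
        omega
      · have := ih (j := i) (by omega) (by omega)
        have := Nat.choose_pos (show i + 1 ≤ k by omega)
        simp only [Nat.succ_eq_add_one] at *
        omega

/-- value of a block character -/
def blockVal {L : Type*} [Field L] {m : ℕ} (α β : L) (c : Option (Fin m)) (u : Fin m) : L :=
  c.elim 1 (fun c => if u = c then α else β)

/-- the character attached to a function from blocks to block characters -/
def chi {L : Type*} [Field L] {m k : ℕ} (α β : L) (s : Fin k → Option (Fin m)) :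
    Fin k × Fin m → L := fun a => blockVal α β (s a.1) a.2

/-- support -/
def supp {m k : ℕ} (s : Fin k → Option (Fin m)) : Finset (Fin k) :=
  Finset.univ.filter fun i => (s i).isSome

variable {L : Type*} [Field L] {V : Type*} [AddCommGroup V] [Module L V] {r k m : ℕ}
  {R : Perm (Fin r) → End L V} {T : Fin k × Fin m → Perm (Fin r)} {α β : L}

/-- a family of blocks -/
structure IsBlocks (R : Perm (Fin r) → End L V) (T : Fin k × Fin m → Perm (Fin r)) (α β : L) :
    Prop where
  rep : IsRep R
  even : ∀ a, sign (T a) = 1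
  comm : ∀ a b, R (T a) * R (T b) = R (T b) * R (T a)
  hαβ : α ≠ β
  hβ : β ≠ 1
  two : 2 ≤ m
  decode : ∀ (i : Fin k) (χ : Fin m → L) (v : V), v ≠ 0 → (∀ u, R (T (i, u)) v = χ u • v) →
    ∃ c, χ = blockVal α β c

/-- `s` is a weight -/
def Wt (R : Perm (Fin r) → End L V) (T : Fin k × Fin m → Perm (Fin r)) (α β : L)
    (s : Fin k → Option (Fin m)) : Prop := IsWeight (fun a => R (T a)) (chi α β s)

namespace IsBlocks

variable (hB : IsBlocks R T α β)
include hB

theorem blockVal_inj : Function.Injective (blockVal α β : Option (Fin m) → Fin m → L) := by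
  have h1 : ∀ c : Fin m, blockVal α β (some c) ≠ blockVal α β none := by
    intro c h
    obtain ⟨u, hu⟩ : ∃ u : Fin m, u ≠ c := by
      haveI : Nontrivial (Fin m) := Fin.nontrivial_iff_two_le.2 hB.two
      exact exists_ne c
    have := congrFun h u
    simp [blockVal, hu, hB.hβ] at this
  rintro (_ | c) (_ | c') h
  · rfl
  · exact absurd h.symm (h1 c')
  · exact absurd h (h1 c)
  · by_contra hne
    have := congrFun h c
    simp only [blockVal, Option.elim_some, if_pos rfl] at this
    rw [if_neg (fun e => hne (congrArg some e))] at this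
    exact hB.hαβ this

theorem chi_inj : Function.Injective (chi α β : (Fin k → Option (Fin m)) → Fin k × Fin m → L) :=
  fun _ _ h => funext fun i => hB.blockVal_inj (funext fun u => congrFun h (i, u))

theorem exists_code {χ : Fin k × Fin m → L} {v : V} (hv : IsWeightVec (fun a => R (T a)) χ v) :
    ∃ s, χ = chi α β s := by
  choose s hs using fun i => hB.decode i (fun u => χ (i, u)) v hv.1 (fun u => hv.2 (i, u))
  exact ⟨s, funext fun a => congrFun (hs a.1) a.2⟩

/-- the eigenspace of one block -/
def eigB (R : Perm (Fin r) → End L V) (T : Fin k × Fin m → Perm (Fin r)) (α β : L) (i : Fin k)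
    (c : Option (Fin m)) : Submodule L V :=
  ⨅ u, LinearMap.ker (R (T (i, u)) - blockVal α β c u • (1 : End L V))

omit hB in
theorem mem_eigB {i : Fin k} {c : Option (Fin m)} {v : V} :
    v ∈ eigB R T α β i c ↔ ∀ u, R (T (i, u)) v = blockVal α β c u • v := by
  simp [eigB, sub_eq_zero]

theorem eigB_inv (i : Fin k) (c : Option (Fin m)) (a : Fin k × Fin m) :
    ∀ v ∈ eigB R T α β i c, R (T a) v ∈ eigB R T α β i c := by
  intro v hv
  rw [mem_eigB] at hv ⊢
  intro u
  rw [← Module.End.mul_apply, hB.comm, Module.End.mul_apply, hv, map_smul]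

/-- transport of weights by an even permutation permuting the blocks -/
theorem transport {τ : Perm (Fin r)} (hτ : sign τ = 1) (π : Perm (Fin k)) (d : Fin k → Fin m)
    [NeZero m] (hconj : ∀ i u, τ * T (i, u) * τ⁻¹ = T (π i, u + d i)) {s s' : Fin k → Option (Fin m)}
    (hs : ∀ i, s' (π i) = (s i).map (· + d i)) (h : Wt R T α β s) : Wt R T α β s' := by
  obtain ⟨v, hv0, hv⟩ := h
  refine ⟨R τ v, fun h0 => hv0 (hB.rep.injective hτ (by rw [h0, map_zero])), ?_⟩
  rintro ⟨j, u⟩
  obtain ⟨i, rfl⟩ := π.surjective j
  have e : u - d i + d i = u := sub_add_cancel u (d i)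
  show R (T (π i, u)) (R τ v) = _
  rw [← e, ← hconj, hB.rep.conj_apply hτ (hB.even _), show R (T (i, u - d i)) v = _ from hv (i, u - d i),
    map_smul]
  congr 1
  simp only [chi, hs, e]
  rcases s i with _ | c
  · rfl
  · simp only [Option.map_some, blockVal, Option.elim_some]
    by_cases huc : u - d i = c
    · rw [if_pos huc, if_pos (by rw [← huc, e])]
    · rw [if_neg huc, if_neg (fun h => huc (by rw [h, add_sub_cancel_right]))]

theorem transport_eigB {τ : Perm (Fin r)} (hτ : sign τ = 1) (π : Perm (Fin k)) (d : Fin k → Fin m)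
    [NeZero m] (hconj : ∀ i u, τ * T (i, u) * τ⁻¹ = T (π i, u + d i)) (i : Fin k) (c : Fin m) :
    (eigB R T α β i (some c)).map (R τ) ≤ eigB R T α β (π i) (some (c + d i)) := by
  rintro _ ⟨v, hv, rfl⟩
  replace hv := mem_eigB.1 hv
  rw [mem_eigB]
  intro u
  have e : u - d i + d i = u := sub_add_cancel u (d i)
  rw [← e, ← hconj, hB.rep.conj_apply hτ (hB.even _), hv, map_smul]
  congr 1
  simp [blockVal, sub_eq_iff_eq_add]

/-- all supports of a given size occur together -/
theorem support_bound [FiniteDimensional L V]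
    (hmove : ∀ s s', (supp s).card = (supp s').card → Wt R T α β s → Wt R T α β s')
    {s : Fin k → Option (Fin m)} (h : Wt R T α β s) :
    k.choose (supp s).card * m ^ (supp s).card ≤ finrank L V := by
  classical
  let mk : ((J : {J : Finset (Fin k) // J.card = (supp s).card}) × (↥J.1 → Fin m)) →
      Fin k → Option (Fin m) := fun x i => if h : i ∈ x.1.1 then some (x.2 ⟨i, h⟩) else none
  have hsupp : ∀ x, supp (mk x) = x.1.1 := fun x => by
    ext i
    simp only [supp, Finset.mem_filter, Finset.mem_univ, true_and, mk]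
    by_cases hi : i ∈ x.1.1 <;> simp [hi]
  have hinj : Function.Injective mk := by
    rintro ⟨J, φ⟩ ⟨J', φ'⟩ hx
    have hJ : J = J' := Subtype.ext (by rw [← hsupp ⟨J, φ⟩, hx, hsupp ⟨J', φ'⟩])
    subst hJ
    congr
    funext i
    have := congrFun hx i.1
    simpa [mk, i.2] using this
  rw [← card_support_functions]
  exact card_weights_le (fun a => R (T a)) (fun x => chi α β (mk x)) (hB.chi_inj.comp hinj)
    fun x => hmove s (mk x) (by rw [hsupp, x.1.2]) h

/-- when all weights have singleton supports, the other blocks are trivial on a block eigenspace -/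
theorem trivial_on_eigB [IsAlgClosed L] [FiniteDimensional L V] {n : ℕ} (hn : (n : L) ≠ 0)
    (hpow : ∀ a, R (T a) ^ n = 1) (hsingle : ∀ s, Wt R T α β s → (supp s).card ≤ 1)
    {i j : Fin k} (hij : j ≠ i) (c u : Fin m) {v : V} (hv : v ∈ eigB R T α β i (some c)) :
    R (T (j, u)) v = v := by
  by_contra hne
  obtain ⟨χ, w, hw, hwv, hχ⟩ := exists_weight_ne_one_on (fun a => R (T a)) hB.comm
    (fun a => hB.eigB_inv i (some c) a) (j, u) n hn (hpow _) hv hne
  obtain ⟨s, rfl⟩ := hB.exists_code hwv
  have hi : s i = some c := hB.blockVal_inj (funext fun u' => by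
    have h1 := mem_eigB.1 hw u'
    have h2 : R (T (i, u')) w = chi α β s (i, u') • w := hwv.2 (i, u')
    rw [h1] at h2
    exact (smul_left_injective L hwv.1 h2).symm)
  have hj : (s j).isSome := by
    rcases hsj : s j with _ | c'
    · simp [chi, blockVal, hsj] at hχ
    · simp
  have h2 := hsingle s ⟨w, hwv⟩
  have : ({i, j} : Finset (Fin k)) ⊆ supp s := by
    intro x hx
    simp only [Finset.mem_insert, Finset.mem_singleton] at hx
    rcases hx with rfl | rfl <;> simp [supp, hi, hj]
  have := Finset.card_le_card this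
  rw [Finset.card_pair hij.symm] at this
  omega

/-- singleton supports: the block eigenspaces are independent -/
theorem sum_eigB_le [IsAlgClosed L] [FiniteDimensional L V] {n : ℕ} (hn : (n : L) ≠ 0)
    (hpow : ∀ a, R (T a) ^ n = 1) (hsingle : ∀ s, Wt R T α β s → (supp s).card ≤ 1) :
    ∑ x : Fin k × Fin m, finrank L (eigB R T α β x.1 (some x.2)) ≤ finrank L V := by
  classical
  refine sum_finrank_le (fun a => R (T a))
    (fun x => chi α β (fun i => if i = x.1 then some x.2 else none))
    (hB.chi_inj.comp fun x y h => ?_) _ fun x v hv a => ?_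
  · have := congrFun h x.1
    simp only [if_pos rfl] at this
    by_cases hxy : x.1 = y.1
    · rw [if_pos hxy] at this
      exact Prod.ext hxy (Option.some_injective _ this)
    · rw [if_neg hxy] at this; simp at this
  · obtain ⟨j, u⟩ := a
    by_cases hj : j = x.1
    · subst hj
      simp only [chi, if_pos rfl]
      exact mem_eigB.1 hv u
    · rw [hB.trivial_on_eigB hn hpow hsingle hj x.2 u hv]
      simp [chi, blockVal, hj]

end IsBlocks

end Cfsg.Agent.H73.AltDim
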