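import Cfsg.Agent.H73.AltDim.Tools

/-!
Permutations of a union of equal blocks inside a larger set.
-/

set_option autoImplicit false

namespace Cfsg.Agent.H73.AltDim

open Equiv Equiv.Perm

theorem sign_viaEmbedding {α β : Type*} [Fintype α] [DecidableEq α] [Fintype β] [DecidableEq β]
    (e : Perm α) (ι : α ↪ β) : sign (e.viaEmbedding ι) = sign e := by
  classical
  rw [Equiv.Perm.viaEmbedding]
  convert Equiv.Perm.sign_extendDomain e (Equiv.ofInjective ι ι.injective)
  all_goals rfl

variable {k q r : ℕ} (f : Fin k × Fin q ↪ Fin r)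

/-- `g` acting on the `i`-th block -/
noncomputable def blk (i : Fin k) (g : Perm (Fin q)) : Perm (Fin r) :=
  Equiv.Perm.viaEmbedding (prodCongrRight (Pi.mulSingle i g)) f

/-- the permutation `(i, x) ↦ (π i, p i x)` of the blocks -/
noncomputable def mover (π : Perm (Fin k)) (p : Fin k → Perm (Fin q)) : Perm (Fin r) :=
  Equiv.Perm.viaEmbedding (prodCongrLeft (fun _ => π) * prodCongrRight p) f

theorem blk_apply_self (i : Fin k) (g : Perm (Fin q)) (x : Fin q) : blk f i g (f (i, x)) = f (i, g x) := by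
  rw [blk, viaEmbedding_apply]
  simp [prodCongrRight_apply]

theorem blk_apply_ne {i j : Fin k} (h : j ≠ i) (g : Perm (Fin q)) (x : Fin q) :
    blk f i g (f (j, x)) = f (j, x) := by
  rw [blk, viaEmbedding_apply]
  simp [prodCongrRight_apply, Pi.mulSingle_eq_of_ne h]

theorem mover_apply (π : Perm (Fin k)) (p : Fin k → Perm (Fin q)) (i : Fin k) (x : Fin q) :
    mover f π p (f (i, x)) = f (π i, p i x) := by
  rw [mover, viaEmbedding_apply]
  simp [prodCongrRight_apply, prodCongrLeft_apply]

theorem blk_one (i : Fin k) : blk f i 1 = 1 := by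
  rw [blk, Pi.mulSingle_one]
  have : prodCongrRight (1 : Fin k → Perm (Fin q)) = 1 := by ext ⟨i, x⟩ <;> simp [prodCongrRight_apply]
  rw [this]
  exact map_one (viaEmbeddingHom f)

theorem blk_mul (i : Fin k) (g h : Perm (Fin q)) : blk f i (g * h) = blk f i g * blk f i h := by
  rw [blk, blk, blk, ← viaEmbeddingHom_apply, ← viaEmbeddingHom_apply, ← viaEmbeddingHom_apply,
    ← map_mul, Pi.mulSingle_mul]
  congr 1

theorem blk_pow (i : Fin k) (g : Perm (Fin q)) (n : ℕ) : blk f i (g ^ n) = blk f i g ^ n := by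
  induction n with
  | zero => simp [blk_one]
  | succ n ih => rw [pow_succ, pow_succ, blk_mul, ih]

theorem blk_comm {i j : Fin k} {g h : Perm (Fin q)} (hgh : i = j → g * h = h * g) :
    blk f i g * blk f j h = blk f j h * blk f i g := by
  by_cases e : i = j
  · subst e
    rw [← blk_mul, hgh rfl, blk_mul]
  · rw [blk, blk, ← viaEmbeddingHom_apply, ← viaEmbeddingHom_apply, ← map_mul, ← map_mul]
    congr 1
    apply Equiv.ext
    rintro ⟨a, x⟩
    simp only [Perm.mul_apply, prodCongrRight_apply]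
    by_cases hai : a = i
    · subst hai; simp [Pi.mulSingle_eq_of_ne e]
    · simp [Pi.mulSingle_eq_of_ne hai]

theorem mover_conj (π : Perm (Fin k)) (p : Fin k → Perm (Fin q)) (i : Fin k) (g : Perm (Fin q)) :
    mover f π p * blk f i g * (mover f π p)⁻¹ = blk f (π i) (p i * g * (p i)⁻¹) := by
  rw [mul_inv_eq_iff_eq_mul, mover, blk, blk, ← viaEmbeddingHom_apply, ← viaEmbeddingHom_apply,
    ← viaEmbeddingHom_apply, ← map_mul, ← map_mul]
  congr 1
  apply Equiv.ext
  rintro ⟨a, x⟩
  simp only [Perm.mul_apply, prodCongrRight_apply, prodCongrLeft_apply]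
  by_cases hai : a = i
  · subst hai; simp
  · simp [Pi.mulSingle_eq_of_ne hai, Pi.mulSingle_eq_of_ne (π.injective.ne hai)]

theorem sign_blk (i : Fin k) (g : Perm (Fin q)) : sign (blk f i g) = sign g := by
  rw [blk, sign_viaEmbedding, sign_prodCongrRight]
  rw [Finset.prod_eq_single i (fun j _ h => by simp [Pi.mulSingle_eq_of_ne h]) (by simp)]
  simp

theorem sign_mover (π : Perm (Fin k)) (p : Fin k → Perm (Fin q)) :
    sign (mover f π p) = sign π ^ q * ∏ i, sign (p i) := by
  rw [mover, sign_viaEmbedding, map_mul, sign_prodCongrRight, sign_prodCongrLeft]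
  simp

theorem blk_swap (i : Fin k) (x y : Fin q) : blk f i (swap x y) = swap (f (i, x)) (f (i, y)) := by
  classical
  ext z
  by_cases hz : z ∈ Set.range f
  · obtain ⟨⟨a, w⟩, rfl⟩ := hz
    by_cases hai : a = i
    · subst hai
      rw [blk_apply_self, Function.Injective.swap_apply (f := fun x => f (a, x))]
      exact fun u v h => congrArg Prod.snd (f.injective h)
    · rw [blk_apply_ne f hai, swap_apply_of_ne_of_ne]
      · exact fun h => hai (congrArg Prod.fst (f.injective h))
      · exact fun h => hai (congrArg Prod.fst (f.injective h))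
  · rw [blk, viaEmbedding_apply_of_notMem _ _ _ hz,
      swap_apply_of_ne_of_ne (fun h => hz ⟨_, h.symm⟩) (fun h => hz ⟨_, h.symm⟩)]

/-- the block embedding -/
def blockEmb {k q r : ℕ} (h : q * k ≤ r) : Fin k × Fin q ↪ Fin r :=
  ⟨fun a => ⟨q * a.1.val + a.2.val, by
    obtain ⟨⟨i, hi⟩, ⟨x, hx⟩⟩ := a
    have : q * (i + 1) ≤ q * k := Nat.mul_le_mul_left q hi
    simp only [Nat.mul_succ] at this ⊢
    omega⟩, by
    rintro ⟨⟨i, hi⟩, ⟨x, hx⟩⟩ ⟨⟨j, hj⟩, ⟨y, hy⟩⟩ h
    simp only [Fin.mk.injEq] at h
    have hd : (q * i + x) / q = (q * j + y) / q := by rw [h]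
    rw [Nat.mul_add_div (by omega), Nat.mul_add_div (by omega), Nat.div_eq_of_lt hx,
      Nat.div_eq_of_lt hy, add_zero, add_zero] at hd
    subst hd
    have : x = y := by omega
    subst this
    rfl⟩

theorem blockEmb_val {k q r : ℕ} (h : q * k ≤ r) (i : Fin k) (x : Fin q) :
    (blockEmb h (i, x)).val = q * i.val + x.val := rfl

/-- an equivalence between index sets carrying one finite set onto another -/
theorem exists_perm_finset {k : ℕ} {S S' : Finset (Fin k)} (h : S.card = S'.card) :
    ∃ π : Perm (Fin k), ∀ i, π i ∈ S' ↔ i ∈ S := by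
  classical
  let e := Finset.equivOfCardEq h
  refine ⟨e.extendSubtype, fun i => ?_⟩
  by_cases hi : i ∈ S
  · exact iff_of_true (Equiv.extendSubtype_mem e i hi) hi
  · exact iff_of_false (Equiv.extendSubtype_not_mem e i hi) hi

end Cfsg.Agent.H73.AltDim
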