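import Cfsg.Agent.H73.AltDim.Blocks
import Cfsg.Agent.H73.AltDim.Embed

/-!
The four-group blocks: the eigenspaces are lines when the degree is small.
-/

set_option autoImplicit false

namespace Cfsg.Agent.H73.AltDim

open Equiv Equiv.Perm Module Cfsg.Agent.Weights

/-- the three involutions of the four group -/
def tfour (c : Fin 3) : Perm (Fin 4) := dt 0 c.succ (c + 1).succ (c + 2).succ

/-- rotations of the last three points -/
def rot (d : Fin 3) : Perm (Fin 4) := ![1, swap 1 2 * swap 2 3, swap 2 3 * swap 1 2] d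

theorem tfour_facts :
    (∀ c, sign (tfour c) = 1) ∧ (∀ c, tfour c ^ 2 = 1) ∧
      (∀ c c', tfour c * tfour c' = tfour c' * tfour c) ∧
      (∀ c, tfour c * tfour (c + 1) = tfour (c + 2)) ∧
      (∀ d, sign (rot d) = 1) ∧ (∀ c d, rot d * tfour c * (rot d)⁻¹ = tfour (c + d)) := by
  decide

variable {r k : ℕ} (f : Fin k × Fin 4 ↪ Fin r)

/-- the involutions of the blocks -/
noncomputable def fourT (a : Fin k × Fin 3) : Perm (Fin r) := blk f a.1 (tfour a.2)

theorem fourT_sign (a : Fin k × Fin 3) : sign (fourT f a) = 1 := by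
  rw [fourT, sign_blk, tfour_facts.1]

theorem fourT_sq (a : Fin k × Fin 3) : fourT f a ^ 2 = 1 := by
  rw [fourT, ← blk_pow, tfour_facts.2.1, blk_one]

theorem fourT_eq (a : Fin k × Fin 3) :
    fourT f a = dt (f (a.1, 0)) (f (a.1, a.2.succ)) (f (a.1, (a.2 + 1).succ)) (f (a.1, (a.2 + 2).succ)) := by
  rw [fourT, tfour, dt, blk_mul, blk_swap, blk_swap, dt]

theorem fourT_conj (π : Perm (Fin k)) (d : Fin k → Fin 3) (i : Fin k) (u : Fin 3) :
    mover f π (fun i => rot (d i)) * fourT f (i, u) * (mover f π (fun i => rot (d i)))⁻¹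
      = fourT f (π i, u + d i) := by
  rw [fourT, fourT, mover_conj, tfour_facts.2.2.2.2.2]

theorem fourMove_sign (π : Perm (Fin k)) (d : Fin k → Fin 3) :
    sign (mover f π (fun i => rot (d i))) = 1 := by
  rw [sign_mover, Finset.prod_eq_one (fun i _ => tfour_facts.2.2.2.2.1 (d i)), mul_one,
    show 4 = 2 * 2 from rfl, pow_mul, sq (sign π), Int.units_mul_self, one_pow]

variable {L : Type*} [Field L] {V : Type*} [AddCommGroup V] [Module L V]
  {R : Perm (Fin r) → End L V}

theorem sq_eq_one_cases {f : End L V} (hf : f ^ 2 = 1) {c : L} {v : V} (h0 : v ≠ 0)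
    (h : f v = c • v) : c = 1 ∨ c = -1 := by
  have := weight_pow_eq_one hf h0 h
  exact sq_eq_one_iff.1 this

theorem four_blocks (hR : IsRep R) (h2 : (2 : L) ≠ 0) :
    IsBlocks R (fourT f) (1 : L) (-1) where
  rep := hR
  even := fourT_sign f
  comm := fun a b => hR.commute (fourT_sign f a) (fourT_sign f b)
    (blk_comm f fun _ => tfour_facts.2.2.1 _ _)
  hαβ := fun h => h2 (by linear_combination h)
  hβ := fun h => h2 (by linear_combination -h)
  two := by norm_num
  decode := by
    intro i χ v hv hχ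
    have hsq : ∀ u, χ u = 1 ∨ χ u = -1 := fun u =>
      sq_eq_one_cases (hR.pow_eq_one (fourT_sign f _) (fourT_sq f _)) hv (hχ u)
    have hprod : χ 0 * χ 1 = χ 2 := by
      have h : R (fourT f (i, 0)) * R (fourT f (i, 1)) = R (fourT f (i, 2)) := by
        rw [← hR.map_mul _ _ (fourT_sign f _) (fourT_sign f _), fourT, fourT, fourT, ← blk_mul]
        exact congrArg (fun g => R (blk f i g)) (tfour_facts.2.2.2.1 0)
      have h' := LinearMap.congr_fun h v
      rw [Module.End.mul_apply, hχ, map_smul, hχ, hχ, smul_smul, mul_comm] at h'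
      exact smul_left_injective L hv h'
    have hne : (-1 : L) ≠ 1 := fun h => h2 (by linear_combination -h)
    rcases hsq 0 with h0 | h0 <;> rcases hsq 1 with h1 | h1 <;> rw [h0, h1] at hprod
    · exact ⟨none, funext fun u => by fin_cases u <;> simp [blockVal, h0, h1, ← hprod]⟩
    · exact ⟨some 0, funext fun u => by fin_cases u <;> simp [blockVal, h0, h1, ← hprod]⟩
    · exact ⟨some 1, funext fun u => by fin_cases u <;> simp [blockVal, h0, h1, ← hprod]⟩
    · exact ⟨some 2, funext fun u => by fin_cases u <;> simp [blockVal, h0, h1, ← hprod]⟩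

theorem four_move (hR : IsRep R) (h2 : (2 : L) ≠ 0) {s s' : Fin k → Option (Fin 3)}
    (hc : (supp s).card = (supp s').card) (h : Wt R (fourT f) (1 : L) (-1) s) :
    Wt R (fourT f) (1 : L) (-1) s' := by
  obtain ⟨π, hπ⟩ := exists_perm_finset hc
  let d : Fin k → Fin 3 := fun i => (s' (π i)).getD 0 - (s i).getD 0
  refine (four_blocks f hR h2).transport (fourMove_sign f π d) π d (fourT_conj f π d) (fun i => ?_) h
  have hi := hπ i
  simp only [supp, Finset.mem_filter, Finset.mem_univ, true_and] at hi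
  rcases hs : s i with _ | c <;> rcases hs' : s' (π i) with _ | c' <;> simp [hs, hs'] at hi ⊢
  simp [d, hs, hs']

theorem four_small [IsAlgClosed L] [FiniteDimensional L V] (hR : IsRep R) (h2 : (2 : L) ≠ 0)
    (hk : 2 ≤ k) (hn : finrank L V ≤ 4 * k + 1) {s : Fin k → Option (Fin 3)}
    (h : Wt R (fourT f) (1 : L) (-1) s) (hs : 2 ≤ (supp s).card) :
    k = 2 ∧ 9 ≤ finrank L V ∧ (supp s).card = 2 := by
  have hb := (four_blocks f hR h2).support_bound (fun _ _ h h' => four_move f hR h2 h h') h
  have hle : (supp s).card ≤ k := by simpa using (supp s).card_le_univ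
  rcases lt_or_eq_of_le hle with hlt | heq
  · have h1 := le_choose (by omega) hlt
    have h9 : 3 ^ 2 ≤ 3 ^ (supp s).card := Nat.pow_le_pow_right (by norm_num) hs
    have := Nat.mul_le_mul h1 h9
    omega
  · rw [heq, Nat.choose_self, one_mul] at hb
    by_cases hk2 : k = 2
    · subst hk2; exact ⟨rfl, by simpa using hb, heq⟩
    · exfalso
      have : ∀ j, 4 * (j + 3) + 1 < 3 ^ (j + 3) := by
        intro j
        induction j with
        | zero => norm_num
        | succ j ih => rw [show j + 1 + 3 = (j + 3) + 1 by omega, pow_succ]; omega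
      have := this (k - 3)
      rw [show k - 3 + 3 = k by omega] at this
      omega

theorem four_eig_finrank [FiniteDimensional L V] (hR : IsRep R) (h2 : (2 : L) ≠ 0) (i j : Fin k)
    (c c' : Fin 3) :
    finrank L (IsBlocks.eigB R (fourT f) (1 : L) (-1) i (some c)) ≤
      finrank L (IsBlocks.eigB R (fourT f) (1 : L) (-1) j (some c')) := by
  classical
  have h := (four_blocks f hR h2).transport_eigB (fourMove_sign f (swap i j) (fun _ => c' - c))
    (swap i j) (fun _ => c' - c) (fourT_conj f _ _) i c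
  rw [swap_apply_left, add_sub_cancel] at h
  exact le_of_eq_of_le (hR.finrank_map (fourMove_sign f _ _) _).symm (Submodule.finrank_mono h)

theorem involution_split {a b : End L V} (h2 : (2 : L) ≠ 0) (ha : a ^ 2 = 1) (hab : a * b = b * a)
    (v : V) : ∃ x y : V, v = x + y ∧ a x = x ∧ a y = -y ∧
      ∀ c : L, b v = c • v → b x = c • x ∧ b y = c • y := by
  have h' : ∀ w, a (a w) = w := fun w => by
    have := LinearMap.congr_fun ha w
    simpa [sq] using this
  refine ⟨(2 : L)⁻¹ • (v + a v), (2 : L)⁻¹ • (v - a v), ?_, ?_, ?_, fun c hc => ?_⟩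
  · rw [← smul_add, show v + a v + (v - a v) = (2 : L) • v by module, smul_smul, inv_mul_cancel₀ h2,
      one_smul]
  · rw [map_smul, map_add, h', add_comm]
  · rw [map_smul, map_sub, h', ← smul_neg, neg_sub]
  · have hba : b (a v) = c • a v := by
      rw [← Module.End.mul_apply, ← hab, Module.End.mul_apply, hc, map_smul]
    simp only [map_smul, map_add, map_sub, hc, hba]
    constructor <;> module

theorem four_decomp (hR : IsRep R) (h2 : (2 : L) ≠ 0) (i : Fin k) {U : Submodule L V}
    (hU : ∀ c, IsBlocks.eigB R (fourT f) (1 : L) (-1) i c ≤ U) (v : V) : v ∈ U := by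
  have hsq : ∀ u, R (fourT f (i, u)) ^ 2 = 1 := fun u =>
    hR.pow_eq_one (fourT_sign f _) (fourT_sq f _)
  have hcomm : R (fourT f (i, 0)) * R (fourT f (i, 1)) = R (fourT f (i, 1)) * R (fourT f (i, 0)) :=
    (four_blocks f hR h2).comm _ _
  have h2' : R (fourT f (i, 2)) = R (fourT f (i, 0)) * R (fourT f (i, 1)) := by
    rw [← hR.map_mul _ _ (fourT_sign f _) (fourT_sign f _), fourT, fourT, fourT, ← blk_mul]
    exact congrArg (fun g => R (blk f i g)) (tfour_facts.2.2.2.1 0).symm
  obtain ⟨x, y, rfl, hx, hy, -⟩ := involution_split (b := R (fourT f (i, 1))) h2 (hsq 0) hcomm v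
  have key : ∀ (ε : L) (w : V), R (fourT f (i, 0)) w = ε • w → (ε = 1 ∨ ε = -1) → w ∈ U := by
    intro ε w hw hε
    obtain ⟨w1, w2, rfl, hw1, hw2, hc⟩ := involution_split (b := R (fourT f (i, 0))) h2 (hsq 1) hcomm.symm w
    obtain ⟨g1, g2⟩ := hc ε hw
    have t1 : R (fourT f (i, 2)) w1 = ε • w1 := by rw [h2', Module.End.mul_apply, hw1, g1]
    have t2 : R (fourT f (i, 2)) w2 = (-ε) • w2 := by
      rw [h2', Module.End.mul_apply, hw2, map_neg, g2, neg_smul]
    refine U.add_mem ?_ ?_
    · rcases hε with rfl | rfl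
      · exact hU none (IsBlocks.mem_eigB.2 fun u => by fin_cases u <;> simp [blockVal, g1, hw1, t1])
      · exact hU (some 1) (IsBlocks.mem_eigB.2 fun u => by fin_cases u <;> simp [blockVal, g1, hw1, t1])
    · rcases hε with rfl | rfl
      · exact hU (some 0) (IsBlocks.mem_eigB.2 fun u => by fin_cases u <;> simp [blockVal, g2, hw2, t2])
      · exact hU (some 2) (IsBlocks.mem_eigB.2 fun u => by fin_cases u <;> simp [blockVal, g2, hw2, t2])
  exact U.add_mem (key 1 x (by rw [hx, one_smul]) (Or.inl rfl))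
    (key (-1) y (by rw [hy, neg_one_smul]) (Or.inr rfl))

end Cfsg.Agent.H73.AltDim
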