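import Cfsg.Agent.H73.AltDim.Tools

/-!
Small invariant subspaces on which a five cycle, or a pair of three cycles, is forced to be trivial.
-/

set_option autoImplicit false

namespace Cfsg.Agent.H73.AltDim

open Equiv Equiv.Perm Module Cfsg.Agent.Weights

variable {L : Type*} [Field L] {V : Type*} [AddCommGroup V] [Module L V] {r : ℕ}
  {R : Perm (Fin r) → End L V}

theorem five_step (hR : IsRep R) {c g : Perm (Fin r)} (hc : sign c = 1) (hg : sign g = 1)
    (hconj : g * c * g⁻¹ = c ^ 2) (h5 : c ^ 5 = 1) {ζ : L} {v : V} (hv : R c v = ζ • v) :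
    R c (R g v) = ζ ^ 3 • R g v := by
  have e : g * c ^ 3 * g⁻¹ = c := by
    rw [← conj_pow, hconj, ← pow_mul, show 2 * 3 = 5 + 1 from rfl, pow_succ, h5, one_mul]
  conv_lhs => rw [← e]
  rw [hR.conj_apply hg (by rw [map_pow, hc, one_pow]), hR.map_pow hc, pow_weight hv, map_smul]

theorem five_distinct {ζ : L} (h5 : ζ ^ 5 = 1) (h1 : ζ ≠ 1) :
    Function.Injective (fun j : Fin 4 => ζ ^ (j.val + 1)) := by
  have ho : orderOf ζ = 5 := haveI : Fact (Nat.Prime 5) := ⟨by norm_num⟩; orderOf_eq_prime h5 h1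
  intro i j h
  have hinj := pow_injOn_Iio_orderOf (x := ζ) (Set.mem_Iio.2 (show i.val + 1 < orderOf ζ by omega))
    (Set.mem_Iio.2 (show j.val + 1 < orderOf ζ by omega)) h
  exact Fin.ext (by omega)

/-- a five cycle conjugate to its square is trivial on subspaces of dimension below four -/
theorem five_trivial [IsAlgClosed L] [FiniteDimensional L V] (h5 : (5 : L) ≠ 0) (hR : IsRep R)
    {c g : Perm (Fin r)} (hc : sign c = 1) (hg : sign g = 1) (hc5 : c ^ 5 = 1)
    (hconj : g * c * g⁻¹ = c ^ 2) (U : Submodule L V) (hUc : ∀ v ∈ U, R c v ∈ U)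
    (hUg : ∀ v ∈ U, R g v ∈ U) (hU : finrank L U < 4) {v : V} (hv : v ∈ U) : R c v = v := by
  by_contra hne
  obtain ⟨χ, w, hw, ⟨hw0, hwv⟩, hχ⟩ := exists_weight_ne_one_on (fun _ : Unit => R c)
    (fun _ _ => rfl) (fun _ => hUc) () 5 (by exact_mod_cast h5) (hR.pow_eq_one hc hc5) hv hne
  have hz : R c w = χ () • w := hwv ()
  set ζ := χ ()
  have hζ5 : ζ ^ 5 = 1 := weight_pow_eq_one (hR.pow_eq_one hc hc5) hw0 hz
  have s1 := five_step hR hc hg hconj hc5 hz
  have s2 := five_step hR hc hg hconj hc5 s1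
  have s3 := five_step hR hc hg hconj hc5 s2
  let W : Fin 4 → V := ![w, R g w, R g (R g w), R g (R g (R g w))]
  let e : Fin 4 → L := ![ζ, ζ ^ 3, (ζ ^ 3) ^ 3, ((ζ ^ 3) ^ 3) ^ 3]
  have he : Function.Injective e := by
    have hinj := five_distinct hζ5 hχ
    have e2 : (ζ ^ 3) ^ 3 = ζ ^ 4 := by rw [← pow_mul, show 3 * 3 = 5 + 4 from rfl, pow_add, hζ5, one_mul]
    have e3 : (ζ ^ 4) ^ 3 = ζ ^ 2 := by rw [← pow_mul, show 4 * 3 = 5 * 2 + 2 from rfl, pow_add, pow_mul, hζ5, one_pow, one_mul]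
    let τ : Fin 4 → Fin 4 := ![0, 2, 3, 1]
    have : e = (fun j : Fin 4 => ζ ^ (j.val + 1)) ∘ τ := by
      funext j; fin_cases j <;> simp [e, τ, e2, e3]
    rw [this]
    exact hinj.comp (by decide)
  have hWU : ∀ j, W j ∈ U := by
    intro j; fin_cases j
    · exact hw
    · exact hUg _ hw
    · exact hUg _ (hUg _ hw)
    · exact hUg _ (hUg _ (hUg _ hw))
  have hne0 : ∀ x : V, x ≠ 0 → R g x ≠ 0 := fun x hx h => hx (hR.injective hg (by rw [h, map_zero]))
  have hli := linearIndependent_weightVec (fun _ : Unit => R c) (fun j _ => e j)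
    (fun i j h => he (congrFun h ())) W (fun j => by
      fin_cases j
      · exact ⟨hw0, fun _ => hz⟩
      · exact ⟨hne0 _ hw0, fun _ => s1⟩
      · exact ⟨hne0 _ (hne0 _ hw0), fun _ => s2⟩
      · exact ⟨hne0 _ (hne0 _ (hne0 _ hw0)), fun _ => s3⟩)
  have hli' : LinearIndependent L (fun j => (⟨W j, hWU j⟩ : U)) :=
    LinearIndependent.of_comp U.subtype hli
  have := hli'.fintype_card_le_finrank
  simp at this
  omega

theorem pair_step (hR : IsRep R) {x y g : Perm (Fin r)} (hx : sign x = 1) (hy : sign y = 1)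
    (hg : sign g = 1) (h1 : g * x * g⁻¹ = y) (h2 : g * y * g⁻¹ = x⁻¹) {a b : L} {v : V}
    (hv : v ≠ 0) (ha : R x v = a • v) (hb : R y v = b • v) :
    R x (R g v) = b⁻¹ • R g v ∧ R y (R g v) = a • R g v := by
  have hb0 : b ≠ 0 := by
    rintro rfl
    rw [zero_smul] at hb
    exact hv (hR.injective hy (by rw [hb, map_zero]))
  refine ⟨?_, ?_⟩
  · have h : R x⁻¹ (R g v) = b • R g v := by rw [← h2, hR.conj_apply hg hy, hb, map_smul]
    have := congrArg (R x) h
    rw [hR.apply_inv hx, map_smul] at this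
    conv_rhs => rw [this, smul_smul, inv_mul_cancel₀ hb0, one_smul]
  · rw [← h1, hR.conj_apply hg hx, ha, map_smul]

/-- two commuting three cycles rotated by an even permutation are trivial on subspaces of
dimension below four -/
theorem pair_trivial [IsAlgClosed L] [FiniteDimensional L V] (h3 : (3 : L) ≠ 0) (hR : IsRep R)
    {x y g : Perm (Fin r)} (hx : sign x = 1) (hy : sign y = 1) (hg : sign g = 1) (hx3 : x ^ 3 = 1)
    (hy3 : y ^ 3 = 1) (hxy : x * y = y * x) (h1 : g * x * g⁻¹ = y) (h2 : g * y * g⁻¹ = x⁻¹)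
    (U : Submodule L V) (hUx : ∀ v ∈ U, R x v ∈ U) (hUy : ∀ v ∈ U, R y v ∈ U)
    (hUg : ∀ v ∈ U, R g v ∈ U) (hU : finrank L U < 4) {v : V} (hv : v ∈ U) : R x v = v := by
  by_contra hne
  let F : Bool → End L V := fun b => if b then R x else R y
  have hcomm : ∀ a b, F a * F b = F b * F a := by
    rintro (_ | _) (_ | _)
    · rfl
    · exact hR.commute hy hx hxy.symm
    · exact hR.commute hx hy hxy
    · rfl
  obtain ⟨χ, w, hw, ⟨hw0, hwv⟩, hχ⟩ := exists_weight_ne_one_on F hcomm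
    (W := U) (fun a => by rcases a with _ | _; exacts [hUy, hUx]) true 3 (by exact_mod_cast h3)
    (hR.pow_eq_one hx hx3) hv hne
  have ha : R x w = χ true • w := hwv true
  have hb : R y w = χ false • w := hwv false
  set a := χ true
  set b := χ false
  have ha3 : a ^ 3 = 1 := weight_pow_eq_one (hR.pow_eq_one hx hx3) hw0 ha
  have hb3 : b ^ 3 = 1 := weight_pow_eq_one (hR.pow_eq_one hy hy3) hw0 hb
  have hne0 : ∀ x : V, x ≠ 0 → R g x ≠ 0 := fun x hx h => hx (hR.injective hg (by rw [h, map_zero]))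
  obtain ⟨a1, b1⟩ := pair_step hR hx hy hg h1 h2 hw0 ha hb
  obtain ⟨a2, b2⟩ := pair_step hR hx hy hg h1 h2 (hne0 _ hw0) a1 b1
  obtain ⟨a3, b3⟩ := pair_step hR hx hy hg h1 h2 (hne0 _ (hne0 _ hw0)) a2 b2
  have hinv : ∀ {c : L}, c ^ 3 = 1 → c⁻¹ = c ^ 2 := fun {c} h =>
    inv_eq_of_mul_eq_one_right (by rw [← h]; ring)
  have h11 : ¬ (a = 1 ∧ b = 1) := fun h => hχ h.1
  have ha' : a⁻¹ = a → a = 1 := fun h => by
    rw [hinv ha3] at h
    linear_combination ha3 - (1 + a) * h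
  have hb' : b⁻¹ = b → b = 1 := fun h => by
    rw [hinv hb3] at h
    linear_combination hb3 - (1 + b) * h
  let W : Fin 4 → V := ![w, R g w, R g (R g w), R g (R g (R g w))]
  let e : Fin 4 → L × L := ![(a, b), (b⁻¹, a), (a⁻¹, b⁻¹), (b⁻¹⁻¹, a⁻¹)]
  have he : Function.Injective e := by
    have k01 : ¬ (a = b⁻¹ ∧ b = a) := fun ⟨h, h'⟩ => h11 ⟨ha' (by rw [← h'] at h ⊢; exact h.symm),
      hb' (by rw [← h'] at h; exact h.symm)⟩
    have k02 : ¬ (a = a⁻¹ ∧ b = b⁻¹) := fun ⟨h, h'⟩ => h11 ⟨ha' h.symm, hb' h'.symm⟩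
    have k03 : ¬ (a = b ∧ b = a⁻¹) := fun ⟨h, h'⟩ => h11 ⟨ha' (by rw [← h']; exact h.symm),
      hb' (by rw [← h]; rw [← h] at h'; exact h'.symm)⟩
    have k12 : ¬ (b⁻¹ = a⁻¹ ∧ a = b⁻¹) := fun ⟨h, h'⟩ =>
      k01 ⟨h', inv_injective h⟩
    have k13 : ¬ (b⁻¹ = b ∧ a = a⁻¹) := fun ⟨h, h'⟩ => h11 ⟨ha' h'.symm, hb' h⟩
    have k23 : ¬ (a⁻¹ = b ∧ b⁻¹ = a⁻¹) := fun ⟨h, h'⟩ => k03 ⟨(inv_injective h').symm, h.symm⟩
    have hi : b⁻¹⁻¹ = b := inv_inv b
    intro i j h
    fin_cases i <;> fin_cases j <;>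
      simp [e, hi, Prod.ext_iff] at h k01 k02 k03 k12 k13 k23 ⊢ <;>
      grind
  have hWU : ∀ j, W j ∈ U := by
    intro j; fin_cases j
    · exact hw
    · exact hUg _ hw
    · exact hUg _ (hUg _ hw)
    · exact hUg _ (hUg _ (hUg _ hw))
  have hli := linearIndependent_weightVec F (fun j c => if c then (e j).1 else (e j).2)
    (fun i j h => he (Prod.ext (congrFun h true) (congrFun h false))) W (fun j => by
      fin_cases j
      · exact ⟨hw0, fun c => by cases c; exacts [hb, ha]⟩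
      · exact ⟨hne0 _ hw0, fun c => by cases c; exacts [b1, a1]⟩
      · exact ⟨hne0 _ (hne0 _ hw0), fun c => by cases c; exacts [b2, a2]⟩
      · exact ⟨hne0 _ (hne0 _ (hne0 _ hw0)), fun c => by cases c; exacts [b3, a3]⟩)
  have hli' : LinearIndependent L (fun j => (⟨W j, hWU j⟩ : U)) :=
    LinearIndependent.of_comp U.subtype hli
  have := hli'.fintype_card_le_finrank
  simp at this
  omega

end Cfsg.Agent.H73.AltDim
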