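import Cfsg.Agent.H73.AltDim.Four
import Cfsg.Agent.H73.AltDim.Orbit

/-!
Eleven points and degree at most nine: no weight involves both blocks.
-/

set_option autoImplicit false

namespace Cfsg.Agent.H73.AltDim

open Equiv Equiv.Perm Module Cfsg.Agent.Weights

variable {L : Type*} [Field L] [IsAlgClosed L] {V : Type*} [AddCommGroup V] [Module L V]
  [FiniteDimensional L V] {R : Perm (Fin 11) → End L V}

theorem four_exception (hR : IsRep R) (h2 : (2 : L) ≠ 0)
    (hnt : ∃ g : Perm (Fin 11), sign g = 1 ∧ R g ≠ 1) (hn : finrank L V ≤ 9)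
    {s : Fin 2 → Option (Fin 3)}
    (h : Wt R (fourT (blockEmb (show 4 * 2 ≤ 11 by norm_num))) (1 : L) (-1) s)
    (hs : (supp s).card = 2) : False := by
  classical
  set f : Fin 2 × Fin 4 ↪ Fin 11 := blockEmb (show 4 * 2 ≤ 11 by norm_num) with hf
  have hB := four_blocks (k := 2) f hR h2
  let pairW : Fin 3 × Fin 3 → Fin 2 → Option (Fin 3) := fun p => ![some p.1, some p.2]
  have hsupp : ∀ p, (supp (pairW p)).card = 2 := fun p => by
    rw [supp, Finset.filter_true_of_mem fun i _ => by fin_cases i <;> rfl, Finset.card_univ,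
      Fintype.card_fin]
  have hW : ∀ p, Wt R (fourT f) (1 : L) (-1) (pairW p) := fun p =>
    four_move f hR h2 (by rw [hs, hsupp]) h
  have hpinj : Function.Injective pairW := fun p q hpq =>
    Prod.ext (Option.some_injective _ (congrFun hpq 0)) (Option.some_injective _ (congrFun hpq 1))
  -- no vector is fixed by the first block
  have h0 : IsBlocks.eigB R (fourT f) (1 : L) (-1) 0 none = ⊥ := by
    by_contra hne
    obtain ⟨χ, w, hw, hwv⟩ := exists_weight (fun a => R (fourT f a)) hB.comm hne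
      (fun a => hB.eigB_inv 0 none a)
    obtain ⟨s₀, rfl⟩ := hB.exists_code hwv
    have hs0 : s₀ 0 = none := hB.blockVal_inj (funext fun u => by
      have h1 := IsBlocks.mem_eigB.1 hw u
      have h2 : R (fourT f (0, u)) w = chi (1 : L) (-1) s₀ (0, u) • w := hwv.2 (0, u)
      rw [h1] at h2
      exact (smul_left_injective L hwv.1 h2).symm)
    have hall : ∀ o : Option (Fin 3 × Fin 3), Wt R (fourT f) (1 : L) (-1) (o.elim s₀ pairW) := by
      rintro (_ | p)
      · exact ⟨w, hwv⟩
      · exact hW p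
    have hinj : Function.Injective (fun o : Option (Fin 3 × Fin 3) => o.elim s₀ pairW) := by
      rintro (_ | p) (_ | q) hpq
      · rfl
      · have := congrFun hpq 0; simp [pairW, hs0] at this
      · have := congrFun hpq 0; simp [pairW, hs0] at this
      · exact congrArg some (hpinj hpq)
    have := card_weights_le (fun a => R (fourT f a)) _ (hB.chi_inj.comp hinj) hall
    simp at this
    omega
  -- the eigenspaces of the first block are small
  have hU : ∀ c, finrank L (IsBlocks.eigB R (fourT f) (1 : L) (-1) 0 (some c)) < 4 := by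
    intro c
    have hsum := sum_finrank_le (fun u => R (fourT f (0, u)))
      (fun c => blockVal (1 : L) (-1) (some c)) (hB.blockVal_inj.comp (Option.some_injective _))
      (fun c => IsBlocks.eigB R (fourT f) (1 : L) (-1) 0 (some c))
      (fun c v hv u => IsBlocks.mem_eigB.1 hv u)
    rw [Fin.sum_univ_three] at hsum
    have e0 := four_eig_finrank f hR h2 0 0 c 0
    have e1 := four_eig_finrank f hR h2 0 0 c 1
    have e2 := four_eig_finrank f hR h2 0 0 c 2
    omega
  have hfp : ∀ (x : Fin 4), (f (0, x)).val = x.val := fun x => by simp [hf, blockEmb_val]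
  -- even permutations away from the first block stabilise the eigenspaces
  have hinv : ∀ g : Perm (Fin 11), sign g = 1 → (∀ y : Fin 11, y.val < 4 → g y = y) →
      ∀ c, ∀ v ∈ IsBlocks.eigB R (fourT f) (1 : L) (-1) 0 c,
        R g v ∈ IsBlocks.eigB R (fourT f) (1 : L) (-1) 0 c := by
    intro g hg hfix c v hv
    rw [IsBlocks.mem_eigB] at hv ⊢
    intro u
    have hc : g * fourT f (0, u) * g⁻¹ = fourT f (0, u) := by
      rw [fourT_eq, dt_conj, hfix, hfix, hfix, hfix] <;> rw [hfp] <;> omega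
    conv_lhs => rw [← hc]
    rw [hR.conj_apply hg (fourT_sign f _), hv, map_smul]
  obtain ⟨q, hq, hq1, hqfix⟩ : ∃ q : Perm (Fin 11), sign q = 1 ∧ q ≠ 1 ∧
      ∀ c, ∀ v ∈ IsBlocks.eigB R (fourT f) (1 : L) (-1) 0 (some c), R q v = v := by
    by_cases h5 : (5 : L) = 0
    · have h3 : (3 : L) ≠ 0 := fun h3 => h2 (by linear_combination h5 - h3)
      let x : Perm (Fin 11) := Alt.cyc3 4 5 6
      let y : Perm (Fin 11) := Alt.cyc3 7 8 9
      obtain ⟨hx, hy, hxy, hx3, hy3, hfx, hfy, hx1⟩ :
          sign x = 1 ∧ sign y = 1 ∧ x * y = y * x ∧ x ^ 3 = 1 ∧ y ^ 3 = 1 ∧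
          (∀ z : Fin 11, z.val < 4 → x z = z) ∧ (∀ z : Fin 11, z.val < 4 → y z = z) ∧ x ≠ 1 := by
        decide
      obtain ⟨g, hg, h1, h2', hfg⟩ : ∃ g : Perm (Fin 11), sign g = 1 ∧ g * x * g⁻¹ = y ∧
          g * y * g⁻¹ = x⁻¹ ∧ ∀ z : Fin 11, z.val < 4 → g z = z :=
        ⟨swap 4 7 * swap 5 8 * swap 6 9 * swap 8 9, by decide, by decide, by decide, by decide⟩
      exact ⟨x, hx, hx1, fun c v hv => pair_trivial h3 hR hx hy hg hx3 hy3 hxy h1 h2' _
        (hinv x hx hfx _) (hinv y hy hfy _) (hinv g hg hfg _) (hU c) hv⟩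
    · obtain ⟨c₅, g, hc, hg, hc5, hconj, hfc, hfg, hc1⟩ : ∃ c g : Perm (Fin 11),
          sign c = 1 ∧ sign g = 1 ∧ c ^ 5 = 1 ∧ g * c * g⁻¹ = c ^ 2 ∧
          (∀ z : Fin 11, z.val < 4 → c z = z) ∧ (∀ z : Fin 11, z.val < 4 → g z = z) ∧ c ≠ 1 :=
        ⟨swap 4 5 * swap 5 6 * swap 6 7 * swap 7 8, swap 5 6 * swap 6 8 * swap 8 7 * swap 9 10,
          by decide, by decide, by decide, by decide, by decide, by decide, by decide⟩
      exact ⟨c₅, hc, hc1, fun c v hv => five_trivial h5 hR hc hg hc5 hconj _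
        (hinv c₅ hc hfc _) (hinv g hg hfg _) (hU c) hv⟩
  refine hR.ne_one (by norm_num) hnt hq hq1 (LinearMap.ext fun v => ?_)
  have := four_decomp f hR h2 0 (U := LinearMap.ker (R q - 1)) (fun c w hw => by
    rcases c with _ | c
    · rw [h0, Submodule.mem_bot] at hw; rw [hw]; exact Submodule.zero_mem _
    · simp [LinearMap.mem_ker, hqfix c w hw]) v
  simpa [sub_eq_zero] using this

end Cfsg.Agent.H73.AltDim
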