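import Cfsg.Agent.H73.AltDim.Odd

/-!
Two double transpositions with a common line make a three cycle move at most a plane.
-/

set_option autoImplicit false

namespace Cfsg.Agent.H73.AltDim

open Equiv Equiv.Perm Module
open Cfsg.Agent.Alt (cyc3 cyc3_conj)

variable {L : Type*} [Field L] {V : Type*} [AddCommGroup V] [Module L V]

theorem minus_eq_range {a : End L V} (h2 : (2 : L) ≠ 0) (ha : a ^ 2 = 1) :
    LinearMap.range (a - 1) = LinearMap.ker (a + 1) := by
  have h' : ∀ w, a (a w) = w := fun w => by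
    have := LinearMap.congr_fun ha w
    simpa [sq] using this
  ext v
  simp only [LinearMap.mem_range, LinearMap.mem_ker, LinearMap.sub_apply, LinearMap.add_apply,
    Module.End.one_apply]
  constructor
  · rintro ⟨u, rfl⟩; rw [map_sub, h']; abel
  · intro hv
    refine ⟨(-2 : L)⁻¹ • v, ?_⟩
    rw [map_smul, eq_neg_of_add_eq_zero_left hv, smul_neg, ← neg_smul, ← sub_smul,
      show -(-2 : L)⁻¹ - (-2 : L)⁻¹ = 1 by field_simp; ring, one_smul]

theorem mem_minus {a : End L V} {v : V} : v ∈ LinearMap.ker (a + 1) ↔ a v = -v := by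
  simp [add_eq_zero_iff_eq_neg]

variable [FiniteDimensional L V]

/-- decomposition of an invariant subspace along an involution -/
theorem split_finrank {a : End L V} (h2 : (2 : L) ≠ 0) (ha : a ^ 2 = 1) {W : Submodule L V}
    (hW : ∀ v ∈ W, a v ∈ W) :
    finrank L W = finrank L ↥(W ⊓ LinearMap.ker (a + 1)) + finrank L ↥(W ⊓ LinearMap.ker (a - 1)) := by
  have h' : ∀ w, a (a w) = w := fun w => by
    have := LinearMap.congr_fun ha w
    simpa [sq] using this
  have hinf : W ⊓ LinearMap.ker (a + 1) ⊓ (W ⊓ LinearMap.ker (a - 1)) = ⊥ := by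
    rw [eq_bot_iff]
    rintro v ⟨⟨-, h1⟩, -, h2'⟩
    simp only [SetLike.mem_coe, LinearMap.mem_ker, LinearMap.add_apply, LinearMap.sub_apply,
      Module.End.one_apply] at h1 h2'
    have : (2 : L) • v = 0 := by
      rw [two_smul, show v + v = (a v + v) - (a v - v) by abel, h1, h2', sub_zero]
    exact (smul_eq_zero.1 this).resolve_left h2
  have hsup : W ⊓ LinearMap.ker (a + 1) ⊔ W ⊓ LinearMap.ker (a - 1) = W := by
    refine le_antisymm (sup_le inf_le_left inf_le_left) fun v hv => ?_
    have hh : ((2 : L)⁻¹ • (v - a v)) + ((2 : L)⁻¹ • (v + a v)) = v := by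
      rw [← smul_add, show v - a v + (v + a v) = (2 : L) • v by module, smul_smul,
        inv_mul_cancel₀ h2, one_smul]
    refine Submodule.mem_sup.2 ⟨_, ⟨W.smul_mem _ (W.sub_mem hv (hW v hv)), ?_⟩, _,
      ⟨W.smul_mem _ (W.add_mem hv (hW v hv)), ?_⟩, hh⟩
    · show (a + 1) _ = 0
      rw [LinearMap.add_apply, Module.End.one_apply, map_smul, map_sub, h', ← smul_add]
      simp
    · show (a - 1) _ = 0
      rw [LinearMap.sub_apply, Module.End.one_apply, map_smul, map_add, h', ← smul_sub]
      simp [add_comm]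
  have := Submodule.finrank_sup_add_finrank_inf_eq (W ⊓ LinearMap.ker (a + 1)) (W ⊓ LinearMap.ker (a - 1))
  rw [hinf, finrank_bot, hsup, add_zero] at this
  exact this

theorem minus_inv {a b : End L V} (hab : a * b = b * a) :
    ∀ v ∈ LinearMap.ker (a + 1), b v ∈ LinearMap.ker (a + 1) := fun v hv => by
  rw [mem_minus] at hv ⊢
  rw [← Module.End.mul_apply, hab, Module.End.mul_apply, hv, map_neg]

/-- two commuting involutions with planes as minus spaces and a plane for the product share a line -/
theorem common_line {a b : End L V} (h2 : (2 : L) ≠ 0) (ha : a ^ 2 = 1) (hb : b ^ 2 = 1)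
    (hab : a * b = b * a) (da : finrank L (LinearMap.ker (a + 1)) = 2)
    (db : finrank L (LinearMap.ker (b + 1)) = 2) (dab : finrank L (LinearMap.ker (a * b + 1)) = 2) :
    finrank L ↥(LinearMap.ker (a + 1) ⊓ LinearMap.ker (b + 1)) = 1 ∧
      finrank L ↥(LinearMap.ker (a + 1) ⊓ LinearMap.ker (b - 1)) = 1 := by
  have e1 := split_finrank h2 hb (minus_inv hab)
  have e2 := split_finrank h2 ha (minus_inv hab.symm)
  have e3 := split_finrank h2 ha (W := LinearMap.ker (a * b + 1))
    (minus_inv (show a * b * a = a * (a * b) by rw [mul_assoc a b a, ← hab]))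
  have i1 : LinearMap.ker (a * b + 1) ⊓ LinearMap.ker (a + 1) = LinearMap.ker (a + 1) ⊓ LinearMap.ker (b - 1) := by
    ext v
    simp only [Submodule.mem_inf, LinearMap.mem_ker, LinearMap.sub_apply, LinearMap.add_apply,
      Module.End.one_apply, sub_eq_zero, add_eq_zero_iff_eq_neg]
    constructor
    · rintro ⟨h1, h2⟩
      refine ⟨h2, ?_⟩
      rw [hab, Module.End.mul_apply, h2, map_neg, neg_inj] at h1
      exact h1
    · rintro ⟨h1, h2⟩
      exact ⟨by rw [Module.End.mul_apply, h2, h1], h1⟩
  have i2 : LinearMap.ker (a * b + 1) ⊓ LinearMap.ker (a - 1) = LinearMap.ker (b + 1) ⊓ LinearMap.ker (a - 1) := by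
    ext v
    simp only [Submodule.mem_inf, LinearMap.mem_ker, LinearMap.sub_apply, LinearMap.add_apply,
      Module.End.one_apply, sub_eq_zero, add_eq_zero_iff_eq_neg]
    constructor
    · rintro ⟨h1, h2⟩
      refine ⟨?_, h2⟩
      rw [hab, Module.End.mul_apply, h2] at h1
      exact h1
    · rintro ⟨h1, h2⟩
      exact ⟨by rw [hab, Module.End.mul_apply, h2, h1], h2⟩
  rw [i1, i2] at e3
  rw [inf_comm (LinearMap.ker (b + 1)) (LinearMap.ker (a + 1))] at e2
  omega

variable {r : ℕ} {R : Perm (Fin r) → End L V}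

theorem dt_sq {α : Type*} [DecidableEq α] {a b c d : α} (hac : a ≠ c) (had : a ≠ d) (hbc : b ≠ c)
    (hbd : b ≠ d) : dt a b c d ^ 2 = 1 := by
  have h : dt a b c d * swap a b = swap a b * dt a b c d := by
    have e : swap a b * swap c d * swap a b = swap c d := by
      conv_lhs => arg 2; rw [← swap_inv]
      rw [← swap_apply_apply, swap_apply_of_ne_of_ne hac.symm hbc.symm,
        swap_apply_of_ne_of_ne had.symm hbd.symm]
    rw [dt, e, ← mul_assoc, swap_mul_self, one_mul]
  rw [sq]
  nth_rw 2 [dt]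
  rw [← mul_assoc, h, dt, ← mul_assoc, swap_mul_self, one_mul, swap_mul_self]

theorem swap_comm_of_ne {α : Type*} [DecidableEq α] {a b c d : α} (hac : a ≠ c) (had : a ≠ d)
    (hbc : b ≠ c) (hbd : b ≠ d) : swap a b * swap c d = swap c d * swap a b := by
  rw [← mul_inv_eq_iff_eq_mul, ← swap_apply_apply, swap_apply_of_ne_of_ne hac.symm hbc.symm,
    swap_apply_of_ne_of_ne had.symm hbd.symm]

theorem odd_plane_le (hR : IsRep R) (h2 : (2 : L) ≠ 0) (hr : 5 ≤ r)
    (hnt : ∃ g : Perm (Fin r), sign g = 1 ∧ R g ≠ 1)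
    (hd : ∀ a b c d : Fin r, a ≠ b → a ≠ c → a ≠ d → b ≠ c → b ≠ d → c ≠ d →
        finrank L (LinearMap.range (R (dt a b c d) - 1)) = 2)
    (p : Fin 9 ↪ Fin r) : finrank L (LinearMap.range (R (cyc3 (p 0) (p 1) (p 2)) - 1)) ≤ 2 := by
  have hne : ∀ i j : Fin 9, i ≠ j → p i ≠ p j := fun i j h => p.injective.ne h
  let t := dt (p 0) (p 1) (p 3) (p 4)
  let t' := dt (p 1) (p 2) (p 3) (p 4)
  let s₁ := dt (p 3) (p 4) (p 5) (p 6)
  let s₂ := dt (p 3) (p 4) (p 7) (p 8)
  have hsg : ∀ i j k l : Fin 9, i ≠ j → k ≠ l → sign (dt (p i) (p j) (p k) (p l)) = 1 :=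
    fun i j k l h h' => dt_sign (hne i j h) (hne k l h')
  have st : sign t = 1 := hsg _ _ _ _ (by decide) (by decide)
  have st' : sign t' = 1 := hsg _ _ _ _ (by decide) (by decide)
  have ss1 : sign s₁ = 1 := hsg _ _ _ _ (by decide) (by decide)
  have ss2 : sign s₂ = 1 := hsg _ _ _ _ (by decide) (by decide)
  have sc : ∀ i j k l : Fin 9, i ≠ k → i ≠ l → j ≠ k → j ≠ l →
      swap (p i) (p j) * swap (p k) (p l) = swap (p k) (p l) * swap (p i) (p j) :=
    fun i j k l a b c d => swap_comm_of_ne (hne _ _ a) (hne _ _ b) (hne _ _ c) (hne _ _ d)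
  have hsq : ∀ {i j k l : Fin 9}, i ≠ j → k ≠ l → i ≠ k → i ≠ l → j ≠ k → j ≠ l →
      R (dt (p i) (p j) (p k) (p l)) ^ 2 = 1 := fun {i j k l} a b c d e g =>
    hR.pow_eq_one (hsg i j k l a b) (dt_sq (hne _ _ c) (hne _ _ d) (hne _ _ e) (hne _ _ g))
  -- commutations
  have hprod : ∀ {i j k l m n : Fin 9}, i ≠ k → i ≠ l → j ≠ k → j ≠ l → i ≠ m → i ≠ n → j ≠ m →
      j ≠ n → k ≠ m → k ≠ n → l ≠ m → l ≠ n →
      dt (p i) (p j) (p k) (p l) * dt (p k) (p l) (p m) (p n) = dt (p i) (p j) (p m) (p n) ∧
      dt (p k) (p l) (p m) (p n) * dt (p i) (p j) (p k) (p l) = dt (p i) (p j) (p m) (p n) := by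
    intro i j k l m n a b c d e g h o q u v w
    constructor
    · simp only [dt, mul_assoc]
      rw [← mul_assoc (swap (p k) (p l)) (swap (p k) (p l)), swap_mul_self, one_mul]
    · simp only [dt]
      rw [sc i j k l a b c d]
      calc swap (p k) (p l) * swap (p m) (p n) * (swap (p k) (p l) * swap (p i) (p j))
          = swap (p k) (p l) * (swap (p m) (p n) * swap (p k) (p l)) * swap (p i) (p j) := by group
        _ = swap (p i) (p j) * swap (p m) (p n) := by
            rw [← sc k l m n q u v w, ← mul_assoc, swap_mul_self, one_mul, sc i j m n e g h o]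
  obtain ⟨e1, e1'⟩ := hprod (i := 0) (j := 1) (k := 3) (l := 4) (m := 5) (n := 6)
    (by decide) (by decide) (by decide) (by decide) (by decide) (by decide) (by decide) (by decide)
    (by decide) (by decide) (by decide) (by decide)
  obtain ⟨e2, e2'⟩ := hprod (i := 0) (j := 1) (k := 3) (l := 4) (m := 7) (n := 8)
    (by decide) (by decide) (by decide) (by decide) (by decide) (by decide) (by decide) (by decide)
    (by decide) (by decide) (by decide) (by decide)
  obtain ⟨f1, f1'⟩ := hprod (i := 1) (j := 2) (k := 3) (l := 4) (m := 5) (n := 6)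
    (by decide) (by decide) (by decide) (by decide) (by decide) (by decide) (by decide) (by decide)
    (by decide) (by decide) (by decide) (by decide)
  obtain ⟨f2, f2'⟩ := hprod (i := 1) (j := 2) (k := 3) (l := 4) (m := 7) (n := 8)
    (by decide) (by decide) (by decide) (by decide) (by decide) (by decide) (by decide) (by decide)
    (by decide) (by decide) (by decide) (by decide)
  obtain ⟨g12, g12'⟩ := hprod (i := 5) (j := 6) (k := 3) (l := 4) (m := 7) (n := 8)
    (by decide) (by decide) (by decide) (by decide) (by decide) (by decide) (by decide) (by decide)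
    (by decide) (by decide) (by decide) (by decide)
  have hflip : dt (p 5) (p 6) (p 3) (p 4) = s₁ := sc 5 6 3 4 (by decide) (by decide) (by decide) (by decide)
  rw [hflip] at g12 g12'
  have c11 : R t * R s₁ = R s₁ * R t := hR.commute st ss1 (e1.trans e1'.symm)
  have c12 : R t * R s₂ = R s₂ * R t := hR.commute st ss2 (e2.trans e2'.symm)
  have c21 : R t' * R s₁ = R s₁ * R t' := hR.commute st' ss1 (f1.trans f1'.symm)
  have c22 : R t' * R s₂ = R s₂ * R t' := hR.commute st' ss2 (f2.trans f2'.symm)
  have css : R s₁ * R s₂ = R s₂ * R s₁ := hR.commute ss1 ss2 (g12.trans g12'.symm)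
  have qt : R t ^ 2 = 1 := hsq (by decide) (by decide) (by decide) (by decide) (by decide) (by decide)
  have qt' : R t' ^ 2 = 1 := hsq (by decide) (by decide) (by decide) (by decide) (by decide) (by decide)
  have q1 : R s₁ ^ 2 = 1 := hsq (by decide) (by decide) (by decide) (by decide) (by decide) (by decide)
  have q2 : R s₂ ^ 2 = 1 := hsq (by decide) (by decide) (by decide) (by decide) (by decide) (by decide)
  have dim : ∀ {i j k l : Fin 9}, i ≠ j → i ≠ k → i ≠ l → j ≠ k → j ≠ l → k ≠ l →
      finrank L (LinearMap.ker (R (dt (p i) (p j) (p k) (p l)) + 1)) = 2 := by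
    intro i j k l a b c d e g
    rw [← minus_eq_range h2 (hsq a g b c d e)]
    exact hd _ _ _ _ (hne _ _ a) (hne _ _ b) (hne _ _ c) (hne _ _ d) (hne _ _ e) (hne _ _ g)
  have d12 : finrank L (LinearMap.ker (R s₁ * R s₂ + 1)) = 2 := by
    rw [← hR.map_mul _ _ ss1 ss2, g12]
    exact dim (by decide) (by decide) (by decide) (by decide) (by decide) (by decide)
  obtain ⟨hL, hA'⟩ := common_line h2 q1 q2 css
    (dim (by decide) (by decide) (by decide) (by decide) (by decide) (by decide))
    (dim (by decide) (by decide) (by decide) (by decide) (by decide) (by decide)) d12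
  set Λ := LinearMap.ker (R s₁ + 1) ⊓ LinearMap.ker (R s₂ + 1) with hΛ
  have hLne : Λ ≠ ⊥ := fun h => by rw [h, finrank_bot] at hL; omega
  -- the common line lies in both minus spaces
  have key : ∀ u : Perm (Fin r), sign u = 1 → R u ^ 2 = 1 → R u * R s₁ = R s₁ * R u →
      R u * R s₂ = R s₂ * R u → finrank L (LinearMap.ker (R u + 1)) = 2 →
      finrank L (LinearMap.ker (R u * R s₁ + 1)) = 2 → finrank L (LinearMap.ker (R u * R s₂ + 1)) = 2 →
      u * s₁ * s₂ ≠ 1 → Λ ≤ LinearMap.ker (R u + 1) := by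
    intro u su qu cu1 cu2 du du1 du2 hne1
    obtain ⟨hu1, hu1'⟩ := common_line h2 qu q1 cu1 du (dim (by decide) (by decide) (by decide) (by decide) (by decide) (by decide)) du1
    obtain ⟨hu2, hu2'⟩ := common_line h2 qu q2 cu2 du (dim (by decide) (by decide) (by decide) (by decide) (by decide) (by decide)) du2
    obtain ⟨h1u, -⟩ := common_line h2 q1 qu cu1.symm (dim (by decide) (by decide) (by decide) (by decide) (by decide) (by decide)) du
      (by rw [← cu1]; exact du1)
    by_contra hnle
    have hinv : ∀ v ∈ Λ, R u v ∈ Λ := fun v hv =>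
      ⟨minus_inv cu1.symm v hv.1, minus_inv cu2.symm v hv.2⟩
    have hplus : Λ ≤ LinearMap.ker (R u - 1) := by
      have := split_finrank h2 qu hinv
      have hz : finrank L ↥(Λ ⊓ LinearMap.ker (R u + 1)) = 0 := by
        by_contra hz
        refine hnle (le_trans ?_ (inf_le_right : Λ ⊓ _ ≤ _))
        exact (Submodule.eq_of_le_of_finrank_le inf_le_left (by rw [hL]; omega)).ge
      exact le_trans (Submodule.eq_of_le_of_finrank_le inf_le_left (by omega)).ge inf_le_right
    have hdisj : ∀ v, R u v = -v → R s₁ v = -v → R s₂ v = -v → v = 0 := fun v a b c => by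
      have := hplus (⟨mem_minus.2 b, mem_minus.2 c⟩ : v ∈ Λ)
      rw [LinearMap.mem_ker, LinearMap.sub_apply, Module.End.one_apply, a] at this
      have h' : (2 : L) • v = 0 := by rw [two_smul, ← neg_eq_zero, ← this]; abel
      exact (smul_eq_zero.1 h').resolve_left h2
    -- the minus space of `u` splits into two lines
    set X := LinearMap.ker (R u + 1) ⊓ LinearMap.ker (R s₁ + 1) with hX
    set Y := LinearMap.ker (R u + 1) ⊓ LinearMap.ker (R s₂ + 1) with hY
    have hXY : X ⊓ Y = ⊥ := by
      rw [eq_bot_iff]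
      rintro v ⟨⟨a, b⟩, -, c⟩
      exact hdisj v (mem_minus.1 a) (mem_minus.1 b) (mem_minus.1 c)
    have hT : X ⊔ Y = LinearMap.ker (R u + 1) := by
      refine Submodule.eq_of_le_of_finrank_le (sup_le inf_le_left inf_le_left) ?_
      have := Submodule.finrank_sup_add_finrank_inf_eq X Y
      rw [hXY, finrank_bot] at this
      have : finrank L ↥X = 1 := hu1
      have : finrank L ↥Y = 1 := hu2
      rw [du]; omega
    -- the second line of the minus space of the first involution
    have hA : LinearMap.ker (R s₁ + 1) = X ⊔ Λ := by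
      refine (Submodule.eq_of_le_of_finrank_le (sup_le inf_le_right inf_le_left) ?_).symm
      have := Submodule.finrank_sup_add_finrank_inf_eq X Λ
      have hbot : X ⊓ Λ = ⊥ := by
        rw [eq_bot_iff]
        rintro v ⟨⟨a, -⟩, b, c⟩
        exact hdisj v (mem_minus.1 a) (mem_minus.1 b) (mem_minus.1 c)
      rw [hbot, finrank_bot, hL] at this
      have : finrank L ↥X = 1 := hu1
      rw [dim (by decide) (by decide) (by decide) (by decide) (by decide) (by decide)]; omega
    have hB : LinearMap.ker (R s₂ + 1) = Y ⊔ Λ := by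
      refine (Submodule.eq_of_le_of_finrank_le (sup_le inf_le_right inf_le_right) ?_).symm
      have := Submodule.finrank_sup_add_finrank_inf_eq Y Λ
      have hbot : Y ⊓ Λ = ⊥ := by
        rw [eq_bot_iff]
        rintro v ⟨⟨a, -⟩, b, c⟩
        exact hdisj v (mem_minus.1 a) (mem_minus.1 b) (mem_minus.1 c)
      rw [hbot, finrank_bot, hL] at this
      have : finrank L ↥Y = 1 := hu2
      rw [dim (by decide) (by decide) (by decide) (by decide) (by decide) (by decide)]; omega
    -- each eigenvector triple has product one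
    have hsignX : ∀ v ∈ X, R s₂ v = v := by
      intro v hv
      have hvv : R s₂ v ∈ X := ⟨minus_inv cu2 v hv.1, minus_inv css v hv.2⟩
      have := split_finrank h2 q2 (W := X) (fun w hw => ⟨minus_inv cu2 w hw.1, minus_inv css w hw.2⟩)
      have hz : X ⊓ LinearMap.ker (R s₂ + 1) = ⊥ := by
        rw [eq_bot_iff]
        rintro w ⟨⟨a, b⟩, c⟩
        exact hdisj w (mem_minus.1 a) (mem_minus.1 b) (mem_minus.1 c)
      rw [hz, finrank_bot, zero_add] at this
      have h' := (Submodule.eq_of_le_of_finrank_le inf_le_left this.le).ge hv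
      have := h'.2
      simpa [sub_eq_zero] using this
    have hsignY : ∀ v ∈ Y, R s₁ v = v := by
      intro v hv
      have := split_finrank h2 q1 (W := Y) (fun w hw => ⟨minus_inv cu1 w hw.1, minus_inv css.symm w hw.2⟩)
      have hz : Y ⊓ LinearMap.ker (R s₁ + 1) = ⊥ := by
        rw [eq_bot_iff]
        rintro w ⟨⟨a, c⟩, b⟩
        exact hdisj w (mem_minus.1 a) (mem_minus.1 b) (mem_minus.1 c)
      rw [hz, finrank_bot, zero_add] at this
      have h' := (Submodule.eq_of_le_of_finrank_le inf_le_left this.le).ge hv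
      have := h'.2
      simpa [sub_eq_zero] using this
    let S := LinearMap.ker (R u * (R s₁ * R s₂) - 1)
    have memS : ∀ v, v ∈ S ↔ R u (R s₁ (R s₂ v)) = v := fun v => by simp [S, sub_eq_zero]
    have hΛp : ∀ v ∈ Λ, R u v = v := fun v hv => by simpa [sub_eq_zero] using hplus hv
    have hXS : X ≤ S := fun v hv => by
      rw [memS, hsignX v hv, mem_minus.1 hv.2, map_neg, mem_minus.1 hv.1, neg_neg]
    have hYS : Y ≤ S := fun v hv => by
      rw [memS, mem_minus.1 hv.2, map_neg, hsignY v hv, map_neg, mem_minus.1 hv.1, neg_neg]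
    have hΛS : Λ ≤ S := fun v hv => by
      rw [memS, mem_minus.1 hv.2, map_neg, mem_minus.1 hv.1, neg_neg, hΛp v hv]
    refine hR.ne_one hr hnt (sign_mul_one (sign_mul_one su ss1) ss2) hne1 ?_
    rw [hR.map_mul _ _ (sign_mul_one su ss1) ss2, hR.map_mul _ _ su ss1, mul_assoc]
    have hminus : ∀ {e : End L V}, e ^ 2 = 1 → LinearMap.ker (e + 1) ≤ S → ∀ v,
        (R u * (R s₁ * R s₂) - 1) (e v) = (R u * (R s₁ * R s₂) - 1) v := by
      intro e he hle v
      have hm : e v - v ∈ LinearMap.ker (e + 1) := by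
        rw [← minus_eq_range h2 he]; exact ⟨v, by simp⟩
      have := hle hm
      rwa [LinearMap.mem_ker, map_sub, sub_eq_zero] at this
    have k1 := hminus qu (hT ▸ sup_le hXS hYS)
    have k2 := hminus q1 (hA ▸ sup_le hXS hΛS)
    have k3 := hminus q2 (hB ▸ sup_le hYS hΛS)
    set P := R u * (R s₁ * R s₂) with hP
    have hP2 : P * P = 1 := by
      have qq : (R s₁ * R s₂) * (R s₁ * R s₂) = 1 := by
        rw [← sq, (show Commute (R s₁) (R s₂) from css).mul_pow, q1, q2, one_mul]
      have cc : Commute (R u) (R s₁ * R s₂) := Commute.mul_right cu1 cu2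
      rw [hP, ← sq, cc.mul_pow, qu, one_mul, sq, qq]
    refine LinearMap.ext fun v => ?_
    have h1 : (P - 1) (P v) = (P - 1) v := by
      calc (P - 1) (P v) = (P - 1) (R u (R s₁ (R s₂ v))) := by rw [hP]; rfl
        _ = (P - 1) v := by rw [k1, k2, k3]
    have h3 : P (P v) = v := LinearMap.congr_fun hP2 v
    simp only [LinearMap.sub_apply, Module.End.one_apply, h3] at h1
    have h4 : (2 : L) • (P v - v) = 0 := by
      rw [two_smul]; nth_rw 1 [← h1]; abel
    simpa [sub_eq_zero] using (smul_eq_zero.1 h4).resolve_left h2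
  have ht : Λ ≤ LinearMap.ker (R t + 1) := by
    refine key t st qt c11 c12 (dim (by decide) (by decide) (by decide) (by decide) (by decide) (by decide)) ?_ ?_ ?_
    · rw [← hR.map_mul _ _ st ss1, e1]; exact dim (by decide) (by decide) (by decide) (by decide) (by decide) (by decide)
    · rw [← hR.map_mul _ _ st ss2, e2]; exact dim (by decide) (by decide) (by decide) (by decide) (by decide) (by decide)
    · rw [e1]
      intro h
      have := Equiv.congr_fun h (p 0)
      simp [s₂, dt, swap_apply_of_ne_of_ne, p.injective.eq_iff] at this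
  have ht' : Λ ≤ LinearMap.ker (R t' + 1) := by
    refine key t' st' qt' c21 c22 (dim (by decide) (by decide) (by decide) (by decide) (by decide) (by decide)) ?_ ?_ ?_
    · rw [← hR.map_mul _ _ st' ss1, f1]; exact dim (by decide) (by decide) (by decide) (by decide) (by decide) (by decide)
    · rw [← hR.map_mul _ _ st' ss2, f2]; exact dim (by decide) (by decide) (by decide) (by decide) (by decide) (by decide)
    · rw [f1]
      intro h
      have := Equiv.congr_fun h (p 1)
      simp [s₂, dt, swap_apply_of_ne_of_ne, p.injective.eq_iff] at this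
  -- complement
  let ε : End L V := (4 : L)⁻¹ • ((1 - R s₁) * (1 - R s₂))
  have h4 : (4 : L) ≠ 0 := by
    intro h; exact mul_ne_zero h2 h2 (by linear_combination h)
  have p1 : ∀ v, R s₁ (R s₁ v) = v := fun v => by
    have := LinearMap.congr_fun q1 v; simpa [sq] using this
  have p2 : ∀ v, R s₂ (R s₂ v) = v := fun v => by
    have := LinearMap.congr_fun q2 v; simpa [sq] using this
  have hεΛ : ∀ v, ε v ∈ Λ := fun v => by
    have c := LinearMap.congr_fun css v
    simp only [Module.End.mul_apply] at c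
    have c' := LinearMap.congr_fun css (R s₂ v)
    simp only [Module.End.mul_apply, p2] at c'
    constructor
    · show ε v ∈ LinearMap.ker (R s₁ + 1)
      rw [mem_minus]
      simp only [ε, LinearMap.smul_apply, Module.End.mul_apply, LinearMap.sub_apply,
        Module.End.one_apply, map_smul, map_sub, p1]
      module
    · show ε v ∈ LinearMap.ker (R s₂ + 1)
      rw [mem_minus]
      simp only [ε, LinearMap.smul_apply, Module.End.mul_apply, LinearMap.sub_apply,
        Module.End.one_apply, map_smul, map_sub, p2, ← c, ← c']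
      module
  have hεid : ∀ v ∈ Λ, ε v = v := fun v hv => by
    simp only [ε, LinearMap.smul_apply, Module.End.mul_apply, LinearMap.sub_apply,
      Module.End.one_apply, map_sub, mem_minus.1 hv.2, mem_minus.1 hv.1, map_neg]
    rw [show v - -v - -(v - -v) = (4 : L) • v by module, smul_smul, inv_mul_cancel₀ h4, one_smul]
  set H := LinearMap.ker ε with hH
  have hline : ∀ {u : Perm (Fin r)}, R u * R s₁ = R s₁ * R u → R u * R s₂ = R s₂ * R u →
      Λ ≤ LinearMap.ker (R u + 1) → finrank L (LinearMap.ker (R u + 1)) = 2 →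
      finrank L ↥(LinearMap.ker (R u + 1) ⊓ H) ≤ 1 ∧ ∀ v ∈ H, R u v ∈ H := by
    intro u cu1 cu2 hle du
    constructor
    · have := Submodule.finrank_sup_add_finrank_inf_eq Λ (LinearMap.ker (R u + 1) ⊓ H)
      have hbot : Λ ⊓ (LinearMap.ker (R u + 1) ⊓ H) = ⊥ := by
        rw [eq_bot_iff]
        rintro v ⟨a, -, b⟩
        rw [Submodule.mem_bot, ← hεid v a]
        exact b
      rw [hbot, finrank_bot, hL] at this
      have := Submodule.finrank_mono (sup_le hle (inf_le_left : LinearMap.ker (R u + 1) ⊓ H ≤ _))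
      omega
    · intro v hv
      have hcomm : ε * R u = R u * ε := by
        simp only [ε, smul_mul_assoc, mul_smul_comm]
        congr 1
        exact (Commute.mul_left ((Commute.one_left _).sub_left cu1.symm)
          ((Commute.one_left _).sub_left cu2.symm)).eq
      show ε (R u v) = 0
      rw [← Module.End.mul_apply, hcomm, Module.End.mul_apply, show ε v = 0 from hv, map_zero]
  obtain ⟨dT, iT⟩ := hline c11 c12 ht (dim (by decide) (by decide) (by decide) (by decide) (by decide) (by decide))
  obtain ⟨dT', iT'⟩ := hline c21 c22 ht' (dim (by decide) (by decide) (by decide) (by decide) (by decide) (by decide))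
  have hcyc : cyc3 (p 0) (p 1) (p 2) = t * t' := by
    simp only [t, t', dt, cyc3]
    rw [sc 1 2 3 4 (by decide) (by decide) (by decide) (by decide),
      show swap (p 0) (p 1) * swap (p 3) (p 4) * (swap (p 3) (p 4) * swap (p 1) (p 2)) =
        swap (p 0) (p 1) * (swap (p 3) (p 4) * swap (p 3) (p 4)) * swap (p 1) (p 2) by group,
      swap_mul_self, mul_one]
  have hle : LinearMap.range (R (cyc3 (p 0) (p 1) (p 2)) - 1) ≤
      (LinearMap.ker (R t + 1) ⊓ H) ⊔ (LinearMap.ker (R t' + 1) ⊓ H) := by
    rintro _ ⟨v, rfl⟩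
    rw [hcyc, hR.map_mul _ _ st st']
    set h := v - ε v
    have hh : h ∈ H := by
      show ε (v - ε v) = 0
      rw [map_sub, hεid _ (hεΛ v), sub_self]
    have e : (R t * R t' - 1) v = (R t (R t' h) - R t' h) + (R t' h - h) := by
      have hl := hεΛ v
      have a1 : R t' (ε v) = -ε v := mem_minus.1 (ht' hl)
      have a2 : R t (ε v) = -ε v := mem_minus.1 (ht hl)
      simp only [h, map_sub, a1, map_neg, a2, LinearMap.sub_apply, Module.End.mul_apply,
        Module.End.one_apply]
      abel
    rw [e]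
    refine Submodule.add_mem_sup ⟨?_, H.sub_mem (iT _ (iT' _ hh)) (iT' _ hh)⟩
      ⟨?_, H.sub_mem (iT' _ hh) hh⟩
    · show R t (R t' h) - R t' h ∈ LinearMap.ker (R t + 1)
      rw [← minus_eq_range h2 qt]; exact ⟨R t' h, by simp⟩
    · show R t' h - h ∈ LinearMap.ker (R t' + 1)
      rw [← minus_eq_range h2 qt']; exact ⟨h, by simp⟩
  have := (Submodule.finrank_mono hle).trans (Submodule.finrank_add_le_finrank_add_finrank _ _)
  omega

theorem odd_planes [IsAlgClosed L] (hR : IsRep R) (h2 : (2 : L) ≠ 0) (hr : 9 ≤ r)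
    (hnt : ∃ g : Perm (Fin r), sign g = 1 ∧ R g ≠ 1) (hn : finrank L V ≤ r - 2) :
    5 ≤ finrank L V ∧ ∀ a b c : Fin r, a ≠ b → a ≠ c → b ≠ c →
      finrank L (LinearMap.range (R (cyc3 a b c) - 1)) = 2 := by
  obtain ⟨h5, hd, hge⟩ := four_result hR h2 hr hnt hn
  refine ⟨h5, fun a b c hab hac hbc => le_antisymm ?_ (hge a b c hab hac hbc)⟩
  let p : Fin 9 ↪ Fin r := ⟨Fin.castLE hr, Fin.castLE_injective hr⟩
  obtain ⟨σ, hσ, hσi⟩ := exists_even_map ![p 0, p 1, p 2] ![a, b, c]
    (by intro i j h; fin_cases i <;> fin_cases j <;> simp at h ⊢)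
    (by intro i j h; fin_cases i <;> fin_cases j <;> simp [hab, hac, hbc, hab.symm, hac.symm,
      hbc.symm] at h ⊢)
    (by omega)
  have h0 := hσi 0; have h1 := hσi 1; have h2' := hσi 2
  simp only [Fin.isValue, Matrix.cons_val_zero, Matrix.cons_val_one, Matrix.cons_val] at h0 h1 h2'
  rw [← h0, ← h1, ← h2', ← cyc3_conj, hR.finrank_range_conj hσ
    (cyc3_sign (p.injective.ne (by decide)) (p.injective.ne (by decide)))]
  exact odd_plane_le hR h2 (by omega) hnt hd p

end Cfsg.Agent.H73.AltDim
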