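import Cfsg.Agent.H73.AltDim.Tools

/-!
When every three cycle moves exactly a plane, the representation has degree at least `r - 2`,
and at least `r - 1` when the characteristic does not divide `r`.
-/

set_option autoImplicit false

namespace Cfsg.Agent.H73.AltDim

open Equiv Equiv.Perm Module
open Cfsg.Agent.Alt (cyc3 cyc3_conj cyc3_apply_left cyc3_apply_mid cyc3_apply_right cyc3_apply_other)

variable {L : Type*} [Field L] {V : Type*} [AddCommGroup V] [Module L V] {r : ℕ}
  {R : Perm (Fin r) → End L V}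

theorem invariant_of_cyc3 (hR : IsRep R) {a b : Fin r} (hab : a ≠ b) {W : Submodule L V}
    (h : ∀ x, x ≠ a → x ≠ b → ∀ v ∈ W, R (cyc3 a b x) v ∈ W) :
    ∀ g : Perm (Fin r), sign g = 1 → ∀ v ∈ W, R g v ∈ W := by
  intro g hg
  have hgm : g ∈ Subgroup.closure {g : Perm (Fin r) | ∃ x, x ≠ a ∧ x ≠ b ∧ g = cyc3 a b x} := by
    rw [Alt.closure_cyc3_pair hab]; exact hg
  suffices sign g = 1 ∧ ∀ v ∈ W, R g v ∈ W from this.2
  clear hg
  induction hgm using Subgroup.closure_induction with
  | mem y hy =>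
    obtain ⟨x, hxa, hxb, rfl⟩ := hy
    exact ⟨cyc3_sign hab hxb.symm, h x hxa hxb⟩
  | one => exact ⟨map_one _, fun v hv => by simpa [hR.map_one] using hv⟩
  | mul x y _ _ hx hy =>
    refine ⟨sign_mul_one hx.1 hy.1, fun v hv => ?_⟩
    rw [hR.map_mul _ _ hx.1 hy.1, Module.End.mul_apply]
    exact hx.2 _ (hy.2 v hv)
  | inv x _ hx =>
    refine ⟨sign_inv_one hx.1, ?_⟩
    have hinv : x⁻¹ = x ^ (orderOf x - 1) := by
      refine inv_eq_of_mul_eq_one_left ?_
      rw [← pow_succ, Nat.sub_add_cancel (orderOf_pos x), pow_orderOf_eq_one]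
    rw [hinv, hR.map_pow hx.1]
    intro v hv
    induction orderOf x - 1 with
    | zero => simpa using hv
    | succ k ih => rw [pow_succ', Module.End.mul_apply]; exact hx.2 _ ih

theorem coeff_eq_zero {P : Submodule L V} {l u w : V} (hl : l ∈ P) (hu : u ∈ P) (hw : w ∉ P)
    (hlu : ∀ c d : L, c • l + d • u = 0 → c = 0 ∧ d = 0) {c d e : L}
    (h : c • l + d • u + e • w = 0) : c = 0 ∧ d = 0 ∧ e = 0 := by
  have he : e = 0 := by
    by_contra he
    refine hw ?_
    have : e • w ∈ P := by
      rw [← neg_eq_of_add_eq_zero_right h]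
      exact P.neg_mem (P.add_mem (P.smul_mem _ hl) (P.smul_mem _ hu))
    simpa [smul_smul, inv_mul_cancel₀ he] using P.smul_mem e⁻¹ this
  rw [he, zero_smul, add_zero] at h
  exact ⟨(hlu c d h).1, (hlu c d h).2, he⟩

theorem cyc3_pair_rel {a b i j : Fin r} (hab : a ≠ b) (hai : a ≠ i) (hbi : b ≠ i) (haj : a ≠ j)
    (hbj : b ≠ j) (hij : i ≠ j) :
    cyc3 a b i * cyc3 a b j * (cyc3 a b i * cyc3 a b j) = 1 := by
  have e : cyc3 a b i * cyc3 a b j = dt a i b j := by
    ext y
    simp only [Perm.mul_apply, dt]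
    by_cases ha : y = a
    · subst ha
      rw [cyc3_apply_left hab haj, cyc3_apply_mid hai hbi,
        swap_apply_of_ne_of_ne hab haj, swap_apply_left]
    by_cases hb : y = b
    · subst hb
      rw [cyc3_apply_mid haj hbj, cyc3_apply_other haj.symm hbj.symm hij.symm, swap_apply_left,
        swap_apply_of_ne_of_ne haj.symm hij.symm]
    by_cases hj : y = j
    · subst hj
      rw [cyc3_apply_right, cyc3_apply_left hab hai, swap_apply_right,
        swap_apply_of_ne_of_ne hab.symm hbi]
    by_cases hi : y = i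
    · subst hi
      rw [cyc3_apply_other ha hb hj, cyc3_apply_right, swap_apply_of_ne_of_ne hb hj,
        swap_apply_right]
    rw [cyc3_apply_other ha hb hj, cyc3_apply_other ha hb hi, swap_apply_of_ne_of_ne hb hj,
      swap_apply_of_ne_of_ne ha hi]
  rw [e, dt]
  have hd : Perm.Disjoint (swap a i) (swap b j) := fun y => by
    by_cases ha : y = a
    · subst ha; exact Or.inr (swap_apply_of_ne_of_ne hab haj)
    by_cases hi : y = i
    · subst hi; exact Or.inr (swap_apply_of_ne_of_ne hbi.symm hij)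
    exact Or.inl (swap_apply_of_ne_of_ne ha hi)
  calc swap a i * swap b j * (swap a i * swap b j)
      = swap a i * (swap b j * swap a i) * swap b j := by group
    _ = swap a i * (swap a i * swap b j) * swap b j := by rw [hd.commute.eq]
    _ = 1 := by rw [← mul_assoc (swap a i), swap_mul_self, one_mul, swap_mul_self]

theorem exists_ne_list {r : ℕ} (s : List (Fin r)) (h : s.length < r) : ∃ x, x ∉ s := by
  by_contra! hx
  have : (Finset.univ : Finset (Fin r)).card ≤ s.toFinset.card :=
    Finset.card_le_card fun x _ => List.mem_toFinset.2 (hx x)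
  rw [Finset.card_univ, Fintype.card_fin] at this
  have := this.trans (List.toFinset_card_le s)
  omega

theorem planes_bound [FiniteDimensional L V] (hR : IsRep R) (hr : 6 ≤ r)
    (hirr : ∀ W : Submodule L V, (∀ g, sign g = 1 → ∀ v ∈ W, R g v ∈ W) → W = ⊥ ∨ W = ⊤)
    (hn : 5 ≤ finrank L V)
    (hP : ∀ a b c : Fin r, a ≠ b → a ≠ c → b ≠ c →
      finrank L (LinearMap.range (R (cyc3 a b c) - 1)) = 2) :
    r - 2 ≤ finrank L V ∧ ((r : L) ≠ 0 → r - 1 ≤ finrank L V) := by
  classical
  let a : Fin r := ⟨0, by omega⟩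
  let b : Fin r := ⟨1, by omega⟩
  have hab : a ≠ b := by simp [a, b, Fin.ext_iff]
  let I : Finset (Fin r) := ((Finset.univ.erase a).erase b)
  have hI : ∀ x, x ∈ I ↔ x ≠ b ∧ x ≠ a := by simp [I]
  have hIc : I.card = r - 2 := by
    simp only [I]
    rw [Finset.card_erase_of_mem (by simp [hab.symm]), Finset.card_erase_of_mem (Finset.mem_univ _),
      Finset.card_univ, Fintype.card_fin]
    omega
  let P : Fin r → Submodule L V := fun i => LinearMap.range (R (cyc3 a b i) - 1)
  have hPd : ∀ i ∈ I, finrank L (P i) = 2 := fun i hi =>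
    hP a b i hab ((hI i).1 hi).2.symm ((hI i).1 hi).1.symm
  have hs : ∀ i ∈ I, sign (cyc3 a b i) = 1 := fun i hi => cyc3_sign hab ((hI i).1 hi).1.symm
  have hmem : ∀ i (v : V), R (cyc3 a b i) v - v ∈ P i := fun i v => ⟨v, by simp⟩
  -- a subspace containing all planes is everything
  have hall : ∀ W : Submodule L V, W ≠ ⊥ → (∀ i ∈ I, P i ≤ W) → W = ⊤ := by
    intro W hW hPW
    refine (hirr W (invariant_of_cyc3 hR hab fun x hxa hxb v hv => ?_)).resolve_left hW
    have := hPW x ((hI x).2 ⟨hxb, hxa⟩) (hmem x v)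
    simpa using W.add_mem this hv
  have hPne : ∀ i ∈ I, P i ≠ ⊥ := fun i hi h => by
    have := hPd i hi
    rw [h, finrank_bot] at this
    omega
  -- distinct planes
  have hneq : ∀ i ∈ I, ∀ j ∈ I, i ≠ j → P i ≠ P j := by
    intro i hi j hj hij h
    have hsame : ∀ k ∈ I, k ≠ i → P k = P i := by
      intro k hk hki
      by_cases hkj : k = j
      · rw [hkj, h]
      obtain ⟨hib, hia⟩ := (hI i).1 hi
      obtain ⟨hjb, hja⟩ := (hI j).1 hj
      obtain ⟨hkb, hka⟩ := (hI k).1 hk
      obtain ⟨l, hl⟩ := exists_ne_list [a, b, i, j, k] (by simp; omega)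
      simp only [List.mem_cons, List.not_mem_nil, or_false, not_or] at hl
      obtain ⟨hla, hlb, hli, hlj, hlk⟩ := hl
      let g := cyc3 j k l
      have hg : sign g = 1 := cyc3_sign (Ne.symm hkj) (Ne.symm hlk)
      have hga : g a = a := cyc3_apply_other hja.symm hka.symm (Ne.symm hla)
      have hgb : g b = b := cyc3_apply_other hjb.symm hkb.symm (Ne.symm hlb)
      have hgi : g i = i := cyc3_apply_other hij (Ne.symm hki) (Ne.symm hli)
      have hgj : g j = k := cyc3_apply_left (Ne.symm hkj) (Ne.symm hlj)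
      have e1 : (P i).map (R g) = P i := by
        simp only [P]; rw [hR.map_range hg (hs i hi), cyc3_conj, hga, hgb, hgi]
      have e2 : (P j).map (R g) = P k := by
        simp only [P]; rw [hR.map_range hg (hs j hj), cyc3_conj, hga, hgb, hgj]
      rw [← e1, ← e2, h]
    have := hall (P i) (hPne i hi) fun k hk => by
      by_cases hki : k = i
      · rw [hki]
      · rw [hsame k hk hki]
    have h2 := hPd i hi
    rw [this, finrank_top] at h2
    omega
  have hsup : ∀ i ∈ I, ∀ j ∈ I, finrank L ↥(P i ⊔ P j) ≤ 4 := fun i hi j hj => by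
    have := Submodule.finrank_add_le_finrank_add_finrank (P i) (P j)
    rw [hPd i hi, hPd j hj] at this
    exact this
  -- two planes meet
  have hmeet : ∀ i ∈ I, ∀ j ∈ I, i ≠ j → P i ⊓ P j ≠ ⊥ := by
    intro i hi j hj hij h0
    have h4 : finrank L ↥(P i ⊔ P j) = 4 := by
      have := Submodule.finrank_sup_add_finrank_inf_eq (P i) (P j)
      rw [h0, finrank_bot, hPd i hi, hPd j hj] at this
      omega
    obtain ⟨hib, hia⟩ := (hI i).1 hi
    obtain ⟨hjb, hja⟩ := (hI j).1 hj
    have hk : ∀ k ∈ I, P k ≤ P i ⊔ P j := by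
      intro k hk
      by_cases hki : k = i
      · rw [hki]; exact le_sup_left
      by_cases hkj : k = j
      · rw [hkj]; exact le_sup_right
      obtain ⟨hkb, hka⟩ := (hI k).1 hk
      let y := cyc3 i j k
      have hy : sign y = 1 := cyc3_sign hij (Ne.symm hkj)
      let W := P i ⊔ LinearMap.range (R y - 1)
      have hinv : ∀ v ∈ W, R y v ∈ W := fun v hv => by
        have : R y v - v ∈ W := Submodule.mem_sup_right ⟨v, by simp⟩
        simpa using W.add_mem this hv
      have hmap : W.map (R y) ≤ W := by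
        rintro _ ⟨v, hv, rfl⟩; exact hinv v hv
      have hya : y a = a := cyc3_apply_other hia.symm hja.symm hka.symm
      have hyb : y b = b := cyc3_apply_other hib.symm hjb.symm hkb.symm
      have hyi : y i = j := cyc3_apply_left hij (Ne.symm hki)
      have hyj : y j = k := cyc3_apply_mid (Ne.symm hki) (Ne.symm hkj)
      have e1 : (P i).map (R y) = P j := by
        simp only [P]; rw [hR.map_range hy (hs i hi), cyc3_conj, hya, hyb, hyi]
      have e2 : (P j).map (R y) = P k := by
        simp only [P]; rw [hR.map_range hy (hs j hj), cyc3_conj, hya, hyb, hyj]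
      have hjW : P j ≤ W := e1 ▸ (Submodule.map_mono le_sup_left).trans hmap
      have hkW : P k ≤ W := e2 ▸ (Submodule.map_mono hjW).trans hmap
      have hW4 : finrank L W ≤ 4 := by
        have := Submodule.finrank_add_le_finrank_add_finrank (P i) (LinearMap.range (R y - 1))
        rw [hPd i hi, hP i j k hij (Ne.symm hki) (Ne.symm hkj)] at this
        exact this
      have heq : P i ⊔ P j = W :=
        Submodule.eq_of_le_of_finrank_le (sup_le le_sup_left hjW) (by rw [h4]; exact hW4)
      rw [heq]; exact hkW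
    have htop := hall _ (ne_bot_of_le_ne_bot (hPne i hi) le_sup_left) hk
    rw [htop, finrank_top] at h4
    omega
  have hinter : ∀ i ∈ I, ∀ j ∈ I, i ≠ j → finrank L ↥(P i ⊓ P j) = 1 := by
    intro i hi j hj hij
    have h1 : 1 ≤ finrank L ↥(P i ⊓ P j) := Submodule.one_le_finrank_iff.2 (hmeet i hi j hj hij)
    by_contra hne
    have hle := Submodule.finrank_mono (inf_le_left : P i ⊓ P j ≤ P i)
    rw [hPd i hi] at hle
    have e1 : P i ⊓ P j = P i :=
      Submodule.eq_of_le_of_finrank_le inf_le_left (by rw [hPd i hi]; omega)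
    have e2 : P i ⊓ P j = P j :=
      Submodule.eq_of_le_of_finrank_le inf_le_right (by rw [hPd j hj]; omega)
    exact hneq i hi j hj hij (e1.symm.trans e2)
  -- the common line
  obtain ⟨i₀, hi₀, j₀, hj₀, hij₀⟩ : ∃ i₀ ∈ I, ∃ j₀ ∈ I, i₀ ≠ j₀ :=
    Finset.one_lt_card.1 (by omega)
  set Λ := P i₀ ⊓ P j₀ with hΛ
  have hΛd : finrank L Λ = 1 := hinter i₀ hi₀ j₀ hj₀ hij₀
  set U := P i₀ ⊔ P j₀ with hU
  have hUd : finrank L U = 3 := by
    have := Submodule.finrank_sup_add_finrank_inf_eq (P i₀) (P j₀)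
    rw [← hU, ← hΛ, hΛd, hPd i₀ hi₀, hPd j₀ hj₀] at this
    omega
  have hcommon : ∀ i ∈ I, Λ ≤ P i := by
    by_contra hcon
    push Not at hcon
    obtain ⟨i, hi, hiΛ⟩ := hcon
    -- a plane missing the line lies in `U`
    have hin : ∀ i ∈ I, ¬ Λ ≤ P i → P i ≤ U := by
      intro i hi hiΛ
      have hii : i ≠ i₀ := fun h => hiΛ (h ▸ inf_le_left)
      have hij : i ≠ j₀ := fun h => hiΛ (h ▸ inf_le_right)
      have hX := hinter i hi i₀ hi₀ hii
      have hY := hinter i hi j₀ hj₀ hij
      have hne : P i ⊓ P i₀ ≠ P i ⊓ P j₀ := by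
        intro h
        refine hiΛ ?_
        have : P i ⊓ P i₀ ≤ Λ := le_inf inf_le_right (h ▸ inf_le_right)
        rw [← Submodule.eq_of_le_of_finrank_le this (by rw [hX, hΛd])]
        exact inf_le_left
      have hle : P i ⊓ P i₀ ⊔ P i ⊓ P j₀ ≤ P i := sup_le inf_le_left inf_le_left
      have hlt : P i ⊓ P i₀ < P i ⊓ P i₀ ⊔ P i ⊓ P j₀ := by
        refine lt_of_le_of_ne le_sup_left fun h => hne ?_
        exact (Submodule.eq_of_le_of_finrank_le (h ▸ le_sup_right) (by rw [hX, hY])).symm
      have := Submodule.finrank_lt_finrank_of_lt hlt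
      rw [← Submodule.eq_of_le_of_finrank_le hle (by rw [hPd i hi]; omega)]
      exact sup_le (inf_le_right.trans le_sup_left) (inf_le_right.trans le_sup_right)
    have hiU := hin i hi hiΛ
    have hall' : ∀ j ∈ I, P j ≤ U := by
      intro j hj
      by_cases hjΛ : Λ ≤ P j
      · have hij : i ≠ j := fun h => hiΛ (h ▸ hjΛ)
        have hX := hinter i hi j hj hij
        have hlt : Λ < Λ ⊔ P i ⊓ P j := by
          refine lt_of_le_of_ne le_sup_left fun h => hiΛ ?_
          rw [← Submodule.eq_of_le_of_finrank_le (h ▸ le_sup_right : P i ⊓ P j ≤ Λ) (by rw [hX, hΛd])]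
          exact inf_le_left
        have := Submodule.finrank_lt_finrank_of_lt hlt
        rw [← Submodule.eq_of_le_of_finrank_le (sup_le hjΛ inf_le_right : Λ ⊔ P i ⊓ P j ≤ P j)
          (by rw [hPd j hj]; omega)]
        exact sup_le (inf_le_left.trans le_sup_left) (inf_le_left.trans hiU)
      · exact hin j hj hjΛ
    have htop := hall U (ne_bot_of_le_ne_bot (hPne i₀ hi₀) le_sup_left) hall'
    rw [htop, finrank_top] at hUd
    omega
  have hline : ∀ i ∈ I, ∀ j ∈ I, i ≠ j → P i ⊓ P j = Λ := fun i hi j hj hij =>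
    (Submodule.eq_of_le_of_finrank_le (le_inf (hcommon i hi) (hcommon j hj))
      (by rw [hΛd, hinter i hi j hj hij])).symm
  have hΛne : Λ ≠ ⊥ := hmeet i₀ hi₀ j₀ hj₀ hij₀
  obtain ⟨l, hlΛ, hl0⟩ := (Submodule.ne_bot_iff _).1 hΛne
  have hspan : ∀ v ∈ Λ, ∃ c : L, c • l = v := fun v hv => by
    obtain ⟨c, hc⟩ := exists_smul_eq_of_finrank_eq_one hΛd (x := ⟨l, hlΛ⟩)
      (fun h => hl0 (congrArg Subtype.val h)) ⟨v, hv⟩
    exact ⟨c, congrArg Subtype.val hc⟩
  -- no three cycle stabilises the line
  have hmove : ∀ i ∈ I, R (cyc3 a b i) l ∉ Λ := by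
    intro i hi hli
    have hfix : ∀ j ∈ I, ∀ v ∈ Λ, R (cyc3 a b j) v ∈ Λ := by
      have hi' : ∀ v ∈ Λ, R (cyc3 a b i) v ∈ Λ := by
        intro v hv
        obtain ⟨c, rfl⟩ := hspan v hv
        rw [map_smul]; exact Λ.smul_mem _ hli
      intro j hj
      by_cases hji : j = i
      · rw [hji]; exact hi'
      obtain ⟨hib, hia⟩ := (hI i).1 hi
      obtain ⟨hjb, hja⟩ := (hI j).1 hj
      let g := dt a b i j
      have hg : sign g = 1 := dt_sign hab (Ne.symm hji)
      have hga : g a = b := by
        simp [g, dt, swap_apply_of_ne_of_ne hia.symm hja.symm, swap_apply_left]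
      have hgb : g b = a := by
        simp [g, dt, swap_apply_of_ne_of_ne hib.symm hjb.symm, swap_apply_right]
      have hgi : g i = j := by
        simp [g, dt, swap_apply_left, swap_apply_of_ne_of_ne hja hjb]
      have hgj : g j = i := by
        simp [g, dt, swap_apply_right, swap_apply_of_ne_of_ne hia hib]
      have hconj_i : g * cyc3 a b i * g⁻¹ = (cyc3 a b j)⁻¹ := by
        rw [cyc3_conj, hga, hgb, hgi, cyc3_inv hab hja.symm hjb.symm]
      have hconj_j : g * cyc3 a b j * g⁻¹ = (cyc3 a b i)⁻¹ := by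
        rw [cyc3_conj, hga, hgb, hgj, cyc3_inv hab hia.symm hib.symm]
      have e1 : (P i).map (R g) = P j := by
        simp only [P]; rw [hR.map_range hg (hs i hi), hconj_i, hR.range_inv (hs j hj)]
      have e2 : (P j).map (R g) = P i := by
        simp only [P]; rw [hR.map_range hg (hs j hj), hconj_j, hR.range_inv (hs i hi)]
      have e3 : Λ.map (R g) = Λ := by
        have := hline i hi j hj (Ne.symm hji)
        conv_lhs => rw [← this]
        rw [Submodule.map_inf _ (hR.injective hg), e1, e2, inf_comm, this]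
      -- the inverse of the second cycle stabilises the line
      have hinv : ∀ v ∈ Λ, R (cyc3 a b j)⁻¹ v ∈ Λ := by
        intro v hv
        rw [← e3] at hv
        obtain ⟨u, hu, rfl⟩ := hv
        rw [← hconj_i, hR.conj_apply hg (hs i hi), ← e3]
        exact ⟨_, hi' u hu, rfl⟩
      intro v hv
      have h1 := hinv v hv
      obtain ⟨c, hc⟩ := hspan _ h1
      obtain ⟨d, hd⟩ := hspan v hv
      have h2 : R (cyc3 a b j) (c • l) = v := by rw [hc, hR.apply_inv (hs j hj)]
      rw [map_smul] at h2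
      by_cases hc0 : c = 0
      · rw [hc0, zero_smul] at h2; rw [← h2, map_zero]; exact Λ.zero_mem
      · have hxl : R (cyc3 a b j) l = c⁻¹ • v := by
          rw [← h2, smul_smul, inv_mul_cancel₀ hc0, one_smul]
        rw [← hd, map_smul, hxl]
        exact Λ.smul_mem _ (Λ.smul_mem _ hv)
    have htop := (hirr Λ (invariant_of_cyc3 hR hab fun x hxa hxb => hfix x ((hI x).2 ⟨hxb, hxa⟩))
      ).resolve_left hΛne
    rw [htop, finrank_top] at hΛd
    omega
  let w : Fin r → V := fun i => R (cyc3 a b i) l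
  have hlP : ∀ i ∈ I, l ∈ P i := fun i hi => hcommon i hi hlΛ
  have hwP : ∀ i ∈ I, w i ∈ P i := fun i hi => by
    simpa using (P i).add_mem (hmem i l) (hlP i hi)
  have hlw : ∀ i ∈ I, ∀ c d : L, c • l + d • w i = 0 → c = 0 ∧ d = 0 := by
    intro i hi c d h
    have hd : d = 0 := by
      by_contra hd
      refine hmove i hi ?_
      have : d • w i ∈ Λ := by
        rw [← neg_eq_of_add_eq_zero_right h]; exact Λ.neg_mem (Λ.smul_mem _ hlΛ)
      simpa [smul_smul, inv_mul_cancel₀ hd] using Λ.smul_mem d⁻¹ this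
    rw [hd, zero_smul, add_zero] at h
    exact ⟨(smul_eq_zero.1 h).resolve_right hl0, hd⟩
  have hPspan : ∀ i ∈ I, ∀ v ∈ P i, ∃ c d : L, c • l + d • w i = v := by
    intro i hi v hv
    have hli : LinearIndependent L ![(⟨l, hlP i hi⟩ : P i), ⟨w i, hwP i hi⟩] := by
      rw [LinearIndependent.pair_iff]
      exact fun c d h => hlw i hi c d (congrArg Subtype.val h)
    have htop := hli.span_eq_top_of_card_eq_finrank (by simp [hPd i hi])
    have hm : (⟨v, hv⟩ : P i) ∈
        Submodule.span L {(⟨l, hlP i hi⟩ : P i), ⟨w i, hwP i hi⟩} := by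
      have e : Set.range ![(⟨l, hlP i hi⟩ : P i), ⟨w i, hwP i hi⟩] =
          {(⟨l, hlP i hi⟩ : P i), ⟨w i, hwP i hi⟩} := by
        simp [Matrix.range_cons, Set.pair_comm]
      rw [← e, htop]; trivial
    obtain ⟨c, d, h⟩ := Submodule.mem_span_pair.1 hm
    exact ⟨c, d, congrArg Subtype.val h⟩
  have hwnot : ∀ i ∈ I, ∀ j ∈ I, i ≠ j → w j ∉ P i := fun i hi j hj hij h =>
    hmove j hj ((hline i hi j hj hij) ▸ (Submodule.mem_inf.2 ⟨h, hwP j hj⟩))
  have hcube : ∀ i ∈ I, ∀ v, R (cyc3 a b i) (R (cyc3 a b i) (R (cyc3 a b i) v)) = v := by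
    intro i hi v
    have h3 : cyc3 a b i ^ 3 = 1 := by
      rw [← (Alt.isThreeCycle_cyc3 hab ((hI i).1 hi).2.symm ((hI i).1 hi).1.symm).orderOf,
        pow_orderOf_eq_one]
    have := LinearMap.congr_fun (hR.pow_eq_one (hs i hi) h3) v
    simpa [pow_succ] using this
  -- action on the line
  have hxw : ∀ i ∈ I, R (cyc3 a b i) (w i) = -l - w i := by
    intro i hi
    obtain ⟨u, hu⟩ := IsRep.mem_range_sub_one.1 (hlP i hi)
    simp only [w]
    rw [← hu]
    simp only [map_sub, hcube i hi u]
    abel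
  -- the mixed action
  have hrel : ∀ i ∈ I, ∀ j ∈ I, i ≠ j → R (cyc3 a b i) (w j) = w j - w i := by
    intro i hi j hj hij
    obtain ⟨hib, hia⟩ := (hI i).1 hi
    obtain ⟨hjb, hja⟩ := (hI j).1 hj
    obtain ⟨α, β, hαβ⟩ := hPspan i hi _ (hmem i (w j))
    obtain ⟨α', β', hαβ'⟩ := hPspan j hj _ (hmem j (w i))
    have e1 : R (cyc3 a b i) (w j) = w j + α • l + β • w i := by
      rw [add_assoc, hαβ]; abel
    have e2 : R (cyc3 a b j) (w i) = w i + α' • l + β' • w j := by
      rw [add_assoc, hαβ']; abel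
    -- both orders of the relation
    have key : ∀ i ∈ I, ∀ j ∈ I, i ≠ j →
        R (cyc3 a b j) (R (cyc3 a b i) (w j)) = -l - w i := by
      intro i hi j hj hij
      obtain ⟨hib, hia⟩ := (hI i).1 hi
      obtain ⟨hjb, hja⟩ := (hI j).1 hj
      have h := LinearMap.congr_fun (congrArg R
        (cyc3_pair_rel hab hia.symm hib.symm hja.symm hjb.symm hij) |>.symm) l
      rw [hR.map_one, hR.map_mul _ _ (sign_mul_one (hs i hi) (hs j hj))
          (sign_mul_one (hs i hi) (hs j hj)), hR.map_mul _ _ (hs i hi) (hs j hj)] at h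
      simp only [Module.End.mul_apply, Module.End.one_apply] at h
      have h' := congrArg (fun v => R (cyc3 a b i) (R (cyc3 a b i) v)) h
      simp only [hcube i hi] at h'
      rw [show R (cyc3 a b i) (R (cyc3 a b i) l) = -l - w i from hxw i hi] at h'
      exact h'.symm
    have k1 := key i hi j hj hij
    rw [e1, map_add, map_add, map_smul, map_smul, hxw j hj, e2] at k1
    have k2 := key j hj i hi (Ne.symm hij)
    rw [e2, map_add, map_add, map_smul, map_smul, hxw i hi, e1] at k2
    obtain ⟨c1, c2, c3⟩ := coeff_eq_zero (hlP i hi) (hwP i hi) (hwnot i hi j hj hij) (hlw i hi)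
      (c := β * α') (d := β + 1) (e := α - 1 + β * β') (by
        rw [← sub_eq_zero] at k1
        rw [← k1]
        simp only [w]
        module)
    obtain ⟨d1, d2, d3⟩ := coeff_eq_zero (hlP j hj) (hwP j hj) (hwnot j hj i hi (Ne.symm hij))
      (hlw j hj) (c := β' * α) (d := β' + 1) (e := α' - 1 + β' * β) (by
        rw [← sub_eq_zero] at k2
        rw [← k2]
        simp only [w]
        module)
    have hβ : β = -1 := eq_neg_of_add_eq_zero_left c2
    have hβ' : β' = -1 := eq_neg_of_add_eq_zero_left d2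
    rw [hβ'] at d1
    have hα : α = 0 := by simpa using d1
    rw [e1, hα, hβ, zero_smul, add_zero, neg_smul, one_smul, sub_eq_add_neg]
  -- linear relations
  have huni : ∀ (c : L) (d : Fin r → L), c • l + ∑ i ∈ I, d i • w i = 0 →
      (∀ i ∈ I, d i = -c) ∧ (r : L) * c = 0 := by
    intro c d h
    have hk : ∀ k ∈ I, c + d k = 0 ∧ c - d k - ∑ i ∈ I, d i = 0 := by
      intro k hk
      have h1 := congrArg (fun v => R (cyc3 a b k) v - v) h
      simp only [map_add, map_smul, map_sum, map_zero, sub_zero] at h1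
      rw [← Finset.add_sum_erase I _ hk, ← Finset.add_sum_erase I _ hk,
        hxw k hk, Finset.sum_congr rfl (fun i hi => by
          rw [hrel k hk i (Finset.mem_of_mem_erase hi) (Finset.ne_of_mem_erase hi).symm, smul_sub]),
        Finset.sum_sub_distrib, ← Finset.sum_smul] at h1
      have e : (-c - d k) • l + (c - d k - ∑ i ∈ I, d i) • w k = 0 := by
        rw [← Finset.add_sum_erase I d hk]
        rw [show R (cyc3 a b k) l = w k from rfl] at h1
        rw [← h1]
        module
      obtain ⟨g1, g2⟩ := hlw k hk _ _ e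
      exact ⟨by linear_combination -g1, g2⟩
    have hd : ∀ i ∈ I, d i = -c := fun i hi => eq_neg_of_add_eq_zero_right (hk i hi).1
    refine ⟨hd, ?_⟩
    obtain ⟨k, hkI⟩ : I.Nonempty := Finset.card_pos.1 (by omega)
    have h2 := (hk k hkI).2
    rw [hd k hkI, Finset.sum_congr rfl hd, Finset.sum_const, hIc, nsmul_eq_mul,
      Nat.cast_sub (by omega : 2 ≤ r)] at h2
    linear_combination h2
  refine ⟨?_, fun hr0 => ?_⟩
  · -- omit one plane
    obtain ⟨k₀, hk₀⟩ : I.Nonempty := Finset.card_pos.1 (by omega)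
    have hli : LinearIndependent L (fun o : Option ↥(I.erase k₀) => o.elim l (fun i => w i)) := by
      rw [Fintype.linearIndependent_iff]
      intro g hg
      rw [Fintype.sum_option] at hg
      let d : Fin r → L := fun i => if h : i ∈ I.erase k₀ then g (some ⟨i, h⟩) else 0
      have hsum : ∑ i ∈ I, d i • w i = ∑ i : ↥(I.erase k₀), g (some i) • w i := by
        rw [← Finset.add_sum_erase I _ hk₀]
        simp only [d, dif_neg (Finset.notMem_erase k₀ I), zero_smul, zero_add]
        rw [← Finset.sum_coe_sort (I.erase k₀)]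
        exact Finset.sum_congr rfl fun i _ => by rw [dif_pos i.2]
      obtain ⟨hd, -⟩ := huni (g none) d (by rw [hsum]; simpa using hg)
      have hc : g none = 0 := by
        have := hd k₀ hk₀
        simp only [d, dif_neg (Finset.notMem_erase k₀ I)] at this
        exact neg_eq_zero.1 this.symm
      rintro (_ | ⟨i, hi⟩)
      · exact hc
      · have := hd i (Finset.mem_of_mem_erase hi)
        simp only [d, dif_pos hi, hc, neg_zero] at this
        exact this
    have := hli.fintype_card_le_finrank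
    rw [Fintype.card_option, Fintype.card_coe, Finset.card_erase_of_mem hk₀, hIc] at this
    omega
  · have hli : LinearIndependent L (fun o : Option ↥I => o.elim l (fun i => w i)) := by
      rw [Fintype.linearIndependent_iff]
      intro g hg
      rw [Fintype.sum_option] at hg
      let d : Fin r → L := fun i => if h : i ∈ I then g (some ⟨i, h⟩) else 0
      have hsum : ∑ i ∈ I, d i • w i = ∑ i : ↥I, g (some i) • w i := by
        rw [← Finset.sum_coe_sort I]
        exact Finset.sum_congr rfl fun i _ => by simp only [d, dif_pos i.2]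
      obtain ⟨hd, hc'⟩ := huni (g none) d (by rw [hsum]; simpa using hg)
      have hc : g none = 0 := (mul_eq_zero.1 hc').resolve_left hr0
      rintro (_ | ⟨i, hi⟩)
      · exact hc
      · have := hd i hi
        simpa [d, hi, hc] using this
    have := hli.fintype_card_le_finrank
    rw [Fintype.card_option, Fintype.card_coe, hIc] at this
    omega

end Cfsg.Agent.H73.AltDim
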