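import Cfsg.Agent.H73.AltDim.Reduce

/-!
A non-abelian kernel yields a module over a prime field of small cardinality.
-/

set_option autoImplicit false

namespace Cfsg.Agent.H73.AltDim

open Equiv Equiv.Perm Module Cfsg.Agent.Weights

/-- an action on an elementary abelian group as a matrix representation over the prime field -/
theorem matrix_of_action {H : Type} [Group H] {A : Type} [CommGroup A] [Finite A] (q : ℕ)
    [Fact q.Prime] (hq : ∀ a : A, a ^ q = 1) (θ : H →* Monoid.End A) :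
    ∃ (d : ℕ) (τ : H →* Matrix (Fin d) (Fin d) (ZMod q)),
      q ^ d = Nat.card A ∧ ∀ g, τ g = 1 → ∀ a, θ g a = a := by
  have mod : Module (ZMod q) (Additive A) :=
    AddCommGroup.zmodModule (G := Additive A) fun x => hq x.toMul
  let Θ : H → (Additive A →ₗ[ZMod q] (Additive A)) := fun g =>
    AddMonoidHom.toZModLinearMap q (MonoidHom.toAdditive (θ g : A →* A))
  have hΘ : ∀ g (x : (Additive A)), Θ g x = Additive.ofMul (θ g x.toMul) := fun g x => rfl
  let B := Module.finBasis (ZMod q) (Additive A)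
  let τ : H →* Matrix (Fin (finrank (ZMod q) (Additive A))) (Fin (finrank (ZMod q) (Additive A))) (ZMod q) :=
    { toFun := fun g => LinearMap.toMatrix B B (Θ g)
      map_one' := by
        rw [show Θ 1 = LinearMap.id from LinearMap.ext fun x => by rw [hΘ, map_one]; rfl,
          LinearMap.toMatrix_id]
      map_mul' := fun g h => by
        rw [show Θ (g * h) = (Θ g) ∘ₗ (Θ h) from LinearMap.ext fun x => by
            rw [hΘ, map_mul]; rfl,
          LinearMap.toMatrix_comp B B B] }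
  refine ⟨_, τ, ?_, fun g hg a => ?_⟩
  · rw [← Nat.card_congr (Additive.ofMul (α := A)).symm,
      Module.natCard_eq_pow_finrank (K := ZMod q) (V := (Additive A)), Nat.card_zmod]
  · have h1 : Θ g = LinearMap.id := (LinearMap.toMatrix B B).injective (by
      rw [LinearMap.toMatrix_id]; exact hg)
    exact congrArg Additive.toMul (LinearMap.congr_fun h1 (Additive.ofMul a))

variable {r : ℕ} {H : Type} [Group H] [Finite H] {L : Type*} [Field L] [IsAlgClosed L] {V : Type*}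
  [AddCommGroup V] [Module L V] [FiniteDimensional L V] {ρ : H →* End L V}

theorem section_module {φ : H →* alternatingGroup (Fin r)} (hφ : IsMin φ) (hr : 5 ≤ r)
    (hirr : ∀ W : Submodule L V, (∀ g, ∀ v ∈ W, ρ g v ∈ W) → W = ⊥ ∨ W = ⊤)
    (hn0 : 0 < finrank L V) (hn : finrank L V + 2 ≤ r) (hinj : Function.Injective ρ)
    (hK : ¬ ∀ a ∈ φ.ker, ∀ b ∈ φ.ker, a * b = b * a) :
    ∃ (q d : ℕ) (_ : Fact q.Prime) (τ : H →* Matrix (Fin d) (Fin d) (ZMod q)),
      q ^ d ≤ finrank L V * finrank L V ∧ τ.ker ≤ φ.ker := by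
  classical
  let K := φ.ker
  let Z : Subgroup H := K ⊓ Subgroup.centralizer (K : Set H)
  have memZ : ∀ z, z ∈ Z ↔ z ∈ K ∧ ∀ k ∈ K, k * z = z * k := fun z => by
    simp [Z, Subgroup.mem_centralizer_iff]
  haveI hKn : K.Normal := inferInstance
  haveI hZn : Z.Normal := ⟨fun z hz g => by
    rw [memZ] at hz ⊢
    refine ⟨hKn.conj_mem z hz.1 g, fun k hk => ?_⟩
    have := hz.2 (g⁻¹ * k * g) (by simpa using hKn.conj_mem k hk g⁻¹)
    calc k * (g * z * g⁻¹) = g * (g⁻¹ * k * g * z) * g⁻¹ := by group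
      _ = g * (z * (g⁻¹ * k * g)) * g⁻¹ := by rw [this]
      _ = g * z * g⁻¹ * k := by group⟩
  have hsc : ∀ z ∈ Z, IsScalar (ρ z) := abelian_scalar hφ hr hirr hn0 hn Z
    (fun a ha b hb => ((memZ b).1 hb).2 a ((memZ a).1 ha).1)
  have hcent : ∀ z ∈ Z, ∀ g, g * z = z * g := fun z hz g => hinj (by
    rw [map_mul, map_mul, ((hsc z hz).comm (ρ g)).symm])
  -- the quotient by the centre of the kernel
  let π := QuotientGroup.mk' Z
  let Kb := K.map π
  haveI hKbn : Kb.Normal := hKn.map π (QuotientGroup.mk'_surjective Z)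
  haveI : Group.IsNilpotent K := hφ.ker_nilpotent
  have hKsurj : Function.Surjective (π.subgroupMap K) := MonoidHom.subgroupMap_surjective π K
  haveI : Group.IsNilpotent Kb := Group.nilpotent_of_surjective _ hKsurj
  haveI : Nontrivial Kb := by
    rw [Subgroup.nontrivial_iff_ne_bot, Ne, Subgroup.map_eq_bot_iff, QuotientGroup.ker_mk']
    intro h
    exact hK fun a ha b hb => ((memZ b).1 (h hb)).2 a ha
  obtain ⟨y, hyc, hy1⟩ : ∃ y : Kb, y ∈ Subgroup.center Kb ∧ y ≠ 1 := by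
    have h := Group.IsNilpotent.center_ne_bot (G := Kb)
    obtain ⟨⟨y, hy⟩, hy1⟩ := (Subgroup.ne_bot_iff_exists_ne_one).1 h
    exact ⟨y, hy, fun h => hy1 (Subtype.ext h)⟩
  obtain ⟨q, hq, hqd⟩ := Nat.exists_prime_and_dvd (n := orderOf y) (fun h => hy1 (orderOf_eq_one_iff.1 h))
  haveI : Fact q.Prime := ⟨hq⟩
  let Rb : Subgroup (H ⧸ Z) :=
    { carrier := {x | (x ∈ Kb ∧ ∀ k ∈ Kb, k * x = x * k) ∧ x ^ q = 1}
      one_mem' := ⟨⟨one_mem _, fun k _ => by rw [mul_one, one_mul]⟩, one_pow q⟩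
      mul_mem' := fun {a b} ha hb => by
        refine ⟨⟨mul_mem ha.1.1 hb.1.1, fun k hk => ?_⟩, ?_⟩
        · rw [← mul_assoc, ha.1.2 k hk, mul_assoc, hb.1.2 k hk, mul_assoc]
        · rw [(show Commute a b from hb.1.2 a ha.1.1).mul_pow, ha.2, hb.2, one_mul]
      inv_mem' := fun {a} ha => by
        refine ⟨⟨inv_mem ha.1.1, fun k hk => ?_⟩, by rw [inv_pow, ha.2, inv_one]⟩
        exact ((show Commute k a from ha.1.2 k hk).inv_right).eq }
  have memR : ∀ x, x ∈ Rb ↔ (x ∈ Kb ∧ ∀ k ∈ Kb, k * x = x * k) ∧ x ^ q = 1 := fun x => Iff.rfl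
  have hRn : ∀ g : H ⧸ Z, ∀ x ∈ Rb, g * x * g⁻¹ ∈ Rb := by
    intro g x hx
    rw [memR] at hx ⊢
    refine ⟨⟨hKbn.conj_mem x hx.1.1 g, fun k hk => ?_⟩, by rw [conj_pow, hx.2, mul_one, mul_inv_cancel]⟩
    have := hx.1.2 (g⁻¹ * k * g) (by simpa using hKbn.conj_mem k hk g⁻¹)
    calc k * (g * x * g⁻¹) = g * (g⁻¹ * k * g * x) * g⁻¹ := by group
      _ = g * (x * (g⁻¹ * k * g)) * g⁻¹ := by rw [this]
      _ = g * x * g⁻¹ * k := by group
  obtain ⟨x₀, hx₀R, hx₀⟩ : ∃ x ∈ Rb, x ≠ 1 := by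
    have hw : orderOf (y ^ (orderOf y / q)) = q := by
      have := orderOf_pow_orderOf_div (x := y) (n := q) (orderOf_pos y).ne' hqd
      exact this
    refine ⟨((y ^ (orderOf y / q) : Kb) : H ⧸ Z), (memR _).2 ⟨⟨SetLike.coe_mem _, fun k hk => ?_⟩, ?_⟩, ?_⟩
    · exact congrArg Subtype.val (Subgroup.mem_center_iff.1 (pow_mem hyc _) ⟨k, hk⟩)
    · have := pow_orderOf_eq_one (y ^ (orderOf y / q))
      rw [hw] at this
      exact congrArg Subtype.val this
    · intro h
      have h1 : y ^ (orderOf y / q) = 1 := Subtype.ext h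
      rw [h1, orderOf_one] at hw
      exact hq.ne_one hw.symm
  letI : CommGroup Rb :=
    { (inferInstance : Group Rb) with
      mul_comm := fun a b => Subtype.ext (((memR _).1 b.2).1.2 a ((memR _).1 a.2).1.1) }
  let θ : H →* Monoid.End Rb :=
    { toFun := fun g =>
        MonoidHom.mk' (fun x => ⟨π g * (x : H ⧸ Z) * (π g)⁻¹, hRn _ _ x.2⟩) fun a b => Subtype.ext (by
          show π g * ((a : H ⧸ Z) * (b : H ⧸ Z)) * (π g)⁻¹ =
            π g * (a : H ⧸ Z) * (π g)⁻¹ * (π g * (b : H ⧸ Z) * (π g)⁻¹)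
          group)
      map_one' := MonoidHom.ext fun x => Subtype.ext (by
        show π 1 * (x : H ⧸ Z) * (π 1)⁻¹ = (x : H ⧸ Z)
        rw [map_one, one_mul, inv_one, mul_one])
      map_mul' := fun g h => MonoidHom.ext fun x => Subtype.ext (by
        show π (g * h) * (x : H ⧸ Z) * (π (g * h))⁻¹ =
          π g * (π h * (x : H ⧸ Z) * (π h)⁻¹) * (π g)⁻¹
        rw [map_mul]; group) }
  obtain ⟨d, τ, hd, hτ⟩ := matrix_of_action q (fun a : Rb => Subtype.ext ((memR _).1 a.2).2) θ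
  refine ⟨q, d, ⟨hq⟩, τ, ?_, ?_⟩
  · -- cardinality
    have hlift : ∀ x : Rb, ∃ a : H, a ∈ K ∧ π a = (x : H ⧸ Z) := fun x =>
      Subgroup.mem_map.1 ((memR _).1 x.2).1.1
    choose lf hlfK hlf using hlift
    have hcomm : ∀ (x : Rb) (k : K), (k : H) * lf x * (k : H)⁻¹ * (lf x)⁻¹ ∈ Z := by
      intro x k
      rw [← QuotientGroup.eq_one_iff]
      show π _ = 1
      rw [map_mul, map_mul, map_mul, map_inv, map_inv, hlf,
        ((memR _).1 x.2).1.2 _ (Subgroup.mem_map_of_mem π k.2)]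
      group
    choose c hc using fun (x : Rb) (k : K) => hsc _ (hcomm x k)
    let Φ : K → End L (End L V) := fun k =>
      LinearMap.mulLeft L (ρ (k : H)) ∘ₗ LinearMap.mulRight L (ρ (k : H)⁻¹)
    haveI : Nontrivial V := Module.finrank_pos_iff.1 hn0
    have hwv : ∀ x, IsWeightVec Φ (c x) (ρ (lf x)) := by
      intro x
      refine ⟨fun h => ?_, fun k => ?_⟩
      · obtain ⟨v, hv⟩ := exists_ne (0 : V)
        exact hv (by rw [← inv_apply_apply ρ (lf x) v, h, LinearMap.zero_apply, map_zero])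
      · show ρ (k : H) * (ρ (lf x) * ρ (k : H)⁻¹) = _
        rw [← map_mul, ← map_mul, show (k : H) * (lf x * (k : H)⁻¹) =
          (k : H) * lf x * (k : H)⁻¹ * (lf x)⁻¹ * lf x by group, map_mul, hc, smul_mul_assoc, one_mul]
    have hcinj : Function.Injective c := by
      intro x x' h
      have e : ∀ k : K, (k : H) * lf x * (k : H)⁻¹ * (lf x)⁻¹ = (k : H) * lf x' * (k : H)⁻¹ * (lf x')⁻¹ :=
        fun k => hinj (by rw [hc, hc, h])
      have hz : (lf x)⁻¹ * lf x' ∈ Z := by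
        rw [memZ]
        refine ⟨mul_mem (inv_mem (hlfK x)) (hlfK x'), fun k hk => ?_⟩
        have := e ⟨k, hk⟩
        refine mul_inv_eq_iff_eq_mul.1 ?_
        calc k * ((lf x)⁻¹ * lf x') * k⁻¹ = (k * lf x * k⁻¹)⁻¹ * (k * lf x' * k⁻¹) := by group
          _ = ((k * lf x * k⁻¹ * (lf x)⁻¹) * lf x)⁻¹ * ((k * lf x' * k⁻¹ * (lf x')⁻¹) * lf x') := by
              group
          _ = (lf x)⁻¹ * lf x' := by rw [this]; group
      apply Subtype.ext
      rw [← hlf, ← hlf]
      exact QuotientGroup.eq.2 hz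
    haveI := Fintype.ofFinite Rb
    have h1 := card_weights_le Φ c hcinj fun x => ⟨_, hwv x⟩
    rw [Module.finrank_linearMap] at h1
    rw [hd, Nat.card_eq_fintype_card]
    exact h1
  · -- the kernel
    rcases hφ.normal_cases hr τ.ker with h | h
    · exact h
    exfalso
    obtain ⟨x, hxK, hx⟩ := Subgroup.mem_map.1 ((memR _).1 hx₀R).1.1
    have hfix : ∀ g : H, g * x * g⁻¹ * x⁻¹ ∈ Z := by
      intro g
      have hg : g ∈ τ.ker := by rw [h]; trivial
      have this : π g * x₀ * (π g)⁻¹ = x₀ :=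
        congrArg Subtype.val (hτ g hg ⟨x₀, hx₀R⟩)
      rw [← QuotientGroup.eq_one_iff]
      show π _ = 1
      rw [map_mul, map_mul, map_mul, map_inv, map_inv, hx, this, mul_inv_cancel]
    letI : CommGroup (Subgroup.center H) :=
      { (Subgroup.center H).toGroup with mul_comm := fun a b => Subtype.ext (Subgroup.mem_center_iff.1 b.2 a) }
    let f : H →* Subgroup.center H :=
      { toFun := fun g => ⟨g * x * g⁻¹ * x⁻¹, Subgroup.mem_center_iff.2 (hcent _ (hfix g))⟩
        map_one' := Subtype.ext (by simp)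
        map_mul' := fun g g' => Subtype.ext (by
          show g * g' * x * (g * g')⁻¹ * x⁻¹ = g * x * g⁻¹ * x⁻¹ * (g' * x * g'⁻¹ * x⁻¹)
          calc g * g' * x * (g * g')⁻¹ * x⁻¹ = g * (g' * x * g'⁻¹ * x⁻¹) * x * g⁻¹ * x⁻¹ := by group
            _ = (g' * x * g'⁻¹ * x⁻¹) * (g * x * g⁻¹ * x⁻¹) := by rw [hcent _ (hfix g') g]; group
            _ = _ := by rw [← hcent _ (hfix g) (g' * x * g'⁻¹ * x⁻¹)]) }
    have hxc : ∀ g, g * x = x * g := fun g => by
      have := congrArg Subtype.val (hφ.hom_comm_trivial hr f g)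
      change g * x * g⁻¹ * x⁻¹ = 1 at this
      rwa [mul_inv_eq_one, mul_inv_eq_iff_eq_mul] at this
    refine hx₀ (hx ▸ (QuotientGroup.eq_one_iff _).2 ?_)
    exact (memZ x).2 ⟨hxK, fun k _ => hxc k⟩

end Cfsg.Agent.H73.AltDim
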