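import Cfsg.Agent.H73.AltDim.SpinTen

/-!
Lower bound for the degree of a spin map.
-/

set_option autoImplicit false

namespace Cfsg.Agent.H73.AltDim

open Equiv Equiv.Perm Module

universe u v

variable {L : Type u} [Field L] [IsAlgClosed L]

theorem spin_first {V : Type v} [AddCommGroup V] [Module L V] [FiniteDimensional L V] {r : ℕ}
    {S : Perm (Fin r) → End L V} (hS : IsSpin S) (h2 : (2 : L) ≠ 0) (hn : 0 < finrank L V) :
    (8 ≤ r → 8 ≤ finrank L V) ∧ (10 ≤ r → (5 : L) ≠ 0 → 16 ≤ finrank L V) ∧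
      (11 ≤ r → 16 ≤ finrank L V) := by
  have hres : ∀ {r' : ℕ} (h : r' ≤ r), IsSpin (resSpin (Fin.castLEEmb h) S (⊤ : Submodule L V)) :=
    fun h => hS.res _ (fun _ _ _ _ => trivial)
  have hn' : 0 < finrank L ↥(⊤ : Submodule L V) := by rwa [finrank_top]
  refine ⟨fun h => ?_, fun h h5 => ?_, fun h => ?_⟩
  · rw [← finrank_top L V]; exact spin_eight_base (hres h) h2 hn'
  · rw [← finrank_top L V]; exact spin_ten_base (hres h) h2 h5 hn'
  · rw [← finrank_top L V]
    by_cases h5 : (5 : L) = 0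
    · have h3 : (3 : L) ≠ 0 := fun h3 => h2 (by linear_combination h5 - h3)
      exact spin_eleven_base (hres h) h2 h3 hn'
    · exact spin_ten_base (hres (show 10 ≤ r by omega)) h2 h5 hn'

theorem spin_large (h2 : (2 : L) ≠ 0) : ∀ r, 11 ≤ r → ∀ {V : Type v} [AddCommGroup V] [Module L V]
    [FiniteDimensional L V] {S : Perm (Fin r) → End L V}, IsSpin S → 0 < finrank L V →
    16 ≤ finrank L V ∧ r ≤ finrank L V := by
  intro r
  induction r using Nat.strong_induction_on with
  | _ r ih =>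
    intro hr V _ _ _ S hS hn
    have h16 := (spin_first hS h2 hn).2.2 hr
    refine ⟨h16, ?_⟩
    by_cases h17 : r ≤ 16
    · omega
    obtain ⟨k, rfl⟩ : ∃ k, r = k + 4 := ⟨r - 4, by omega⟩
    obtain ⟨W, S', hS', hW, hle⟩ := spin_double hS h2 hn
    have := (ih k (by omega) (by omega) hS' hW).2
    omega

/-- a spin map has degree at least the bound for the linear ones -/
theorem spin_bound {V : Type v} [AddCommGroup V] [Module L V] [FiniteDimensional L V] {r : ℕ}
    {S : Perm (Fin r) → End L V} (hS : IsSpin S) (h2 : (2 : L) ≠ 0) (hn : 0 < finrank L V)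
    (hr : 9 ≤ r) : r - 2 ≤ finrank L V ∧ ((r : L) ≠ 0 → r - 1 ≤ finrank L V) := by
  obtain ⟨h8, h10, -⟩ := spin_first hS h2 hn
  by_cases h11 : 11 ≤ r
  · have := (spin_large h2 r h11 hS hn).2
    exact ⟨by omega, fun _ => by omega⟩
  · have := h8 (by omega)
    refine ⟨by omega, fun hr0 => ?_⟩
    by_cases h9 : r = 9
    · omega
    obtain rfl : r = 10 := by omega
    have h5 : (5 : L) ≠ 0 := fun h => hr0 (by push_cast; linear_combination 2 * h)
    have := h10 le_rfl h5
    omega

end Cfsg.Agent.H73.AltDim
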