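import Cfsg.Agent.H73.AltDim.Two
import Cfsg.Agent.H73.AltDim.OddPlane
import Cfsg.Agent.H73.AltDim.Planes
import Cfsg.Agent.H73.AltDim.SpinBound
import Cfsg.Agent.H73.AltDim.Section
import Cfsg.Agent.S0892
import Cfsg.Agent.AltCoverComm.Main

/-!
An alternating section of a linear group forces the dimension of the natural linear modules.
-/

set_option autoImplicit false

namespace Cfsg.Agent.H73.AltDim

open Equiv Equiv.Perm Module

/-- the bound to be proved -/
def Bound (r : ℕ) (L : Type) [Field L] (n : ℕ) : Prop :=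
  r - 2 ≤ n ∧ ((r : L) ≠ 0 → r - 1 ≤ n)

theorem Bound.mono {r : ℕ} {L : Type} [Field L] {m n : ℕ} (h : Bound r L m) (hmn : m ≤ n) :
    Bound r L n := ⟨h.1.trans hmn, fun h0 => (h.2 h0).trans hmn⟩

theorem Bound.small {r : ℕ} {L : Type} [Field L] {n : ℕ} (hr : 2 ≤ r) (h : ¬ Bound r L n) :
    n + 2 ≤ r := by
  by_contra hh
  exact h ⟨by omega, fun _ => by omega⟩

/-- the statement in degree `m` -/
def Claim (r m : ℕ) : Prop :=
  ∀ (L : Type) [Field L] [IsAlgClosed L] (V : Type) [AddCommGroup V] [Module L V]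
    [FiniteDimensional L V] (H : Type) [Group H] [Finite H] (ρ : H →* End L V)
    (φ : H →* alternatingGroup (Fin r)), finrank L V = m → Function.Surjective φ → ρ.ker ≤ φ.ker →
    Bound r L m

variable {r : ℕ}

theorem card_alt_ge (hr : 9 ≤ r) : 181440 ≤ Nat.card (alternatingGroup (Fin r)) := by
  haveI : Nontrivial (Fin r) := Fin.nontrivial_iff_two_le.2 (by omega)
  have h := two_mul_nat_card_alternatingGroup (α := Fin r)
  rw [Nat.card_perm, Nat.card_fin] at h
  have h9 := Nat.factorial_le hr
  rw [show Nat.factorial 9 = 362880 by decide] at h9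
  omega

theorem sq_lt_two_pow : ∀ j : ℕ, (j + 5) * (j + 5) < 2 ^ (j + 5)
  | 0 => by norm_num
  | j + 1 => by
    have := sq_lt_two_pow j
    rw [show j + 1 + 5 = (j + 5) + 1 by omega, pow_succ]
    nlinarith

variable {L : Type} [Field L] [IsAlgClosed L] {V : Type} [AddCommGroup V] [Module L V]
  [FiniteDimensional L V] {H : Type} [Group H] [Finite H] {ρ : H →* End L V}
  {φ : H →* alternatingGroup (Fin r)}

theorem irreducible_of_min (hr : 9 ≤ r) (hφ : IsMin φ) (hinj : Function.Injective ρ)
    (IH : ∀ m < finrank L V, Claim r m) (hcon : ¬ Bound r L (finrank L V)) :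
    ∀ W : Submodule L V, (∀ g, ∀ v ∈ W, ρ g v ∈ W) → W = ⊥ ∨ W = ⊤ := by
  intro W hW
  by_contra hne
  push Not at hne
  obtain ⟨hb, ht⟩ := hne
  have hlt : finrank L W < finrank L V := Submodule.finrank_lt ht
  have hqlt : finrank L (V ⧸ W) < finrank L V := by
    have := Submodule.finrank_quotient_add_finrank W
    have hp : 0 < finrank L W := Nat.pos_of_ne_zero fun h => hb (Submodule.finrank_eq_zero.1 h)
    omega
  let ρW : H →* End L W :=
    { toFun := fun g => (ρ g).restrict (hW g)
      map_one' := LinearMap.ext fun v => Subtype.ext (by simp)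
      map_mul' := fun g h => LinearMap.ext fun v => Subtype.ext (by simp [LinearMap.restrict_coe_apply]) }
  let ρQ : H →* End L (V ⧸ W) :=
    { toFun := fun g => W.mapQ W (ρ g) (hW g)
      map_one' := Submodule.linearMap_qext _ (LinearMap.ext fun v => by simp)
      map_mul' := fun g h => Submodule.linearMap_qext _ (LinearMap.ext fun v => by simp) }
  have h1 : ρW.ker = ⊤ := (hφ.normal_cases (by omega) ρW.ker).resolve_left fun hle =>
    hcon ((IH _ hlt L W H ρW φ rfl hφ.surj hle).mono hlt.le)
  have h2 : ρQ.ker = ⊤ := (hφ.normal_cases (by omega) ρQ.ker).resolve_left fun hle =>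
    hcon ((IH _ hqlt L (V ⧸ W) H ρQ φ rfl hφ.surj hle).mono hqlt.le)
  have hfix : ∀ g, ∀ w ∈ W, ρ g w = w := fun g w hw => by
    have hg : g ∈ ρW.ker := by rw [h1]; trivial
    exact congrArg Subtype.val (LinearMap.congr_fun (MonoidHom.mem_ker.1 hg) ⟨w, hw⟩)
  have hmem : ∀ g v, ρ g v - v ∈ W := fun g v => by
    have hg : g ∈ ρQ.ker := by rw [h2]; trivial
    exact (Submodule.Quotient.eq W).1 (LinearMap.congr_fun (MonoidHom.mem_ker.1 hg) (Submodule.Quotient.mk v))
  let f : H →* Multiplicative (End L V) :=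
    { toFun := fun g => Multiplicative.ofAdd (ρ g - 1)
      map_one' := by simp
      map_mul' := fun g h => by
        rw [← ofAdd_add]
        refine congrArg Multiplicative.ofAdd (LinearMap.ext fun v => ?_)
        simp only [LinearMap.sub_apply, LinearMap.add_apply, Module.End.one_apply, map_mul,
          Module.End.mul_apply]
        have := hfix g _ (hmem h v)
        rw [map_sub, sub_eq_iff_eq_add] at this
        rw [this]
        abel }
  obtain ⟨a, b, hab⟩ := hφ.exists_not_commute (by omega)
  obtain ⟨x, rfl⟩ := hφ.surj a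
  have hx : ρ x = ρ 1 := by
    have := hφ.hom_comm_trivial (by omega) f x
    rw [map_one]
    exact sub_eq_zero.1 (Multiplicative.ofAdd.injective this)
  rw [hinj hx, map_one] at hab
  exact hab (by rw [one_mul, mul_one])

theorem linear_case (hr : 9 ≤ r) (hφ : IsMin φ) (hinj : Function.Injective ρ)
    (hbot : φ.ker = ⊥)
    (hirr : ∀ W : Submodule L V, (∀ g, ∀ v ∈ W, ρ g v ∈ W) → W = ⊥ ∨ W = ⊤)
    (hn0 : 0 < finrank L V) (hcon : ¬ Bound r L (finrank L V)) : False := by
  classical
  let e := MulEquiv.ofBijective φ ⟨(MonoidHom.ker_eq_bot_iff φ).1 hbot, hφ.surj⟩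
  let R : Perm (Fin r) → End L V := fun g =>
    if h : sign g = 1 then ρ (e.symm ⟨g, mem_alternatingGroup.2 h⟩) else 1
  have hRv : ∀ (g : Perm (Fin r)) (h : sign g = 1), R g = ρ (e.symm ⟨g, mem_alternatingGroup.2 h⟩) :=
    fun g h => dif_pos h
  have hR : IsRep R := by
    refine ⟨?_, fun a b ha hb => ?_⟩
    · rw [hRv 1 (_root_.map_one sign)]
      rw [show (⟨(1 : Perm (Fin r)), _⟩ : alternatingGroup (Fin r)) = 1 from rfl, map_one, map_one]
    · rw [hRv _ (sign_mul_one ha hb), hRv a ha, hRv b hb, ← map_mul, ← map_mul]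
      rfl
  have hnt : ∃ g : Perm (Fin r), sign g = 1 ∧ R g ≠ 1 := by
    refine ⟨Alt.cyc3 ⟨0, by omega⟩ ⟨1, by omega⟩ ⟨2, by omega⟩,
      cyc3_sign (by simp [Fin.ext_iff]) (by simp [Fin.ext_iff]), fun h => ?_⟩
    rw [hRv _ (cyc3_sign (by simp [Fin.ext_iff]) (by simp [Fin.ext_iff]))] at h
    rw [← map_one ρ] at h
    have h' := congrArg e (hinj h)
    rw [MulEquiv.apply_symm_apply, map_one] at h'
    have := Equiv.congr_fun (congrArg Subtype.val h') (⟨0, by omega⟩ : Fin r)
    simp [Alt.cyc3, Perm.mul_apply, swap_apply_def, Fin.ext_iff] at this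
  have hsmall := Bound.small (by omega) hcon
  have hirr' : ∀ W : Submodule L V, (∀ g, sign g = 1 → ∀ v ∈ W, R g v ∈ W) → W = ⊥ ∨ W = ⊤ := by
    intro W hW
    refine hirr W fun g v hv => ?_
    have hs : sign ((e g : alternatingGroup (Fin r)) : Perm (Fin r)) = 1 := mem_alternatingGroup.1 (e g).2
    have := hW _ hs v hv
    rwa [hRv _ hs, show (⟨((e g : alternatingGroup (Fin r)) : Perm (Fin r)), _⟩ :
      alternatingGroup (Fin r)) = e g from rfl, MulEquiv.symm_apply_apply] at this
  have hP : 5 ≤ finrank L V ∧ ∀ a b c : Fin r, a ≠ b → a ≠ c → b ≠ c →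
      finrank L (LinearMap.range (R (Alt.cyc3 a b c) - 1)) = 2 := by
    by_cases h2 : (2 : L) = 0
    · refine two_planes hR h2 hr hnt (by omega) fun h10 => ?_
      by_contra hh
      refine hcon ⟨by omega, fun h0 => absurd ?_ h0⟩
      rw [h10]
      push_cast
      linear_combination 5 * h2
    · exact odd_planes hR h2 hr hnt (by omega)
  exact hcon (planes_bound hR (by omega) hirr' hP.1 hP.2)

theorem spin_case (hr : 9 ≤ r) (hφ : IsMin φ) (hinj : Function.Injective ρ)
    (hbot : φ.ker ≠ ⊥) (hsc : ∀ z ∈ φ.ker, IsScalar (ρ z))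
    (hn0 : 0 < finrank L V) (hcon : ¬ Bound r L (finrank L V)) : False := by
  classical
  obtain ⟨m, rfl⟩ : ∃ m, r = m + 1 := ⟨r - 1, by omega⟩
  haveI : Nontrivial V := Module.finrank_pos_iff.1 hn0
  have hcent : φ.ker ≤ Subgroup.center H := fun z hz => Subgroup.mem_center_iff.2 fun g =>
    hinj (by rw [map_mul, map_mul, (hsc z hz).comm])
  have hder : φ.ker ≤ commutator H := by rw [hφ.commutator_eq_top (by omega)]; exact le_top
  have h2card : Nat.card φ.ker ≤ 2 := Cfsg.Agent.S0892.result (m + 1) (by omega) (by omega) (by omega)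
    φ.ker hcent hder (QuotientGroup.quotientKerEquivOfSurjective φ hφ.surj)
  obtain ⟨⟨z, hz⟩, hz1⟩ := Subgroup.ne_bot_iff_exists_ne_one.1 hbot
  replace hz1 : z ≠ 1 := fun h => hz1 (Subtype.ext h)
  have hcases : ∀ u ∈ φ.ker, u = 1 ∨ u = z := by
    intro u hu
    haveI := Fintype.ofFinite φ.ker
    by_contra hh
    push Not at hh
    have h3 : ({1, ⟨z, hz⟩, ⟨u, hu⟩} : Finset φ.ker).card = 3 := by
      rw [Finset.card_insert_of_notMem, Finset.card_pair]
      · exact fun h => hh.2 (congrArg Subtype.val h).symm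
      · simp only [Finset.mem_insert, Finset.mem_singleton, not_or]
        exact ⟨fun h => hz1 (congrArg Subtype.val h).symm, fun h => hh.1 (congrArg Subtype.val h).symm⟩
    have := Finset.card_le_univ ({1, ⟨z, hz⟩, ⟨u, hu⟩} : Finset φ.ker)
    rw [Nat.card_eq_fintype_card] at h2card
    omega
  have hzz : z * z = 1 := (hcases _ (mul_mem hz hz)).resolve_right fun h => hz1 (mul_eq_left.1 h)
  have hu2 : ∀ u ∈ φ.ker, u * u = 1 := fun u hu => by
    rcases hcases u hu with rfl | rfl
    · exact one_mul 1
    · exact hzz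
  obtain ⟨v₀, hv₀⟩ := exists_ne (0 : V)
  obtain ⟨c, hc⟩ := hsc z hz
  have hcv : (c * c) • v₀ = v₀ := by
    have := LinearMap.congr_fun (congrArg ρ hzz) v₀
    rw [map_mul, map_one, hc, Module.End.mul_apply, Module.End.one_apply] at this
    simpa [smul_smul] using this
  have hc2 : c * c = 1 := smul_left_injective L hv₀ (by simpa using hcv)
  have hcne : c ≠ 1 := fun h => hz1 (hinj (by rw [hc, h, one_smul, map_one]))
  have hcm : c = -1 := (mul_self_eq_one_iff.1 hc2).resolve_left hcne
  have h2 : (2 : L) ≠ 0 := fun h => hcne (by rw [hcm]; linear_combination -h)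
  have hρz : ρ z = -1 := by rw [hc, hcm, neg_one_smul]
  have hpm : ∀ u ∈ φ.ker, Pm (ρ u) 1 := fun u hu => by
    rcases hcases u hu with rfl | rfl
    · exact Or.inl (map_one ρ)
    · exact Or.inr hρz
  -- the permutation representation
  let π : H →* Perm (Fin (m + 1)) := (alternatingGroup (Fin (m + 1))).subtype.comp φ
  have hπk : π.ker = φ.ker := by
    ext x; simp [π, MonoidHom.mem_ker]
  have hπr : π.range = alternatingGroup (Fin (m + 1)) := by
    rw [MonoidHom.range_comp, MonoidHom.range_eq_top.2 hφ.surj, ← MonoidHom.range_eq_map,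
      Subgroup.range_subtype]
  have hex : ∀ g : Perm (Fin (m + 1)), sign g = 1 → ∃ X, π X = g :=
    fun g hg => AltCoverComm.exists_lift π hπr hg
  let lift : Perm (Fin (m + 1)) → H := fun g =>
    if g = 1 then 1 else if h : sign g = 1 then (hex g h).choose else 1
  have hlift : ∀ g, sign g = 1 → π (lift g) = g := fun g hg => by
    by_cases h1 : g = 1
    · subst h1; simp [lift]
    · simp only [lift, if_neg h1, dif_pos hg]
      exact (hex g hg).choose_spec
  let S : Perm (Fin (m + 1)) → End L V := fun g => ρ (lift g)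
  have hS : IsSpin S := by
    refine ⟨by simp [S, lift], fun a b ha hb => ?_, fun a b c d hab hac had hbc hbd hcd => ?_,
      fun a b c d hab hac had hbc hbd hcd g hg ga gb gc gd => ?_⟩
    · have hk : (lift a * lift b)⁻¹ * lift (a * b) ∈ φ.ker := by
        rw [← hπk, MonoidHom.mem_ker, map_mul, map_inv, map_mul, hlift a ha, hlift b hb,
          hlift _ (sign_mul_one ha hb), inv_mul_cancel]
      show Pm (ρ (lift (a * b))) (ρ (lift a) * ρ (lift b))
      rw [show lift (a * b) = lift a * lift b * ((lift a * lift b)⁻¹ * lift (a * b)) by group, map_mul,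
        map_mul]
      simpa using (Pm.rfl' (f := ρ (lift a) * ρ (lift b))).mul (hpm _ hk)
    · have hX := hlift _ (dt_sign (a := a) (b := b) (c := c) (d := d) hab hcd)
      have hY := hlift _ (dt_sign (a := a) (b := c) (c := b) (d := d) hac hbd)
      set X := lift (dt a b c d)
      set Y := lift (dt a c b d)
      have hne : ¬ Commute X Y := AltCoverComm.pair_not_commute π hπr (hπk ▸ hcent) (by omega)
        (hπk ▸ hder) (hπk ▸ hu2) (hπk ▸ hbot) hab hac had hbc hbd hcd hX hY
      have hperm : dt a b c d * dt a c b d = dt a c b d * dt a b c d := by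
        refine Equiv.ext fun y => ?_
        simp only [dt, Perm.mul_apply]
        by_cases q1 : y = a
        · subst q1; simp [swap_apply_def, hab, hac, had, hbc, hbd, hcd, Ne.symm hab, Ne.symm hac,
            Ne.symm had, Ne.symm hbc, Ne.symm hbd, Ne.symm hcd]
        by_cases q2 : y = b
        · subst q2; simp [swap_apply_def, hab, hac, had, hbc, hbd, hcd, Ne.symm hab, Ne.symm hac,
            Ne.symm had, Ne.symm hbc, Ne.symm hbd, Ne.symm hcd]
        by_cases q3 : y = c
        · subst q3; simp [swap_apply_def, hab, hac, had, hbc, hbd, hcd, Ne.symm hab, Ne.symm hac,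
            Ne.symm had, Ne.symm hbc, Ne.symm hbd, Ne.symm hcd]
        by_cases q4 : y = d
        · subst q4; simp [swap_apply_def, hab, hac, had, hbc, hbd, hcd, Ne.symm hab, Ne.symm hac,
            Ne.symm had, Ne.symm hbc, Ne.symm hbd, Ne.symm hcd]
        simp [swap_apply_def, q1, q2, q3, q4]
      have hk : (Y * X)⁻¹ * (X * Y) ∈ φ.ker := by
        rw [← hπk, MonoidHom.mem_ker, map_mul, map_inv, map_mul, map_mul, hX, hY, hperm, inv_mul_cancel]
      have hkz : X * Y = Y * X * z := by
        rcases hcases _ hk with h | h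
        · exact absurd (inv_mul_eq_one.1 h).symm hne
        · rw [← h, mul_inv_cancel_left]
      show ρ X * ρ Y = -(ρ Y * ρ X)
      rw [← map_mul, hkz, map_mul, map_mul, hρz, mul_neg_one]
    · have hg' := hlift g hg
      have hC := hlift _ (dt_sign (a := a) (b := b) (c := c) (d := d) hab hcd)
      have := AltCoverComm.disjoint_commute π hπr (hπk ▸ hcent) (hπk ▸ hu2) (a := a) (b := c)
        (c := b) (d := d) ga gc gb gd hg hC hg'
      show Commute (ρ (lift (dt a b c d))) (ρ (lift g))
      exact this.map ρ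
  exact hcon (spin_bound hS h2 hn0 (by omega))

theorem min_case (hr : 9 ≤ r) (hφ : IsMin φ) (hinj : Function.Injective ρ)
    (IH : ∀ m < finrank L V, Claim r m) : Bound r L (finrank L V) := by
  by_contra hcon
  have hsmall := Bound.small (by omega) hcon
  have hn0 : 0 < finrank L V := by
    by_contra h0
    haveI : Subsingleton V := Module.finrank_zero_iff.1 (by omega : finrank L V = 0)
    obtain ⟨a, b, hab⟩ := hφ.exists_not_commute (by omega)
    obtain ⟨x, rfl⟩ := hφ.surj a
    rw [hinj (LinearMap.ext fun v => Subsingleton.elim (ρ x v) (ρ 1 v)), map_one] at hab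
    exact hab (by rw [one_mul, mul_one])
  have hirr := irreducible_of_min hr hφ hinj IH hcon
  by_cases hK : ∀ a ∈ φ.ker, ∀ b ∈ φ.ker, a * b = b * a
  · have hsc := abelian_scalar hφ (by omega) hirr hn0 hsmall φ.ker hK
    by_cases hbot : φ.ker = ⊥
    · exact linear_case hr hφ hinj hbot hirr hn0 hcon
    · exact spin_case hr hφ hinj hbot hsc hn0 hcon
  · obtain ⟨q, d, hq, τ, hcard, hker⟩ := section_module hφ (by omega) hirr hn0 hsmall hinj hK
    haveI := hq
    set n := finrank L V
    have hq2 := hq.out.two_le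
    have hd : d < n := by
      by_contra hdn
      have h1 : 2 ^ n ≤ n * n := ((Nat.pow_le_pow_left hq2 n).trans
        (Nat.pow_le_pow_right (by omega) (by omega))).trans hcard
      have hn4 : n ≤ 4 := by
        by_contra hn
        have := sq_lt_two_pow (n - 5)
        rw [show n - 5 + 5 = n by omega] at this
        omega
      have h16 : q ^ d ≤ 16 := hcard.trans (Nat.mul_le_mul hn4 hn4)
      have hd4 : d ≤ 4 := by
        by_contra hd4
        have h32 : 2 ^ 5 ≤ q ^ d := (Nat.pow_le_pow_left hq2 5).trans (Nat.pow_le_pow_right (by omega) (by omega))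
        omega
      have hk : τ.toHomUnits.ker ≤ φ.ker := fun x hx => hker (by
        rw [MonoidHom.mem_ker] at hx ⊢
        exact congrArg Units.val hx)
      have hidx := hφ.card_alt_le_index τ.toHomUnits.ker hk
      rw [Subgroup.index_ker] at hidx
      have hle : Nat.card τ.toHomUnits.range ≤ (q ^ d) ^ d := by
        refine (Nat.card_le_card_of_injective (fun u => (u.1.val : Matrix (Fin d) (Fin d) (ZMod q)))
          fun u u' h => Subtype.ext (Units.ext h)).trans (le_of_eq ?_)
        simp [Nat.card_eq_fintype_card, Matrix, Fintype.card_pi, ← pow_mul]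
      have := Nat.pow_le_pow_left h16 d
      have : 16 ^ d ≤ 16 ^ 4 := Nat.pow_le_pow_right (by norm_num) hd4
      have := card_alt_ge hr
      omega
    let E := AlgebraicClosure (ZMod q)
    let τE : H →* End E (Fin d → E) :=
      (Matrix.toLinAlgEquiv' (R := E) (n := Fin d)).toMonoidHom.comp
        ((RingHom.mapMatrix (algebraMap (ZMod q) E)).toMonoidHom.comp τ)
    have hkE : τE.ker ≤ φ.ker := fun x hx => hker (by
      rw [MonoidHom.mem_ker] at hx ⊢
      refine Matrix.map_injective (algebraMap (ZMod q) E).injective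
        ((Matrix.toLinAlgEquiv' (R := E) (n := Fin d)).injective (hx.trans ?_))
      show 1 = Matrix.toLinAlgEquiv' ((1 : Matrix (Fin d) (Fin d) (ZMod q)).map (algebraMap (ZMod q) E))
      rw [Matrix.map_one _ (map_zero _) (map_one _), map_one])
    have hb := (IH d hd E (Fin d → E) H τE φ (Module.finrank_fin_fun E) hφ.surj hkE).1
    have h1 : 2 ^ (r - 2) ≤ (r - 2) * (r - 2) := calc
      2 ^ (r - 2) ≤ 2 ^ d := Nat.pow_le_pow_right (by norm_num) hb
      _ ≤ q ^ d := Nat.pow_le_pow_left hq2 d
      _ ≤ n * n := hcard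
      _ ≤ _ := Nat.mul_le_mul (by omega) (by omega)
    have := sq_lt_two_pow (r - 7)
    rw [show r - 7 + 5 = r - 2 by omega] at this
    omega

theorem claim_all (hr : 9 ≤ r) : ∀ m, Claim r m := by
  intro m
  induction m using Nat.strong_induction_on with
  | _ m ih =>
    intro L _ _ V _ _ _ H _ _ ρ φ hm
    subst hm
    generalize hN : Nat.card H = N
    induction N using Nat.strong_induction_on generalizing H with
    | _ N ihN =>
      intro hsurj hker
      by_cases hinj : Function.Injective ρ
      · by_cases hmin : ∀ U : Subgroup H, U.map φ = ⊤ → U = ⊤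
        · exact min_case hr ⟨hsurj, hmin⟩ hinj ih
        · push Not at hmin
          obtain ⟨U, hU, hne⟩ := hmin
          have hlt : Nat.card U < N := by
            rw [← hN]
            exact lt_of_le_of_ne (Subgroup.card_le_card_group U) fun h => hne (Subgroup.eq_top_of_card_eq U h)
          refine ihN _ hlt U (ρ.comp U.subtype) (φ.comp U.subtype) rfl ?_ ?_
          · intro a
            have : a ∈ U.map φ := by rw [hU]; trivial
            obtain ⟨x, hx, rfl⟩ := this
            exact ⟨⟨x, hx⟩, rfl⟩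
          · intro x hx
            exact hker hx
      · let ρ' : H ⧸ ρ.ker →* End L V := QuotientGroup.lift ρ.ker ρ le_rfl
        let φ' : H ⧸ ρ.ker →* alternatingGroup (Fin r) := QuotientGroup.lift ρ.ker φ hker
        have hlt : Nat.card (H ⧸ ρ.ker) < N := by
          rw [← hN, Subgroup.card_eq_card_quotient_mul_card_subgroup ρ.ker]
          refine lt_mul_of_one_lt_right Nat.card_pos ?_
          rw [Subgroup.one_lt_card_iff_ne_bot]
          exact fun h => hinj (injective_of_ker ρ h)
        refine ihN _ hlt (H ⧸ ρ.ker) ρ' φ' rfl ?_ ?_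
        · intro a
          obtain ⟨x, rfl⟩ := hsurj a
          exact ⟨QuotientGroup.mk x, rfl⟩
        · intro x hx
          obtain ⟨y, rfl⟩ := QuotientGroup.mk_surjective x
          have hy : y ∈ ρ.ker := hx
          show φ y = 1
          exact hker hy
where
  injective_of_ker {H : Type} [Group H] {L V : Type} [Field L] [AddCommGroup V] [Module L V]
      (ρ : H →* End L V) (h : ρ.ker = ⊥) : Function.Injective ρ := by
    intro a b hab
    have : a⁻¹ * b ∈ ρ.ker := by
      rw [MonoidHom.mem_ker, map_mul, ← hab, ← map_mul, inv_mul_cancel, map_one]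
    rw [h, Subgroup.mem_bot, inv_mul_eq_one] at this
    exact this

end Cfsg.Agent.H73.AltDim
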