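import Cfsg.Agent.H73.AltDim.FourExc

/-!
Odd or zero characteristic: in small degree every three cycle moves exactly a plane.
-/

set_option autoImplicit false

namespace Cfsg.Agent.H73.AltDim

open Equiv Equiv.Perm Module Cfsg.Agent.Weights
open Cfsg.Agent.Alt (cyc3 cyc3_conj)

variable {L : Type*} [Field L] [IsAlgClosed L] {V : Type*} [AddCommGroup V] [Module L V]
  [FiniteDimensional L V] {r : ℕ} {R : Perm (Fin r) → End L V}

/-- the data extracted from the four-group blocks -/
theorem four_result (hR : IsRep R) (h2 : (2 : L) ≠ 0) (hr : 9 ≤ r)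
    (hnt : ∃ g : Perm (Fin r), sign g = 1 ∧ R g ≠ 1) (hn : finrank L V ≤ r - 2) :
    5 ≤ finrank L V ∧
      (∀ a b c d : Fin r, a ≠ b → a ≠ c → a ≠ d → b ≠ c → b ≠ d → c ≠ d →
        finrank L (LinearMap.range (R (dt a b c d) - 1)) = 2) ∧
      (∀ a b c : Fin r, a ≠ b → a ≠ c → b ≠ c →
        2 ≤ finrank L (LinearMap.range (R (cyc3 a b c) - 1))) := by
  classical
  obtain ⟨k, hk, hk2, hkn⟩ : ∃ k, 4 * k ≤ r ∧ 2 ≤ k ∧ r ≤ 4 * k + 3 :=
    ⟨r / 4, by omega, by omega, by omega⟩
  let f : Fin k × Fin 4 ↪ Fin r := blockEmb hk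
  have hB := four_blocks (k := k) f hR h2
  let U : Fin k → Option (Fin 3) → Submodule L V := IsBlocks.eigB R (fourT f) (1 : L) (-1)
  have hsq : ∀ a, R (fourT f a) ^ 2 = 1 := fun a => hR.pow_eq_one (fourT_sign f a) (fourT_sq f a)
  -- singleton supports
  have hsingle : ∀ s, Wt R (fourT f) (1 : L) (-1) s → (supp s).card ≤ 1 := by
    intro s h
    by_contra hs
    obtain ⟨rfl, h9, hcard⟩ := four_small f hR h2 hk2 (by omega) h (by omega)
    obtain rfl : r = 11 := by omega
    exact four_exception hR h2 hnt (by omega) h hcard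
  have hsum := hB.sum_eigB_le (n := 2) (by exact_mod_cast h2) hsq hsingle
  obtain ⟨i₀⟩ : Nonempty (Fin k) := ⟨⟨0, by omega⟩⟩
  set m := finrank L (U i₀ (some 0)) with hm
  have hdim : ∀ i c, finrank L (U i (some c)) = m := fun i c =>
    le_antisymm (four_eig_finrank f hR h2 i i₀ c 0) (four_eig_finrank f hR h2 i₀ i 0 c)
  rw [Finset.sum_congr rfl (fun x _ => hdim x.1 x.2), Finset.sum_const, Finset.card_univ,
    Fintype.card_prod, Fintype.card_fin, Fintype.card_fin, smul_eq_mul] at hsum
  have hTne : ∀ a, fourT f a ≠ 1 := fun a h => by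
    have := Equiv.congr_fun h (f (a.1, 0))
    rw [fourT, blk_apply_self, Perm.one_apply] at this
    have h' : tfour a.2 0 = 0 := congrArg Prod.snd (f.injective this)
    revert h'
    generalize a.2 = u
    revert u
    decide
  have hm1 : m = 1 := by
    have hle : m ≤ 1 := by
      by_contra hmm
      have := Nat.mul_le_mul_left (k * 3) (show 2 ≤ m by omega)
      omega
    refine le_antisymm hle (Nat.one_le_iff_ne_zero.2 fun h0 => ?_)
    have hne := hR.ne_one (by omega) hnt (fourT_sign f (i₀, 0)) (hTne _)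
    obtain ⟨v, hv⟩ : ∃ v, R (fourT f (i₀, 0)) v ≠ v := by
      by_contra! h; exact hne (LinearMap.ext h)
    obtain ⟨χ, w, -, hwv, hχ⟩ := exists_weight_ne_one_on (fun a => R (fourT f a)) hB.comm
      (W := ⊤) (fun _ _ _ => trivial) (i₀, 0) 2 (by exact_mod_cast h2) (hsq _) (v := v) trivial hv
    obtain ⟨s, rfl⟩ := hB.exists_code hwv
    rcases hs0 : s i₀ with _ | c
    · simp [chi, blockVal, hs0] at hχ
    · have hw : w ∈ U i₀ (some c) := IsBlocks.mem_eigB.2 fun u => by
        have := hwv.2 (i₀, u)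
        simpa [chi, hs0] using this
      have hbot : U i₀ (some c) = ⊥ := by
        rw [← Submodule.finrank_eq_zero, hdim, h0]
      rw [hbot, Submodule.mem_bot] at hw
      exact hwv.1 hw
  have hUne : ∀ c, ∃ v ∈ U i₀ (some c), v ≠ 0 := fun c => (Submodule.ne_bot_iff _).1 fun h => by
    have := hdim i₀ c
    rw [h, finrank_bot, hm1] at this
    omega
  -- minus space of a block involution
  have hminus : finrank L (LinearMap.range (R (fourT f (i₀, 0)) - 1)) = 2 := by
    have hrange : LinearMap.range (R (fourT f (i₀, 0)) - 1) = U i₀ (some 1) ⊔ U i₀ (some 2) := by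
      apply le_antisymm
      · rintro _ ⟨v, rfl⟩
        have := four_decomp f hR h2 i₀ (U := (U i₀ (some 1) ⊔ U i₀ (some 2)).comap
          (R (fourT f (i₀, 0)) - 1)) (fun c w hw => by
            have hw0 := IsBlocks.mem_eigB.1 hw 0
            rw [Submodule.mem_comap, LinearMap.sub_apply, Module.End.one_apply, hw0]
            rcases c with _ | c
            · simp [blockVal]
            · fin_cases c
              · simp [blockVal]
              · exact Submodule.mem_sup_left (Submodule.sub_mem _ (Submodule.smul_mem _ _ hw) hw)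
              · exact Submodule.mem_sup_right (Submodule.sub_mem _ (Submodule.smul_mem _ _ hw) hw)) v
        exact this
      · refine sup_le (fun w hw => ⟨(-2 : L)⁻¹ • w, ?_⟩) (fun w hw => ⟨(-2 : L)⁻¹ • w, ?_⟩) <;>
        · have hw0 := IsBlocks.mem_eigB.1 hw 0
          rw [LinearMap.sub_apply, Module.End.one_apply, map_smul, hw0]
          simp only [blockVal, Option.elim_some]
          rw [if_neg (by decide), neg_one_smul, smul_neg, ← neg_smul, ← sub_smul]
          rw [show -(-2 : L)⁻¹ - (-2 : L)⁻¹ = 1 by field_simp; ring, one_smul]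
    have hinf : U i₀ (some 1) ⊓ U i₀ (some 2) = ⊥ := by
      rw [eq_bot_iff]
      rintro w ⟨h1, h1'⟩
      have e1 := IsBlocks.mem_eigB.1 h1 1
      have e2 := IsBlocks.mem_eigB.1 h1' 1
      rw [e1] at e2
      simp only [blockVal, Option.elim_some, if_pos, if_neg (show ¬ (1 : Fin 3) = 2 by decide),
        one_smul, neg_one_smul] at e2
      have : (2 : L) • w = 0 := by rw [two_smul]; nth_rw 1 [e2]; exact neg_add_cancel w
      exact (smul_eq_zero.1 this).resolve_left h2
    have := Submodule.finrank_sup_add_finrank_inf_eq (U i₀ (some 1)) (U i₀ (some 2))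
    rw [hinf, finrank_bot, hdim, hdim, hm1, add_zero] at this
    rw [hrange]; exact this
  refine ⟨?_, ?_, ?_⟩
  · rw [hm1] at hsum; omega
  · intro a b c d hab hac had hbc hbd hcd
    obtain ⟨σ, hσ, hσi⟩ := exists_even_map ![f (i₀, 0), f (i₀, 1), f (i₀, 2), f (i₀, 3)] ![a, b, c, d]
      (by intro i j h; fin_cases i <;> fin_cases j <;> simp at h ⊢)
      (by intro i j h; fin_cases i <;> fin_cases j <;> simp [hab, hac, had, hbc, hbd, hcd, hab.symm,
        hac.symm, had.symm, hbc.symm, hbd.symm, hcd.symm] at h ⊢)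
      (by omega)
    have h0 := hσi 0; have h1 := hσi 1; have h2' := hσi 2; have h3 := hσi 3
    simp only [Fin.isValue, Matrix.cons_val_zero, Matrix.cons_val_one, Matrix.cons_val] at h0 h1 h2' h3
    have e := fourT_eq f (i₀, 0)
    rw [show ((0 : Fin 3)).succ = (1 : Fin 4) from rfl, show ((0 : Fin 3) + 1).succ = (2 : Fin 4) from rfl,
      show ((0 : Fin 3) + 2).succ = (3 : Fin 4) from rfl] at e
    rw [← h0, ← h1, ← h2', ← h3, ← dt_conj, ← e, hR.finrank_range_conj hσ (fourT_sign f _)]
    exact hminus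
  · intro a b c hab hac hbc
    obtain ⟨σ, hσ, hσi⟩ := exists_even_map ![f (i₀, 1), f (i₀, 2), f (i₀, 3)] ![a, b, c]
      (by intro i j h; fin_cases i <;> fin_cases j <;> simp at h ⊢)
      (by intro i j h; fin_cases i <;> fin_cases j <;> simp [hab, hac, hbc, hab.symm, hac.symm,
        hbc.symm] at h ⊢)
      (by omega)
    have h0 := hσi 0; have h1 := hσi 1; have h2' := hσi 2
    simp only [Fin.isValue, Matrix.cons_val_zero, Matrix.cons_val_one, Matrix.cons_val] at h0 h1 h2'
    have hx : blk f i₀ (rot 1) = cyc3 (f (i₀, 1)) (f (i₀, 2)) (f (i₀, 3)) := by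
      rw [show rot 1 = swap (1 : Fin 4) 2 * swap 2 3 from rfl, blk_mul, blk_swap, blk_swap, cyc3]
    have hxs : sign (blk f i₀ (rot 1)) = 1 := by rw [sign_blk, tfour_facts.2.2.2.2.1]
    rw [← h0, ← h1, ← h2', ← cyc3_conj, ← hx, hR.finrank_range_conj hσ hxs]
    obtain ⟨u0, hu0, hu00⟩ := hUne 0
    set x := R (blk f i₀ (rot 1))
    have hconj : ∀ i u, blk f i₀ (rot 1) * fourT f (i, u) * (blk f i₀ (rot 1))⁻¹ =
        fourT f ((1 : Perm (Fin k)) i, u + (if i = i₀ then 1 else 0)) := by
      intro i u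
      by_cases hi : i = i₀
      · subst hi
        rw [fourT, fourT, if_pos rfl, Perm.one_apply, mul_inv_eq_iff_eq_mul, ← blk_mul, ← blk_mul]
        congr 1
        rw [← mul_inv_eq_iff_eq_mul]
        exact tfour_facts.2.2.2.2.2 _ _
      · rw [fourT, fourT, if_neg hi, Perm.one_apply, add_zero,
          blk_comm f (fun h => absurd h.symm hi), mul_inv_cancel_right]
    have hmap : ∀ c, ∀ v ∈ U i₀ (some c), x v ∈ U i₀ (some (c + 1)) := by
      intro c v hv
      have := hB.transport_eigB hxs 1 (fun i => if i = i₀ then 1 else 0) hconj i₀ c ⟨v, hv, rfl⟩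
      simpa using this
    have hu1 := hmap 0 u0 hu0
    have hu2 := hmap _ _ hu1
    have hx0 : x u0 ≠ 0 := fun h => hu00 (hR.injective hxs (by rw [map_zero]; exact h))
    have hx1 : x (x u0) ≠ 0 := fun h => hx0 (hR.injective hxs (by rw [map_zero]; exact h))
    have hli := linearIndependent_weightVec (fun u => R (fourT f (i₀, u)))
      (fun c : Fin 3 => blockVal (1 : L) (-1) (some c)) (hB.blockVal_inj.comp (Option.some_injective _))
      ![u0, x u0, x (x u0)] (fun c => by
        fin_cases c
        · exact ⟨hu00, IsBlocks.mem_eigB.1 hu0⟩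
        · exact ⟨hx0, IsBlocks.mem_eigB.1 hu1⟩
        · exact ⟨hx1, IsBlocks.mem_eigB.1 hu2⟩)
    have hli2 : LinearIndependent L ![(⟨x u0 - u0, ⟨u0, by simp [x]⟩⟩ : LinearMap.range (x - 1)),
        ⟨x (x u0) - x u0, ⟨x u0, by simp [x]⟩⟩] := by
      rw [LinearIndependent.pair_iff]
      intro c d hcd
      have hcd' : c • (x u0 - u0) + d • (x (x u0) - x u0) = 0 := congrArg Subtype.val hcd
      have := Fintype.linearIndependent_iff.1 hli ![-c, c - d, d] (by
        rw [Fin.sum_univ_three]
        simp only [Fin.isValue, Matrix.cons_val_zero, Matrix.cons_val_one, Matrix.cons_val]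
        rw [← hcd']; module)
      exact ⟨by simpa using this 0, by simpa using this 2⟩
    simpa using hli2.fintype_card_le_finrank

end Cfsg.Agent.H73.AltDim
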