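import Cfsg.Agent.H73.AltDim.Tools

/-!
Minimal groups mapping onto an alternating group inside a linear group of small degree.
-/

set_option autoImplicit false

namespace Cfsg.Agent.H73.AltDim

open Equiv Equiv.Perm Module Cfsg.Agent.Weights

variable {r : ℕ} {H : Type} [Group H]

/-- `φ` is onto, and no proper subgroup maps onto -/
structure IsMin (φ : H →* alternatingGroup (Fin r)) : Prop where
  surj : Function.Surjective φ
  min : ∀ U : Subgroup H, U.map φ = ⊤ → U = ⊤

namespace IsMin

variable {φ : H →* alternatingGroup (Fin r)} (hφ : IsMin φ)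
include hφ

theorem normal_cases (hr : 5 ≤ r) (N : Subgroup H) [hN : N.Normal] : N ≤ φ.ker ∨ N = ⊤ := by
  haveI : IsSimpleGroup (alternatingGroup (Fin r)) :=
    alternatingGroup.isSimpleGroup (by rwa [Nat.card_fin])
  rcases IsSimpleGroup.eq_bot_or_eq_top_of_normal _ (hN.map φ hφ.surj) with h | h
  · exact Or.inl ((Subgroup.map_eq_bot_iff N).1 h)
  · exact Or.inr (hφ.min N h)

theorem exists_not_commute (hr : 5 ≤ r) : ∃ a b : alternatingGroup (Fin r), a * b ≠ b * a := by
  refine ⟨⟨Alt.cyc3 (⟨0, by omega⟩ : Fin r) ⟨1, by omega⟩ ⟨2, by omega⟩, ?_⟩,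
    ⟨Alt.cyc3 (⟨1, by omega⟩ : Fin r) ⟨2, by omega⟩ ⟨3, by omega⟩, ?_⟩, fun h => ?_⟩
  · exact mem_alternatingGroup.2 (cyc3_sign (by simp [Fin.ext_iff]) (by simp [Fin.ext_iff]))
  · exact mem_alternatingGroup.2 (cyc3_sign (by simp [Fin.ext_iff]) (by simp [Fin.ext_iff]))
  · have := Equiv.congr_fun (congrArg Subtype.val h) (⟨0, by omega⟩ : Fin r)
    simp [Alt.cyc3, Perm.mul_apply, swap_apply_def, Fin.ext_iff] at this

/-- homomorphisms to commutative groups are trivial -/
theorem hom_comm_trivial (hr : 5 ≤ r) {A : Type*} [CommGroup A] (f : H →* A) (h : H) : f h = 1 := by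
  rcases hφ.normal_cases hr f.ker with hle | htop
  · obtain ⟨a, b, hab⟩ := hφ.exists_not_commute hr
    obtain ⟨x, rfl⟩ := hφ.surj a
    obtain ⟨y, rfl⟩ := hφ.surj b
    have : x * y * (y * x)⁻¹ ∈ f.ker := by
      rw [MonoidHom.mem_ker, map_mul, map_inv, map_mul, map_mul, mul_comm (f y), mul_inv_cancel]
    have := hle this
    rw [MonoidHom.mem_ker, map_mul, map_inv, mul_inv_eq_one, map_mul, map_mul] at this
    exact absurd this hab
  · exact MonoidHom.mem_ker.1 (by rw [htop]; trivial)

theorem commutator_eq_top (hr : 5 ≤ r) : commutator H = ⊤ := by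
  refine eq_top_iff.2 fun h _ => ?_
  have := hφ.hom_comm_trivial hr (Abelianization.of) h
  rwa [← MonoidHom.mem_ker, Abelianization.ker_of] at this

theorem card_alt_le_index (N : Subgroup H) [Finite H] (hN : N ≤ φ.ker) :
    Nat.card (alternatingGroup (Fin r)) ≤ N.index := by
  rw [← Nat.card_congr (QuotientGroup.quotientKerEquivOfSurjective φ hφ.surj).toEquiv]
  exact Nat.le_of_dvd (Nat.pos_of_ne_zero Subgroup.index_ne_zero_of_finite)
    (Subgroup.index_dvd_of_le hN)

theorem ker_nilpotent [Finite H] : Group.IsNilpotent φ.ker := by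
  refine (Group.isNilpotent_of_finite_tfae.out 0 3 rfl rfl).2 fun q hq P => ?_
  haveI := hq
  have hsup := Sylow.normalizer_sup_eq_top P
  have hN : Subgroup.normalizer (((P : Subgroup φ.ker).map φ.ker.subtype : Subgroup H) : Set H) = ⊤ := by
    refine hφ.min _ ?_
    have h := congrArg (Subgroup.map φ) hsup
    rw [Subgroup.map_sup, (Subgroup.map_eq_bot_iff φ.ker).2 le_rfl, sup_bot_eq,
      Subgroup.map_top_of_surjective φ hφ.surj] at h
    exact h
  haveI : ((P : Subgroup φ.ker).map φ.ker.subtype).Normal := Subgroup.normalizer_eq_top_iff.1 hN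
  rw [← Subgroup.comap_map_eq_self_of_injective φ.ker.subtype_injective (P : Subgroup φ.ker)]
  exact Subgroup.Normal.comap inferInstance _

end IsMin

variable {L : Type*} [Field L] {V : Type*} [AddCommGroup V] [Module L V]

/-- scalar operators -/
def IsScalar (f : End L V) : Prop := ∃ c : L, f = c • (1 : End L V)

theorem IsScalar.comm {f : End L V} (h : IsScalar f) (g : End L V) : f * g = g * f := by
  obtain ⟨c, rfl⟩ := h
  rw [smul_mul_assoc, one_mul, mul_smul_comm, mul_one]

variable {ρ : H →* End L V}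

theorem apply_inv_apply (ρ : H →* End L V) (g : H) (v : V) : ρ g (ρ g⁻¹ v) = v := by
  rw [← Module.End.mul_apply, ← map_mul, mul_inv_cancel, map_one, Module.End.one_apply]

theorem inv_apply_apply (ρ : H →* End L V) (g : H) (v : V) : ρ g⁻¹ (ρ g v) = v := by
  rw [← Module.End.mul_apply, ← map_mul, inv_mul_cancel, map_one, Module.End.one_apply]

/-- a weight moved by an element -/
theorem weight_move {A : Subgroup H} [hA : A.Normal] {χ : A → L}
    (h : IsWeight (fun a : A => ρ (a : H)) χ) (g : H) :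
    IsWeight (fun a : A => ρ (a : H)) (fun a => χ ⟨g⁻¹ * (a : H) * g, by
      simpa using hA.conj_mem _ a.2 g⁻¹⟩) := by
  obtain ⟨v, hv0, hv⟩ := h
  refine ⟨ρ g v, fun h0 => hv0 ?_, fun a => ?_⟩
  · rw [← inv_apply_apply ρ g v, h0, map_zero]
  · have := hv ⟨g⁻¹ * (a : H) * g, by simpa using hA.conj_mem _ a.2 g⁻¹⟩
    show ρ (a : H) (ρ g v) = _
    rw [← map_smul, ← this, ← Module.End.mul_apply, ← Module.End.mul_apply, ← map_mul, ← map_mul]
    congr 2
    group

/-- abelian normal subgroups in the kernel are scalar -/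
theorem abelian_scalar [IsAlgClosed L] [FiniteDimensional L V] [Finite H]
    {φ : H →* alternatingGroup (Fin r)} (hφ : IsMin φ) (hr : 5 ≤ r)
    (hirr : ∀ W : Submodule L V, (∀ g, ∀ v ∈ W, ρ g v ∈ W) → W = ⊥ ∨ W = ⊤)
    (hn0 : 0 < finrank L V) (hn : finrank L V + 2 ≤ r)
    (A : Subgroup H) [hA : A.Normal] (hab : ∀ a ∈ A, ∀ b ∈ A, a * b = b * a) :
    ∀ a ∈ A, IsScalar (ρ a) := by
  classical
  let F : A → End L V := fun a => ρ (a : H)
  have hcomm : ∀ a b, F a * F b = F b * F a := fun a b => by
    simp only [F, ← map_mul, hab _ a.2 _ b.2]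
  haveI : Nontrivial V := Module.finrank_pos_iff.1 hn0
  obtain ⟨χ, v, -, hv0, hv⟩ := exists_weight F hcomm (W := ⊤) top_ne_bot (fun _ _ _ => trivial)
  -- the set of weights
  haveI hfin : Finite {χ : A → L // IsWeight F χ} := by
    have hli := linearIndependent_weightVec F (fun x : {χ : A → L // IsWeight F χ} => x.1)
      Subtype.val_injective (fun x => x.2.choose) (fun x => x.2.choose_spec)
    exact hli.finite
  haveI := Fintype.ofFinite {χ : A → L // IsWeight F χ}
  have hm : Fintype.card {χ : A → L // IsWeight F χ} ≤ finrank L V :=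
    card_weights_le F (fun x => x.1) Subtype.val_injective fun x => x.2
  let act : H → {χ : A → L // IsWeight F χ} → {χ : A → L // IsWeight F χ} := fun g x =>
    ⟨fun a => x.1 ⟨g⁻¹ * (a : H) * g, by simpa using hA.conj_mem _ a.2 g⁻¹⟩, weight_move x.2 g⟩
  have act_one : ∀ x, act 1 x = x := fun x => Subtype.ext (funext fun a => congrArg x.1 (Subtype.ext (by simp)))
  have act_mul : ∀ g g' x, act (g * g') x = act g (act g' x) := fun g g' x =>
    Subtype.ext (funext fun a => congrArg x.1 (Subtype.ext (by simp [mul_assoc])))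
  let e : H → Perm {χ : A → L // IsWeight F χ} := fun g =>
    { toFun := act g
      invFun := act g⁻¹
      left_inv := fun x => by rw [← act_mul, inv_mul_cancel, act_one]
      right_inv := fun x => by rw [← act_mul, mul_inv_cancel, act_one] }
  let ψ : H →* Perm {χ : A → L // IsWeight F χ} :=
    { toFun := e
      map_one' := Equiv.ext act_one
      map_mul' := fun g g' => Equiv.ext (act_mul g g') }
  rcases hφ.normal_cases hr ψ.ker with hle | htop
  · exfalso
    have h1 := hφ.card_alt_le_index ψ.ker hle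
    rw [Subgroup.index_ker] at h1
    have h2 : Nat.card ψ.range ≤ (finrank L V).factorial :=
      (Nat.card_le_card_of_injective _ Subtype.val_injective).trans (by
        rw [Nat.card_eq_fintype_card, Fintype.card_perm]
        exact Nat.factorial_le hm)
    haveI : Nontrivial (Fin r) := Fin.nontrivial_iff_two_le.2 (by omega)
    have h3 := two_mul_nat_card_alternatingGroup (α := Fin r)
    rw [Nat.card_perm, Nat.card_fin] at h3
    obtain ⟨k, rfl⟩ : ∃ k, r = k + 2 := ⟨r - 2, by omega⟩
    have h4 := Nat.factorial_le (show finrank L V ≤ k by omega)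
    rw [Nat.factorial_succ, Nat.factorial_succ] at h3
    have h5 : 6 * k.factorial ≤ (k + 1 + 1) * ((k + 1) * k.factorial) := by
      rw [← mul_assoc]
      exact Nat.mul_le_mul_right _ (by nlinarith)
    have := Nat.factorial_pos k
    omega
  · let E : Submodule L V := ⨅ a : A, LinearMap.ker (F a - χ a • (1 : End L V))
    have memE : ∀ w, w ∈ E ↔ ∀ a : A, F a w = χ a • w := fun w => by simp [E, sub_eq_zero]
    have hE : E = ⊤ := by
      refine (hirr E fun g w hw => ?_).resolve_left ((Submodule.ne_bot_iff _).2 ⟨v, (memE v).2 hv, hv0⟩)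
      rw [memE] at hw ⊢
      intro a
      have hg : g ∈ ψ.ker := by rw [htop]; trivial
      have hfix : act g ⟨χ, v, hv0, hv⟩ = ⟨χ, v, hv0, hv⟩ := Equiv.congr_fun hg _
      have hχ : χ ⟨g⁻¹ * (a : H) * g, by simpa using hA.conj_mem _ a.2 g⁻¹⟩ = χ a :=
        congrFun (congrArg Subtype.val hfix) a
      have := hw ⟨g⁻¹ * (a : H) * g, by simpa using hA.conj_mem _ a.2 g⁻¹⟩
      rw [hχ] at this
      show ρ (a : H) (ρ g w) = _
      rw [← map_smul, ← this, ← Module.End.mul_apply, ← Module.End.mul_apply, ← map_mul, ← map_mul]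
      congr 2
      group
    intro a ha
    refine ⟨χ ⟨a, ha⟩, LinearMap.ext fun w => ?_⟩
    rw [LinearMap.smul_apply, Module.End.one_apply]
    exact (memE w).1 (by rw [hE]; trivial) ⟨a, ha⟩

end Cfsg.Agent.H73.AltDim
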