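import Cfsg.Agent.H73.AltDim.Tools
import Cfsg.Agent.H73.AltDim.Embed

/-!
Sign-projective maps on even permutations in which the four group lifts to a quaternion group.
-/

set_option autoImplicit false

namespace Cfsg.Agent.H73.AltDim

open Equiv Equiv.Perm Module

variable {L : Type*} [Field L] {V : Type*} [AddCommGroup V] [Module L V]

/-- equal up to sign -/
def Pm (f g : End L V) : Prop := f = g ∨ f = -g

namespace Pm

theorem symm {f g : End L V} (h : Pm f g) : Pm g f := by
  rcases h with h | h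
  · exact Or.inl h.symm
  · exact Or.inr (by rw [h, neg_neg])

theorem trans {f g k : End L V} (h : Pm f g) (h' : Pm g k) : Pm f k := by
  rcases h with rfl | rfl <;> rcases h' with rfl | rfl
  · exact Or.inl rfl
  · exact Or.inr rfl
  · exact Or.inr rfl
  · exact Or.inl (neg_neg _)

theorem rfl' {f : End L V} : Pm f f := Or.inl rfl

theorem mul {f g f' g' : End L V} (h : Pm f g) (h' : Pm f' g') : Pm (f * f') (g * g') := by
  rcases h with rfl | rfl <;> rcases h' with rfl | rfl <;> simp [Pm]

theorem pow {f g : End L V} (h : Pm f g) (n : ℕ) : Pm (f ^ n) (g ^ n) := by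
  induction n with
  | zero => exact rfl'
  | succ n ih => rw [pow_succ, pow_succ]; exact ih.mul h

theorem apply {f g : End L V} (h : Pm f g) (v : V) : f v = g v ∨ f v = -g v := by
  rcases h with rfl | rfl
  · exact Or.inl rfl
  · exact Or.inr rfl

theorem mem_iff {f g : End L V} (h : Pm f g) (W : Submodule L V) (v : V) : f v ∈ W ↔ g v ∈ W := by
  rcases h.apply v with h | h <;> simp [h]

end Pm

/-- two operators of the same odd order intertwined up to sign are intertwined -/
theorem eq_of_pm_odd (h2 : (2 : L) ≠ 0) {T A B : End L V} {m : ℕ} (hm : Odd m) (hA : A ^ m = 1)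
    (hB : B ^ m = 1) (h : Pm (T * A) (B * T)) : T * A = B * T := by
  rcases h with h | h
  · exact h
  have hs : SemiconjBy T A (-B) := by
    show T * A = -B * T
    rw [h, neg_mul]
  have := (hs.pow_right m).eq
  rw [hA, mul_one, hm.neg_pow, hB, neg_mul, one_mul] at this
  have h0 : (2 : L) • T = 0 := by rw [two_smul]; nth_rw 1 [this]; exact neg_add_cancel T
  simp [(smul_eq_zero.1 h0).resolve_left h2]

variable {r : ℕ}

/-- a sign-projective map with anticommuting four groups -/
structure IsSpin (S : Perm (Fin r) → End L V) : Prop where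
  map_one : S 1 = 1
  map_mul : ∀ a b : Perm (Fin r), sign a = 1 → sign b = 1 → Pm (S (a * b)) (S a * S b)
  anti : ∀ a b c d : Fin r, a ≠ b → a ≠ c → a ≠ d → b ≠ c → b ≠ d → c ≠ d →
    S (dt a b c d) * S (dt a c b d) = -(S (dt a c b d) * S (dt a b c d))
  comm : ∀ a b c d : Fin r, a ≠ b → a ≠ c → a ≠ d → b ≠ c → b ≠ d → c ≠ d → ∀ g : Perm (Fin r),
    sign g = 1 → g a = a → g b = b → g c = c → g d = d → Commute (S (dt a b c d)) (S g)

namespace IsSpin

variable {S : Perm (Fin r) → End L V} (hS : IsSpin S)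
include hS

theorem map_pow {a : Perm (Fin r)} (ha : sign a = 1) (n : ℕ) : Pm (S (a ^ n)) (S a ^ n) := by
  induction n with
  | zero => rw [pow_zero, pow_zero, hS.map_one]; exact Pm.rfl'
  | succ n ih =>
    rw [pow_succ, pow_succ]
    exact (hS.map_mul _ _ (by rw [_root_.map_pow, ha, one_pow]) ha).trans (ih.mul Pm.rfl')

theorem pow_pm_one {a : Perm (Fin r)} (ha : sign a = 1) {n : ℕ} (h : a ^ n = 1) : Pm (S a ^ n) 1 := by
  have := (hS.map_pow ha n).symm
  rwa [h, hS.map_one] at this

theorem injective {a : Perm (Fin r)} (ha : sign a = 1) : Function.Injective (S a) := by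
  have h := hS.map_mul _ _ (sign_inv_one ha) ha
  rw [inv_mul_cancel, hS.map_one] at h
  rcases h with h | h <;> intro x y hxy
  · simpa [← Module.End.mul_apply, ← h] using congrArg (S a⁻¹) hxy
  · have := congrArg (fun w => -(S a⁻¹ w)) hxy
    simpa [← Module.End.mul_apply, ← LinearMap.neg_apply, ← h] using this

theorem conj {g a : Perm (Fin r)} (hg : sign g = 1) (ha : sign a = 1) :
    Pm (S (g * a * g⁻¹) * S g) (S g * S a) := by
  have h1 := (hS.map_mul (g * a * g⁻¹) g (by rw [sign_conj, ha]) hg).symm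
  rw [inv_mul_cancel_right] at h1
  exact h1.trans (hS.map_mul _ _ hg ha)

theorem finrank_map_le [FiniteDimensional L V] {a : Perm (Fin r)} (ha : sign a = 1)
    {U U' : Submodule L V} (h : ∀ v ∈ U, S a v ∈ U') : finrank L U ≤ finrank L U' :=
  le_of_eq_of_le (Submodule.equivMapOfInjective _ (hS.injective ha) U).finrank_eq
    (Submodule.finrank_mono (Submodule.map_le_iff_le_comap.2 h))

/-- odd order elements have normalised images -/
theorem exists_norm {c : Perm (Fin r)} (hc : sign c = 1) {m : ℕ} (hm : Odd m) (h : c ^ m = 1) :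
    ∃ C : End L V, Pm C (S c) ∧ C ^ m = 1 := by
  rcases hS.pow_pm_one hc h with h | h
  · exact ⟨S c, Pm.rfl', h⟩
  · exact ⟨-S c, Or.inr rfl, by rw [hm.neg_pow, h, neg_neg]⟩

theorem norm_conj (h2 : (2 : L) ≠ 0) {g c c' : Perm (Fin r)} (hg : sign g = 1) (hc : sign c = 1)
    (he : g * c * g⁻¹ = c') {m : ℕ} (hm : Odd m) {C C' : End L V} (hC : Pm C (S c))
    (hC' : Pm C' (S c')) (hCm : C ^ m = 1) (hCm' : C' ^ m = 1) : S g * C = C' * S g := by
  refine eq_of_pm_odd h2 hm hCm hCm' ?_
  refine (Pm.rfl'.mul hC).trans ?_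
  have := (hS.conj hg hc).symm
  rw [he] at this
  exact this.trans (hC'.symm.mul Pm.rfl')

end IsSpin

theorem viaEmbedding_swap {r r' : ℕ} (ι : Fin r' ↪ Fin r) (x y : Fin r') :
    (swap x y).viaEmbedding ι = swap (ι x) (ι y) := by
  ext z
  by_cases hz : z ∈ Set.range ι
  · obtain ⟨w, rfl⟩ := hz
    rw [viaEmbedding_apply, Function.Injective.swap_apply ι.injective]
  · rw [viaEmbedding_apply_of_notMem _ _ _ hz,
      swap_apply_of_ne_of_ne (fun h => hz ⟨_, h.symm⟩) (fun h => hz ⟨_, h.symm⟩)]

theorem viaEmbedding_mul {r r' : ℕ} (ι : Fin r' ↪ Fin r) (a b : Perm (Fin r')) :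
    (a * b).viaEmbedding ι = a.viaEmbedding ι * b.viaEmbedding ι :=
  map_mul (viaEmbeddingHom ι) a b

open Classical in
/-- restriction to fewer points and an invariant subspace -/
noncomputable def resSpin {r r' : ℕ} (ι : Fin r' ↪ Fin r) (S : Perm (Fin r) → End L V)
    (W : Submodule L V) (g : Perm (Fin r')) : End L W :=
  if h : ∀ v ∈ W, S (g.viaEmbedding ι) v ∈ W then (S (g.viaEmbedding ι)).restrict h else 1

theorem IsSpin.res {r r' : ℕ} (ι : Fin r' ↪ Fin r) {S : Perm (Fin r) → End L V} (hS : IsSpin S)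
    {W : Submodule L V}
    (hW : ∀ g : Perm (Fin r'), sign g = 1 → ∀ v ∈ W, S (g.viaEmbedding ι) v ∈ W) :
    IsSpin (resSpin ι S W) := by
  have hco : ∀ g : Perm (Fin r'), sign g = 1 → ∀ v : W,
      ((resSpin ι S W g v : W) : V) = S (g.viaEmbedding ι) v := by
    intro g hg v
    rw [resSpin, dif_pos (hW g hg)]
    rfl
  have hd : ∀ a b c d : Fin r', (dt a b c d).viaEmbedding ι = dt (ι a) (ι b) (ι c) (ι d) :=
    fun a b c d => by rw [dt, dt, viaEmbedding_mul, viaEmbedding_swap, viaEmbedding_swap]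
  have hs : ∀ g : Perm (Fin r'), sign g = 1 → sign (g.viaEmbedding ι) = 1 := fun g hg => by
    rw [sign_viaEmbedding, hg]
  have hne : ∀ {a b : Fin r'}, a ≠ b → ι a ≠ ι b := fun h => ι.injective.ne h
  refine ⟨?_, fun a b ha hb => ?_, fun a b c d h1 h2 h3 h4 h5 h6 => ?_,
    fun a b c d h1 h2 h3 h4 h5 h6 g hg ga gb gc gd => ?_⟩
  · refine LinearMap.ext fun v => Subtype.ext ?_
    rw [hco 1 (_root_.map_one sign), show (1 : Perm (Fin r')).viaEmbedding ι = 1 from _root_.map_one (viaEmbeddingHom ι),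
      hS.map_one]
    rfl
  · have h := hS.map_mul _ _ (hs a ha) (hs b hb)
    rw [← viaEmbedding_mul] at h
    rcases h with h | h
    · refine Or.inl (LinearMap.ext fun v => Subtype.ext ?_)
      rw [hco _ (sign_mul_one ha hb), h, Module.End.mul_apply, Module.End.mul_apply, hco a ha, hco b hb]
    · refine Or.inr (LinearMap.ext fun v => Subtype.ext ?_)
      rw [hco _ (sign_mul_one ha hb), h, LinearMap.neg_apply, LinearMap.neg_apply, Submodule.coe_neg,
        Module.End.mul_apply, Module.End.mul_apply, hco a ha, hco b hb]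
  · refine LinearMap.ext fun v => Subtype.ext ?_
    have h := LinearMap.congr_fun
      (hS.anti _ _ _ _ (hne h1) (hne h2) (hne h3) (hne h4) (hne h5) (hne h6)) (v : V)
    rw [← hd, ← hd, Module.End.mul_apply, LinearMap.neg_apply, Module.End.mul_apply] at h
    simp only [Module.End.mul_apply, LinearMap.neg_apply, Submodule.coe_neg,
      hco _ (dt_sign h1 h6), hco _ (dt_sign h2 h5)]
    exact h
  · have h := LinearMap.congr_fun (hS.comm _ _ _ _ (hne h1) (hne h2) (hne h3) (hne h4) (hne h5)
      (hne h6) (g.viaEmbedding ι) (hs g hg) (by rw [viaEmbedding_apply, ga])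
      (by rw [viaEmbedding_apply, gb]) (by rw [viaEmbedding_apply, gc])
      (by rw [viaEmbedding_apply, gd])).eq
    refine LinearMap.ext fun v => Subtype.ext ?_
    have h' := h (v : V)
    rw [← hd] at h'
    simp only [Module.End.mul_apply, hco _ (dt_sign h1 h6), hco g hg] at h' ⊢
    exact h'

end Cfsg.Agent.H73.AltDim
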