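import Cfsg.Agent.H73.AltDim.Spin
import Cfsg.Agent.H73.AltDim.OddPlane

/-!
Eight points: a spin map has degree at least eight; four more points double the degree.
-/

set_option autoImplicit false

namespace Cfsg.Agent.H73.AltDim

open Equiv Equiv.Perm Module

variable {L : Type*} [Field L] {V : Type*} [AddCommGroup V] [Module L V]

/-- eigenspace of a sign -/
def sgnEig (U : End L V) (b : Bool) : Submodule L V :=
  if b then LinearMap.ker (U - 1) else LinearMap.ker (U + 1)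

theorem mem_sgnEig {U : End L V} {b : Bool} {v : V} :
    v ∈ sgnEig U b ↔ U v = if b then v else -v := by
  cases b
  · simp [sgnEig, add_eq_zero_iff_eq_neg]
  · simp [sgnEig, sub_eq_zero]

theorem exists_scale [IsAlgClosed L] {T : End L V} (h : Pm (T ^ 2) 1) :
    ∃ c : L, c ≠ 0 ∧ (c • T) ^ 2 = 1 := by
  rcases h with h | h
  · exact ⟨1, one_ne_zero, by rwa [one_smul]⟩
  · obtain ⟨c, hc⟩ := IsAlgClosed.exists_pow_nat_eq (-1 : L) (n := 2) two_pos
    refine ⟨c, fun h0 => ?_, by rw [smul_pow, hc, h, neg_smul, one_smul, neg_neg]⟩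
    rw [h0, zero_pow two_ne_zero] at hc
    exact one_ne_zero (neg_eq_zero.1 hc.symm)

theorem sgn_split [FiniteDimensional L V] {U : End L V} (h2 : (2 : L) ≠ 0) (hU : U ^ 2 = 1)
    {W : Submodule L V} (hW : ∀ v ∈ W, U v ∈ W) :
    finrank L W = finrank L ↥(W ⊓ sgnEig U true) + finrank L ↥(W ⊓ sgnEig U false) := by
  rw [split_finrank h2 hU hW, add_comm]
  rfl

theorem sgn_prod [FiniteDimensional L V] {U P : End L V} (h2 : (2 : L) ≠ 0) (hU : U ^ 2 = 1)
    (hc : Commute U P) {W : Submodule L V} (hWU : ∀ v ∈ W, U v ∈ W) (b : Bool) :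
    finrank L ↥(W ⊓ sgnEig (U * P) b) =
      finrank L ↥(W ⊓ sgnEig U true ⊓ sgnEig P b) + finrank L ↥(W ⊓ sgnEig U false ⊓ sgnEig P (!b)) := by
  rw [sgn_split h2 hU (W := W ⊓ sgnEig (U * P) b)]
  · have key : ∀ e : Bool, W ⊓ sgnEig (U * P) b ⊓ sgnEig U e =
        W ⊓ sgnEig U e ⊓ sgnEig P (if e then b else !b) := by
      intro e
      ext v
      simp only [Submodule.mem_inf, mem_sgnEig]
      rw [hc.eq, Module.End.mul_apply]
      constructor
      · rintro ⟨⟨h, h1⟩, h3⟩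
        refine ⟨⟨h, h3⟩, ?_⟩
        rw [h3] at h1
        cases e <;> cases b <;> simp [neg_eq_iff_eq_neg] at h1 ⊢ <;> exact h1
      · rintro ⟨⟨h, h3⟩, h1⟩
        refine ⟨⟨h, ?_⟩, h3⟩
        rw [h3]
        cases e <;> cases b <;> simp [h1] at h1 ⊢ <;> simp [h1]
    rw [key, key]
    simp
  · intro v hv
    refine ⟨hWU v hv.1, ?_⟩
    have h := mem_sgnEig.1 hv.2
    refine mem_sgnEig.2 ?_
    rw [← Module.End.mul_apply (U * P) U, (Commute.mul_left (Commute.refl U) hc.symm).eq,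
      Module.End.mul_apply, h]
    cases b <;> simp

theorem sgn_sub [FiniteDimensional L V] {U P : End L V} (h2 : (2 : L) ≠ 0) (hU : U ^ 2 = 1)
    (hc : Commute U P) {W : Submodule L V} (hWU : ∀ v ∈ W, U v ∈ W) (b : Bool) :
    finrank L ↥(W ⊓ sgnEig P b) =
      finrank L ↥(W ⊓ sgnEig U true ⊓ sgnEig P b) + finrank L ↥(W ⊓ sgnEig U false ⊓ sgnEig P b) := by
  rw [sgn_split h2 hU (W := W ⊓ sgnEig P b), inf_right_comm W, inf_right_comm W (sgnEig P b)]
  intro v hv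
  refine ⟨hWU v hv.1, mem_sgnEig.2 ?_⟩
  have h := mem_sgnEig.1 hv.2
  rw [← Module.End.mul_apply, ← hc.eq, Module.End.mul_apply, h]
  cases b <;> simp

theorem eight_of_balanced [FiniteDimensional L V] (h2 : (2 : L) ≠ 0) {U₁ U₂ U₃ : End L V}
    (q1 : U₁ ^ 2 = 1) (q2 : U₂ ^ 2 = 1) (q3 : U₃ ^ 2 = 1) (c12 : Commute U₁ U₂)
    (c13 : Commute U₁ U₃) (c23 : Commute U₂ U₃)
    (bal : ∀ P ∈ [U₁, U₂, U₃, U₁ * U₂, U₁ * U₃, U₂ * U₃, U₁ * (U₂ * U₃)],
      finrank L (sgnEig P true) = finrank L (sgnEig P false)) (hn : 0 < finrank L V) :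
    8 ≤ finrank L V := by
  have inv : ∀ {U P : End L V}, Commute U P → ∀ (b : Bool), ∀ v ∈ sgnEig U b, P v ∈ sgnEig U b := by
    intro U P hUP b v hv
    rw [mem_sgnEig] at hv ⊢
    rw [← Module.End.mul_apply, hUP.eq, Module.End.mul_apply, hv]
    cases b <;> simp
  have invs : ∀ (b : Bool), (∀ v ∈ sgnEig U₁ b, U₂ v ∈ sgnEig U₁ b) ∧
      ∀ v ∈ sgnEig U₁ b, U₃ v ∈ sgnEig U₁ b := fun b => ⟨inv c12 b, inv c13 b⟩
  have inv3 : ∀ b b' : Bool, ∀ v ∈ sgnEig U₁ b ⊓ sgnEig U₂ b', U₃ v ∈ sgnEig U₁ b ⊓ sgnEig U₂ b' :=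
    fun b b' v hv => ⟨inv c13 b v hv.1, inv c23 b' v hv.2⟩
  -- first level
  have top1 : ∀ P : End L V, Commute U₁ P → ∀ b,
      finrank L (sgnEig P b) = finrank L ↥(sgnEig U₁ true ⊓ sgnEig P b) +
        finrank L ↥(sgnEig U₁ false ⊓ sgnEig P b) := fun P hP b => by
    have h := sgn_sub h2 q1 hP (W := ⊤) (fun _ _ => trivial) b
    rwa [top_inf_eq, top_inf_eq, top_inf_eq] at h
  have top2 : ∀ P : End L V, Commute U₁ P → ∀ b,
      finrank L (sgnEig (U₁ * P) b) = finrank L ↥(sgnEig U₁ true ⊓ sgnEig P b) +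
        finrank L ↥(sgnEig U₁ false ⊓ sgnEig P (!b)) := fun P hP b => by
    have h := sgn_prod h2 q1 hP (W := ⊤) (fun _ _ => trivial) b
    rwa [top_inf_eq, top_inf_eq, top_inf_eq] at h
  have top0 := sgn_split h2 q1 (W := (⊤ : Submodule L V)) (fun _ _ => trivial)
  rw [top_inf_eq, top_inf_eq, finrank_top] at top0
  -- second level
  have a2 : ∀ b b', finrank L ↥(sgnEig U₁ b ⊓ sgnEig U₂ b') =
      finrank L ↥(sgnEig U₁ b ⊓ sgnEig U₂ b' ⊓ sgnEig U₃ true) +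
      finrank L ↥(sgnEig U₁ b ⊓ sgnEig U₂ b' ⊓ sgnEig U₃ false) :=
    fun b b' => sgn_split h2 q3 (inv3 b b')
  have a1 : ∀ b, finrank L (sgnEig U₁ b) = finrank L ↥(sgnEig U₁ b ⊓ sgnEig U₂ true) +
      finrank L ↥(sgnEig U₁ b ⊓ sgnEig U₂ false) := fun b => sgn_split h2 q2 (invs b).1
  have a3 : ∀ b b', finrank L ↥(sgnEig U₁ b ⊓ sgnEig U₃ b') =
      finrank L ↥(sgnEig U₁ b ⊓ sgnEig U₂ true ⊓ sgnEig U₃ b') +
      finrank L ↥(sgnEig U₁ b ⊓ sgnEig U₂ false ⊓ sgnEig U₃ b') :=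
    fun b b' => sgn_sub h2 q2 c23 (invs b).1 b'
  have a23 : ∀ b b', finrank L ↥(sgnEig U₁ b ⊓ sgnEig (U₂ * U₃) b') =
      finrank L ↥(sgnEig U₁ b ⊓ sgnEig U₂ true ⊓ sgnEig U₃ b') +
      finrank L ↥(sgnEig U₁ b ⊓ sgnEig U₂ false ⊓ sgnEig U₃ (!b')) :=
    fun b b' => sgn_prod h2 q2 c23 (invs b).1 b'
  have h23 : Commute U₁ (U₂ * U₃) := c12.mul_right c13
  have t2t : ∀ P : End L V, Commute U₁ P → finrank L (sgnEig (U₁ * P) true) =
      finrank L ↥(sgnEig U₁ true ⊓ sgnEig P true) + finrank L ↥(sgnEig U₁ false ⊓ sgnEig P false) :=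
    fun P hP => top2 P hP true
  have t2f : ∀ P : End L V, Commute U₁ P → finrank L (sgnEig (U₁ * P) false) =
      finrank L ↥(sgnEig U₁ true ⊓ sgnEig P false) + finrank L ↥(sgnEig U₁ false ⊓ sgnEig P true) :=
    fun P hP => top2 P hP false
  have a23t : ∀ b, finrank L ↥(sgnEig U₁ b ⊓ sgnEig (U₂ * U₃) true) =
      finrank L ↥(sgnEig U₁ b ⊓ sgnEig U₂ true ⊓ sgnEig U₃ true) +
      finrank L ↥(sgnEig U₁ b ⊓ sgnEig U₂ false ⊓ sgnEig U₃ false) := fun b => a23 b true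
  have a23f : ∀ b, finrank L ↥(sgnEig U₁ b ⊓ sgnEig (U₂ * U₃) false) =
      finrank L ↥(sgnEig U₁ b ⊓ sgnEig U₂ true ⊓ sgnEig U₃ false) +
      finrank L ↥(sgnEig U₁ b ⊓ sgnEig U₂ false ⊓ sgnEig U₃ true) := fun b => a23 b false
  simp only [List.forall_mem_cons, top1 U₂ c12, top1 U₃ c13, top1 _ h23, t2t U₂ c12, t2t U₃ c13,
    t2t _ h23, t2f U₂ c12, t2f U₃ c13, t2f _ h23, a1, a2, a3, a23t, a23f] at bal top0
  obtain ⟨b1, b2, b3, b4, b5, b6, b7, -⟩ := bal
  omega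

variable {r : ℕ} {S : Perm (Fin r) → End L V}

theorem IsSpin.quad_comm (hS : IsSpin S) {a b c d a' b' c' d' : Fin r} (h : [a, b, c, d, a', b', c', d'].Nodup) :
    Commute (S (dt a b c d * dt a' b' c' d')) (S (dt a c b d * dt a' c' b' d')) := by
  simp only [List.nodup_cons, List.mem_cons, List.not_mem_nil, or_false, not_or, List.nodup_nil,
    and_true, not_false_eq_true] at h
  obtain ⟨⟨hab, hac, had, hA, hB, hC, hD⟩, ⟨hbc, hbd, bA, bB, bC, bD⟩, ⟨hcd, cA, cB, cC, cD⟩,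
    ⟨dA, dB, dC, dD⟩, ⟨hab', hac', had'⟩, ⟨hbc', hbd'⟩, hcd'⟩ := h
  have hfix : ∀ {x a b c d : Fin r}, x ≠ a → x ≠ b → x ≠ c → x ≠ d → dt a b c d x = x :=
    fun {x a b c d} h1 h2 h3 h4 => by
      rw [dt, Perm.mul_apply, swap_apply_of_ne_of_ne h3 h4, swap_apply_of_ne_of_ne h1 h2]
  have s1 : sign (dt a b c d) = 1 := dt_sign hab hcd
  have s2 : sign (dt a c b d) = 1 := dt_sign hac hbd
  have s1' : sign (dt a' b' c' d') = 1 := dt_sign hab' hcd'
  have s2' : sign (dt a' c' b' d') = 1 := dt_sign hac' hbd'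
  have k1 := hS.comm a b c d hab hac had hbc hbd hcd _ s2' (hfix hA hC hB hD) (hfix bA bC bB bD)
    (hfix cA cC cB cD) (hfix dA dC dB dD)
  have k2 := hS.comm a c b d hac hab had (Ne.symm hbc) hcd hbd _ s1' (hfix hA hB hC hD)
    (hfix cA cB cC cD) (hfix bA bB bC bD) (hfix dA dB dC dD)
  have e1 := hS.anti a b c d hab hac had hbc hbd hcd
  have e2 := hS.anti a' b' c' d' hab' hac' had' hbc' hbd' hcd'
  set A := S (dt a b c d)
  set A' := S (dt a c b d)
  set B := S (dt a' b' c' d')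
  set B' := S (dt a' c' b' d')
  have key : Commute (A * B) (A' * B') := by
    show A * B * (A' * B') = A' * B' * (A * B)
    calc A * B * (A' * B') = A * (B * A') * B' := by simp only [mul_assoc]
      _ = A * A' * (B * B') := by rw [← k2.eq]; simp only [mul_assoc]
      _ = A' * (A * B') * B := by rw [e1, e2, neg_mul_neg]; simp only [mul_assoc]
      _ = A' * B' * (A * B) := by rw [k1.eq]; simp only [mul_assoc]
  rcases hS.map_mul _ _ s1 s1' with h | h <;> rcases hS.map_mul _ _ s2 s2' with h' | h' <;>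
    rw [h, h'] <;> first | exact key | exact key.neg_left | exact key.neg_right |
      exact key.neg_left.neg_right

theorem IsSpin.flip (hS : IsSpin S) {a b c d a' b' c' d' : Fin r}
    (h : [a, b, c, d, a', b', c', d'].Nodup) :
    S (dt a c b d) * S (dt a b c d * dt a' b' c' d') =
      -(S (dt a b c d * dt a' b' c' d') * S (dt a c b d)) := by
  simp only [List.nodup_cons, List.mem_cons, List.not_mem_nil, or_false, not_or, List.nodup_nil,
    and_true, not_false_eq_true] at h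
  obtain ⟨⟨hab, hac, had, hA, hB, hC, hD⟩, ⟨hbc, hbd, bA, bB, bC, bD⟩, ⟨hcd, cA, cB, cC, cD⟩,
    ⟨dA, dB, dC, dD⟩, ⟨hab', hac', had'⟩, ⟨hbc', hbd'⟩, hcd'⟩ := h
  have hfix : ∀ {x a b c d : Fin r}, x ≠ a → x ≠ b → x ≠ c → x ≠ d → dt a b c d x = x :=
    fun {x a b c d} h1 h2 h3 h4 => by
      rw [dt, Perm.mul_apply, swap_apply_of_ne_of_ne h3 h4, swap_apply_of_ne_of_ne h1 h2]
  have s1' : sign (dt a' b' c' d') = 1 := dt_sign hab' hcd'
  have k2 := hS.comm a c b d hac hab had (Ne.symm hbc) hcd hbd _ s1' (hfix hA hB hC hD)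
    (hfix cA cB cC cD) (hfix bA bB bC bD) (hfix dA dB dC dD)
  have e1 := hS.anti a b c d hab hac had hbc hbd hcd
  set A := S (dt a b c d)
  set A' := S (dt a c b d)
  set B := S (dt a' b' c' d')
  have key : A' * (A * B) = -(A * B * A') := by
    rw [mul_assoc A B A', ← k2.eq, ← mul_assoc, ← mul_assoc A A' B, e1, neg_mul, neg_neg]
  rcases hS.map_mul _ _ (dt_sign hab hcd) s1' with h | h <;> rw [h]
  · exact key
  · rw [mul_neg, neg_mul, key]

theorem balanced_of_flip [FiniteDimensional L V] {G P : End L V} (hG : Function.Injective G)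
    (h : G * P = -(P * G)) : finrank L (sgnEig P true) = finrank L (sgnEig P false) := by
  have key : ∀ b, finrank L (sgnEig P b) ≤ finrank L (sgnEig P (!b)) := fun b => by
    refine le_of_eq_of_le (Submodule.equivMapOfInjective _ hG _).finrank_eq (Submodule.finrank_mono ?_)
    rintro _ ⟨v, hv, rfl⟩
    have hv' := mem_sgnEig.1 hv
    refine mem_sgnEig.2 ?_
    have h' := LinearMap.congr_fun h v
    rw [Module.End.mul_apply, LinearMap.neg_apply, Module.End.mul_apply, hv'] at h'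
    cases b
    · simp only [Bool.false_eq_true, if_false, map_neg, neg_inj] at h'
      simp [← h']
    · simp only [if_true] at h'
      simp [← neg_eq_iff_eq_neg.2 h']
  exact le_antisymm (key true) (key false)

/-- on eight points the degree is at least eight -/
theorem spin_eight_base [IsAlgClosed L] [FiniteDimensional L V] {S : Perm (Fin 8) → End L V}
    (hS : IsSpin S) (h2 : (2 : L) ≠ 0) (hn : 0 < finrank L V) : 8 ≤ finrank L V := by
  let e₁ : Perm (Fin 8) := dt 0 1 2 3 * dt 4 5 6 7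
  let e₂ : Perm (Fin 8) := dt 0 2 1 3 * dt 4 6 5 7
  let e₃ : Perm (Fin 8) := dt 0 4 1 5 * dt 2 6 3 7
  obtain ⟨f1, f2, f3, f12, f13, f23, f123⟩ :
      e₁ = dt 0 1 4 5 * dt 2 3 6 7 ∧ e₂ = dt 0 2 4 6 * dt 1 3 5 7 ∧
      e₃ = dt 0 4 2 6 * dt 1 5 3 7 ∧ e₁ * e₂ = dt 0 3 4 7 * dt 1 2 5 6 ∧
      e₁ * e₃ = dt 0 5 2 7 * dt 1 4 3 6 ∧ e₂ * e₃ = dt 0 6 1 7 * dt 2 4 3 5 ∧
      e₁ * (e₂ * e₃) = dt 0 7 1 6 * dt 2 5 3 4 := by decide
  have hs : sign e₁ = 1 ∧ sign e₂ = 1 ∧ sign e₃ = 1 ∧ e₁ ^ 2 = 1 ∧ e₂ ^ 2 = 1 ∧ e₃ ^ 2 = 1 := by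
    decide
  have hcc : Commute (S e₁) (S e₂) ∧ Commute (S e₁) (S e₃) ∧ Commute (S e₂) (S e₃) := by
    refine ⟨hS.quad_comm (by decide), ?_, ?_⟩
    · rw [f1]; exact hS.quad_comm (by decide)
    · rw [f2, f3]; exact hS.quad_comm (by decide)
  obtain ⟨c₁, hc1, q1⟩ := exists_scale (hS.pow_pm_one hs.1 hs.2.2.2.1)
  obtain ⟨c₂, hc2, q2⟩ := exists_scale (hS.pow_pm_one hs.2.1 hs.2.2.2.2.1)
  obtain ⟨c₃, hc3, q3⟩ := exists_scale (hS.pow_pm_one hs.2.2.1 hs.2.2.2.2.2)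
  have hbal : ∀ {P : End L V} {a b c d a' b' c' d' : Fin 8}, [a, b, c, d, a', b', c', d'].Nodup →
      (∃ k : L, P = k • S (dt a b c d * dt a' b' c' d')) →
      finrank L (sgnEig P true) = finrank L (sgnEig P false) := by
    intro P a b c d a' b' c' d' hnd ⟨k, hk⟩
    refine balanced_of_flip (G := S (dt a c b d)) (hS.injective ?_) ?_
    · simp only [List.nodup_cons, List.mem_cons, List.not_mem_nil, or_false, not_or] at hnd
      exact dt_sign hnd.1.2.1 hnd.2.1.2.1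
    · rw [hk, mul_smul_comm, hS.flip hnd, smul_mul_assoc, smul_neg]
  have hmul : ∀ {a b : Perm (Fin 8)}, sign a = 1 → sign b = 1 → ∀ (k l : L),
      ∃ m : L, (k • S a) * (l • S b) = m • S (a * b) := by
    intro a b ha hb k l
    rcases (hS.map_mul a b ha hb).symm with h | h
    · exact ⟨k * l, by rw [smul_mul_assoc, mul_smul_comm, smul_smul, h]⟩
    · exact ⟨-(k * l), by rw [smul_mul_assoc, mul_smul_comm, smul_smul, h, smul_neg, neg_smul]⟩
  refine eight_of_balanced h2 q1 q2 q3 ((hcc.1.smul_left _).smul_right _)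
    ((hcc.2.1.smul_left _).smul_right _) ((hcc.2.2.smul_left _).smul_right _) ?_ hn
  simp only [List.forall_mem_cons]
  refine ⟨hbal (a := 0) (b := 1) (c := 2) (d := 3) (a' := 4) (b' := 5) (c' := 6) (d' := 7) (by decide)
      ⟨c₁, rfl⟩, ?_, ?_, ?_, ?_, ?_, ?_, fun x hx => absurd hx (List.not_mem_nil)⟩
  · exact hbal (a := 0) (b := 2) (c := 1) (d := 3) (a' := 4) (b' := 6) (c' := 5) (d' := 7) (by decide)
      ⟨c₂, rfl⟩
  · exact hbal (a := 0) (b := 4) (c := 1) (d := 5) (a' := 2) (b' := 6) (c' := 3) (d' := 7) (by decide)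
      ⟨c₃, rfl⟩
  · refine hbal (a := 0) (b := 3) (c := 4) (d := 7) (a' := 1) (b' := 2) (c' := 5) (d' := 6) (by decide) ?_
    rw [← f12]; exact hmul hs.1 hs.2.1 _ _
  · refine hbal (a := 0) (b := 5) (c := 2) (d := 7) (a' := 1) (b' := 4) (c' := 3) (d' := 6) (by decide) ?_
    rw [← f13]; exact hmul hs.1 hs.2.2.1 _ _
  · refine hbal (a := 0) (b := 6) (c := 1) (d := 7) (a' := 2) (b' := 4) (c' := 3) (d' := 5) (by decide) ?_
    rw [← f23]; exact hmul hs.2.1 hs.2.2.1 _ _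
  · refine hbal (a := 0) (b := 7) (c := 1) (d := 6) (a' := 2) (b' := 5) (c' := 3) (d' := 4) (by decide) ?_
    rw [← f123]
    obtain ⟨m, hm⟩ := hmul hs.2.1 hs.2.2.1 c₂ c₃
    rw [hm]
    exact hmul hs.1 (sign_mul_one hs.2.1 hs.2.2.1) _ _

/-- any eight points inside give degree at least eight on an invariant subspace -/
theorem spin_eight_sub [IsAlgClosed L] [FiniteDimensional L V] (hS : IsSpin S) (h2 : (2 : L) ≠ 0)
    (ι : Fin 8 ↪ Fin r) {W : Submodule L V} (hW : W ≠ ⊥)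
    (hinv : ∀ g : Perm (Fin 8), sign g = 1 → ∀ v ∈ W, S (g.viaEmbedding ι) v ∈ W) :
    8 ≤ finrank L W :=
  spin_eight_base (hS.res ι hinv) h2 (Nat.pos_of_ne_zero fun h => hW (Submodule.finrank_eq_zero.1 h))

/-- four further points double the degree -/
theorem spin_double [IsAlgClosed L] [FiniteDimensional L V] {r : ℕ}
    {S : Perm (Fin (r + 4)) → End L V} (hS : IsSpin S) (h2 : (2 : L) ≠ 0) (hn : 0 < finrank L V) :
    ∃ (W : Submodule L V) (S' : Perm (Fin r) → End L W), IsSpin S' ∧ 0 < finrank L W ∧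
      2 * finrank L W ≤ finrank L V := by
  let q : Fin 4 → Fin (r + 4) := Fin.natAdd r
  have hq : ∀ i j : Fin 4, i ≠ j → q i ≠ q j := fun i j h e => h (Fin.ext (by
    have := congrArg Fin.val e; simpa [q] using this))
  let ι : Fin r ↪ Fin (r + 4) := ⟨Fin.castAdd 4, Fin.castAdd_injective r 4⟩
  have hfix : ∀ (g : Perm (Fin r)) (i : Fin 4), g.viaEmbedding ι (q i) = q i := fun g i => by
    refine viaEmbedding_apply_of_notMem _ _ _ ?_
    rintro ⟨x, hx⟩
    have := congrArg Fin.val hx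
    simp [ι, q] at this
    omega
  have h01 := hq 0 1 (by decide); have h02 := hq 0 2 (by decide); have h03 := hq 0 3 (by decide)
  have h12 := hq 1 2 (by decide); have h13 := hq 1 3 (by decide); have h23 := hq 2 3 (by decide)
  have hsq : dt (q 0) (q 1) (q 2) (q 3) ^ 2 = 1 := dt_sq h02 h03 h12 h13
  obtain ⟨k, hk, hk2⟩ := exists_scale (hS.pow_pm_one (dt_sign h01 h23) hsq)
  set U := k • S (dt (q 0) (q 1) (q 2) (q 3))
  have hbal := balanced_of_flip (G := S (dt (q 0) (q 2) (q 1) (q 3))) (P := U)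
    (hS.injective (dt_sign h02 h13)) (by
      have h := hS.anti _ _ _ _ h02 h01 h03 (Ne.symm h12) h23 h13
      rw [mul_smul_comm, h, smul_mul_assoc, smul_neg])
  have hinv : ∀ g : Perm (Fin r), sign g = 1 → ∀ v ∈ sgnEig U true,
      S (g.viaEmbedding ι) v ∈ sgnEig U true := by
    intro g hg v hv
    have hc := (hS.comm _ _ _ _ h01 h02 h03 h12 h13 h23 (g.viaEmbedding ι)
      (by rw [sign_viaEmbedding, hg]) (hfix g 0) (hfix g 1) (hfix g 2) (hfix g 3)).smul_left k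
    rw [mem_sgnEig] at hv ⊢
    rw [← Module.End.mul_apply, hc.eq, Module.End.mul_apply, hv]
    rfl
  have htop := sgn_split h2 hk2 (W := (⊤ : Submodule L V)) (fun _ _ => trivial)
  rw [top_inf_eq, top_inf_eq, finrank_top] at htop
  exact ⟨sgnEig U true, resSpin ι S _, hS.res ι hinv, by omega, by omega⟩

end Cfsg.Agent.H73.AltDim
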