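import Cfsg.Agent.H73.AltDim.SpinEight
import Cfsg.Agent.H73.AltDim.Orbit

/-!
Ten and eleven points: the degree of a spin map is at least sixteen in the relevant characteristics.
-/

set_option autoImplicit false

namespace Cfsg.Agent.H73.AltDim

open Equiv Equiv.Perm Module Cfsg.Agent.Weights
open Cfsg.Agent.Alt (cyc3 cyc3_conj)

variable {L : Type*} [Field L] {V : Type*} [AddCommGroup V] [Module L V]

/-- `f` is a scalar on `W` -/
def Scal (W : Submodule L V) (f : End L V) : Prop := ∃ k : L, ∀ v ∈ W, f v = k • v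

theorem Scal.of_pm {W : Submodule L V} {f g : End L V} (h : Pm f g) (hg : Scal W g) : Scal W f := by
  obtain ⟨k, hk⟩ := hg
  rcases h with rfl | rfl
  · exact ⟨k, hk⟩
  · exact ⟨-k, fun v hv => by rw [LinearMap.neg_apply, hk v hv, neg_smul]⟩

theorem Scal.mul {W : Submodule L V} {f g : End L V} (hf : Scal W f) (hg : Scal W g) :
    Scal W (f * g) := by
  obtain ⟨k, hk⟩ := hf
  obtain ⟨l, hl⟩ := hg
  exact ⟨l * k, fun v hv => by rw [Module.End.mul_apply, hl v hv, map_smul, hk v hv, smul_smul]⟩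

variable {r : ℕ} {S : Perm (Fin r) → End L V}

theorem IsSpin.scal_pow (hS : IsSpin S) {W : Submodule L V} {a : Perm (Fin r)} (ha : sign a = 1)
    (h : Scal W (S a)) : ∀ n, Scal W (S (a ^ n))
  | 0 => ⟨1, fun v _ => by rw [pow_zero, hS.map_one, one_smul, Module.End.one_apply]⟩
  | n + 1 => by
    rw [pow_succ]
    exact Scal.of_pm (hS.map_mul _ _ (by rw [_root_.map_pow, ha, one_pow]) ha)
      ((hS.scal_pow ha h n).mul h)

theorem IsSpin.scal_conj (hS : IsSpin S) {W : Submodule L V} {g a : Perm (Fin r)} (hg : sign g = 1)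
    (ha : sign a = 1) (hW : ∀ v ∈ W, S g⁻¹ v ∈ W) (h : Scal W (S a)) :
    Scal W (S (g * a * g⁻¹)) := by
  classical
  obtain ⟨k, hk⟩ := h
  refine Scal.of_pm ((hS.map_mul (g * a) g⁻¹ (sign_mul_one hg ha) (sign_inv_one hg)).trans
    ((hS.map_mul g a hg ha).mul Pm.rfl')) ⟨?_, ?_⟩
  · exact if S g * S g⁻¹ = 1 then k else -k
  intro v hv
  have h1 := hS.map_mul g g⁻¹ hg (sign_inv_one hg)
  rw [mul_inv_cancel, hS.map_one] at h1
  rw [Module.End.mul_apply, Module.End.mul_apply, hk _ (hW v hv), map_smul, ← Module.End.mul_apply]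
  by_cases he : S g * S g⁻¹ = 1
  · rw [if_pos he, he, Module.End.one_apply]
  · rcases h1 with h1 | h1
    · exact absurd h1.symm he
    · have h1' : S g * S g⁻¹ = -1 := by rw [h1, neg_neg]
      rw [if_neg he, h1', LinearMap.neg_apply, Module.End.one_apply, smul_neg, neg_smul]

theorem IsSpin.not_scal (hS : IsSpin S) (h2 : (2 : L) ≠ 0) {W : Submodule L V} (hW : W ≠ ⊥)
    {a b c d : Fin r} (hab : a ≠ b) (hac : a ≠ c) (had : a ≠ d) (hbc : b ≠ c) (hbd : b ≠ d)
    (hcd : c ≠ d) (h : Scal W (S (dt a b c d))) (h' : Scal W (S (dt a c b d))) : False := by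
  obtain ⟨v, hv, hv0⟩ := (Submodule.ne_bot_iff _).1 hW
  obtain ⟨k, hk⟩ := h
  obtain ⟨l, hl⟩ := h'
  have e := LinearMap.congr_fun (hS.anti a b c d hab hac had hbc hbd hcd) v
  rw [LinearMap.neg_apply, Module.End.mul_apply, Module.End.mul_apply, hl v hv, map_smul, hk v hv,
    map_smul, hl v hv, smul_smul, smul_smul, mul_comm l k] at e
  have h0 : (2 * (k * l)) • v = 0 := by rw [two_mul, add_smul]; nth_rw 1 [e]; exact neg_add_cancel _
  have hkl : k * l = 0 := (mul_eq_zero.1 ((smul_eq_zero.1 h0).resolve_right hv0)).resolve_left h2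
  rcases mul_eq_zero.1 hkl with h | h
  · exact hv0 (hS.injective (dt_sign hab hcd) (by rw [hk v hv, h, zero_smul, map_zero]))
  · exact hv0 (hS.injective (dt_sign hac hbd) (by rw [hl v hv, h, zero_smul, map_zero]))

variable [IsAlgClosed L] [FiniteDimensional L V]

theorem spin_eleven_base {S : Perm (Fin 11) → End L V} (hS : IsSpin S) (h2 : (2 : L) ≠ 0)
    (h3 : (3 : L) ≠ 0) (hn : 0 < finrank L V) : 16 ≤ finrank L V := by
  let x : Perm (Fin 11) := cyc3 8 9 10
  let g : Perm (Fin 11) := swap 8 9 * swap 0 1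
  have hx : sign x = 1 ∧ x ^ 3 = 1 ∧ sign g = 1 ∧ g * x * g⁻¹ = x ^ 2 := by decide
  obtain ⟨C, hC, hC3⟩ := hS.exists_norm hx.1 (m := 3) (by decide) hx.2.1
  have hC2 : Pm (C ^ 2) (S (x ^ 2)) := (hC.pow 2).trans (hS.map_pow hx.1 2).symm
  have hg := hS.norm_conj h2 hx.2.2.1 hx.1 hx.2.2.2 (m := 3) (by decide) hC hC2 hC3
    (by rw [← pow_mul, mul_comm, pow_mul, hC3, one_pow])
  let E : L → Submodule L V := fun l => LinearMap.ker (C - l • (1 : End L V))
  have memE : ∀ l v, v ∈ E l ↔ C v = l • v := fun l v => by simp [E, sub_eq_zero]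
  let ι : Fin 8 ↪ Fin 11 := Fin.castLEEmb (by norm_num)
  have hinv : ∀ (l : L) (a : Perm (Fin 8)), sign a = 1 → ∀ v ∈ E l,
      S (a.viaEmbedding ι) v ∈ E l := by
    intro l a ha v hv
    have hfix : ∀ y : Fin 11, 8 ≤ y.val → a.viaEmbedding ι y = y := fun y hy => by
      refine viaEmbedding_apply_of_notMem _ _ _ ?_
      rintro ⟨w, rfl⟩
      have : (ι w).val = w.val := rfl
      omega
    have he : a.viaEmbedding ι * x * (a.viaEmbedding ι)⁻¹ = x := by
      rw [cyc3_conj, hfix 8 le_rfl, hfix 9 (by decide), hfix 10 (by decide)]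
    have hc := hS.norm_conj h2 (by rw [sign_viaEmbedding, ha]) hx.1 he (m := 3) (by decide) hC hC hC3 hC3
    rw [memE] at hv ⊢
    rw [← Module.End.mul_apply, ← hc, Module.End.mul_apply, hv, map_smul]
  have hflip : ∀ l : L, l ^ 3 = 1 → ∀ v ∈ E l, S g v ∈ E (l ^ 2) := by
    intro l hl v hv
    rw [memE] at hv ⊢
    have h := LinearMap.congr_fun hg v
    rw [Module.End.mul_apply, Module.End.mul_apply, hv, map_smul] at h
    have h4 := pow_weight h.symm 2
    rwa [← pow_mul, show 2 * 2 = 3 + 1 from rfl, pow_succ, hC3, one_mul] at h4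
  obtain ⟨l, hl, hl1, hne⟩ : ∃ l : L, l ^ 3 = 1 ∧ l ≠ 1 ∧ E l ≠ ⊥ := by
    obtain ⟨v, hv⟩ : ∃ v, C v ≠ v := by
      by_contra! hall
      have hsx : Scal (⊤ : Submodule L V) (S x) :=
        Scal.of_pm hC.symm ⟨1, fun v _ => by rw [hall, one_smul]⟩
      have hcyc : ∀ a b c : Fin 11, a ≠ b → a ≠ c → b ≠ c →
          Scal (⊤ : Submodule L V) (S (cyc3 a b c)) := by
        intro a b c hab hac hbc
        obtain ⟨σ, hσ, hσi⟩ := exists_even_map ![(8 : Fin 11), 9, 10] ![a, b, c] (by decide)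
          (by intro i j h; fin_cases i <;> fin_cases j <;> simp [hab, hac, hbc, hab.symm, hac.symm,
            hbc.symm] at h ⊢)
          (by norm_num)
        have h0 := hσi 0; have h1 := hσi 1; have h2' := hσi 2
        simp only [Fin.isValue, Matrix.cons_val_zero, Matrix.cons_val_one, Matrix.cons_val] at h0 h1 h2'
        have := hS.scal_conj (W := ⊤) hσ hx.1 (fun v _ => trivial) hsx
        rwa [cyc3_conj, h0, h1, h2'] at this
      have hdec : dt (0 : Fin 11) 1 2 3 = cyc3 0 1 2 * cyc3 1 2 3 ∧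
          dt (0 : Fin 11) 2 1 3 = cyc3 0 2 1 * cyc3 2 1 3 := by decide
      refine hS.not_scal h2 (W := ⊤) (fun h => ?_) (a := 0) (b := 1) (c := 2) (d := 3) (by decide)
        (by decide) (by decide) (by decide) (by decide) (by decide) ?_ ?_
      · rw [← finrank_top L V, h, finrank_bot] at hn
        omega
      · rw [hdec.1]
        exact Scal.of_pm (hS.map_mul _ _ (by decide) (by decide))
          ((hcyc 0 1 2 (by decide) (by decide) (by decide)).mul (hcyc 1 2 3 (by decide) (by decide) (by decide)))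
      · rw [hdec.2]
        exact Scal.of_pm (hS.map_mul _ _ (by decide) (by decide))
          ((hcyc 0 2 1 (by decide) (by decide) (by decide)).mul (hcyc 2 1 3 (by decide) (by decide) (by decide)))
    obtain ⟨χ, w, -, ⟨hw0, hwv⟩, hχ⟩ := exists_weight_ne_one_on (fun _ : Unit => C)
      (W := ⊤) (fun _ _ => rfl) (fun _ _ _ => trivial) () 3 (by exact_mod_cast h3) hC3 (v := v) trivial hv
    have hz : C w = χ () • w := hwv ()
    exact ⟨χ (), weight_pow_eq_one hC3 hw0 hz, hχ,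
      (Submodule.ne_bot_iff _).2 ⟨w, (memE _ _).2 hz, hw0⟩⟩
  have hne2 : E (l ^ 2) ≠ ⊥ := by
    obtain ⟨v, hv, hv0⟩ := (Submodule.ne_bot_iff _).1 hne
    exact (Submodule.ne_bot_iff _).2 ⟨_, hflip l hl v hv,
      fun h => hv0 (hS.injective hx.2.2.1 (by rw [h, map_zero]))⟩
  have hd : l ≠ l ^ 2 := fun h => hl1 (by
    have : l ^ 3 = l * l ^ 2 := by ring
    rw [hl, ← h, ← sq, ← h] at this
    exact this.symm)
  have hsum := sum_finrank_le (fun _ : Unit => C) (fun (j : Fin 2) _ => ![l, l ^ 2] j)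
    (fun i j h => by
      have h' := congrFun h ()
      fin_cases i <;> fin_cases j <;> simp [hd, hd.symm] at h' ⊢)
    (fun j => E (![l, l ^ 2] j)) (fun j v hv _ => (memE _ _).1 hv)
  rw [Fin.sum_univ_two] at hsum
  have b1 : 8 ≤ finrank L ↥(E l) := spin_eight_sub hS h2 ι hne (hinv l)
  have b2 : 8 ≤ finrank L ↥(E (l ^ 2)) := spin_eight_sub hS h2 ι hne2 (hinv (l ^ 2))
  simp only [Matrix.cons_val_zero, Matrix.cons_val_one] at hsum
  exact le_trans (add_le_add b1 b2) hsum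

set_option maxRecDepth 20000 in
theorem spin_ten_base {S : Perm (Fin 10) → End L V} (hS : IsSpin S) (h2 : (2 : L) ≠ 0)
    (h5 : (5 : L) ≠ 0) (hn : 0 < finrank L V) : 16 ≤ finrank L V := by
  classical
  let c₁ : Perm (Fin 10) := dt 0 1 1 2 * dt 2 3 3 4
  let c₂ : Perm (Fin 10) := dt 5 6 6 7 * dt 7 8 8 9
  let t : Perm (Fin 10) := swap 1 4 * swap 2 3
  let g : Perm (Fin 10) :=
    swap 1 2 * swap 2 4 * swap 4 3 * (swap 0 5 * swap 1 6 * swap 2 7 * swap 3 8 * swap 4 9)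
  obtain ⟨s1, s2, st, sg, o1, o2, k12, et1, et2, eg1, eg2⟩ :
      sign c₁ = 1 ∧ sign c₂ = 1 ∧ sign t = 1 ∧ sign g = 1 ∧ c₁ ^ 5 = 1 ∧ c₂ ^ 5 = 1 ∧
      c₁ * c₂ * c₁⁻¹ = c₂ ∧ t * c₁ * t⁻¹ = c₁ ^ 4 ∧ t * c₂ * t⁻¹ = c₂ ∧ g * c₁ * g⁻¹ = c₂ ∧
      g * c₂ * g⁻¹ = c₁ ^ 2 := by decide
  obtain ⟨C₁, hC1, q1⟩ := hS.exists_norm s1 (m := 5) (by decide) o1
  obtain ⟨C₂, hC2, q2⟩ := hS.exists_norm s2 (m := 5) (by decide) o2
  have hpw : ∀ {C : End L V} (n : ℕ), C ^ 5 = 1 → (C ^ n) ^ 5 = 1 := fun n h => by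
    rw [← pow_mul, mul_comm, pow_mul, h, one_pow]
  have odd5 : Odd 5 := by decide
  have nc : ∀ {a c c' : Perm (Fin 10)} {C C' : End L V}, sign a = 1 → sign c = 1 →
      a * c * a⁻¹ = c' → Pm C (S c) → Pm C' (S c') → C ^ 5 = 1 → C' ^ 5 = 1 →
      ∀ (v : V) (l : L), C v = l • v → C' (S a v) = l • S a v := by
    intro a c c' C C' ha hc he hC hC' hq hq' v l hv
    have h := LinearMap.congr_fun (hS.norm_conj h2 ha hc he odd5 hC hC' hq hq') v
    rw [Module.End.mul_apply, Module.End.mul_apply, hv, map_smul] at h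
    exact h.symm
  have hcomm : C₁ * C₂ = C₂ * C₁ := by
    have h := eq_of_pm_odd h2 odd5 (T := C₁) q2 q2 ?_
    · exact h
    have h1 := (hS.conj s1 s2).symm
    rw [k12] at h1
    exact ((hC1.mul hC2).trans h1).trans (hC2.symm.mul hC1.symm)
  let F : Bool → End L V := fun b => if b then C₁ else C₂
  have hF : ∀ a b, F a * F b = F b * F a := by
    rintro (_ | _) (_ | _)
    · rfl
    · exact hcomm.symm
    · exact hcomm
    · rfl
  -- moves of weights
  have hback : ∀ {C : End L V}, C ^ 5 = 1 → ∀ (k j : ℕ), k * j % 5 = 1 → ∀ (w : V) (l : L),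
      (C ^ k) w = l • w → C w = l ^ j • w := by
    intro C hC k j hkj w l h
    have h' := pow_weight h j
    rwa [← pow_mul, ← Nat.div_add_mod (k * j) 5, hkj, pow_succ, pow_mul, hC, one_pow, one_mul] at h'
  have moveT : ∀ (v : V) (a b : L), v ≠ 0 → C₁ v = a • v → C₂ v = b • v →
      S t v ≠ 0 ∧ C₁ (S t v) = a ^ 4 • S t v ∧ C₂ (S t v) = b • S t v := by
    intro v a b hv ha hb
    refine ⟨fun h => hv (hS.injective st (by rw [h, map_zero])), ?_,
      nc st s2 et2 hC2 hC2 q2 q2 v b hb⟩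
    exact hback q1 4 4 rfl _ _
      (nc st s1 et1 hC1 ((hC1.pow 4).trans (hS.map_pow s1 4).symm) q1 (hpw 4 q1) v a ha)
  have moveG : ∀ (v : V) (a b : L), v ≠ 0 → C₁ v = a • v → C₂ v = b • v →
      S g v ≠ 0 ∧ C₁ (S g v) = b ^ 3 • S g v ∧ C₂ (S g v) = a • S g v := by
    intro v a b hv ha hb
    refine ⟨fun h => hv (hS.injective sg (by rw [h, map_zero])), ?_,
      nc sg s1 eg1 hC1 hC2 q1 q2 v a ha⟩
    exact hback q1 2 3 rfl _ _
      (nc sg s2 eg2 hC2 ((hC1.pow 2).trans (hS.map_pow s1 2).symm) q2 (hpw 2 q1) v b hb)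
  -- no five cycle is trivial on a subspace stable under its points
  let ι : Fin 5 ↪ Fin 10 := ⟨Fin.natAdd 5, fun i j h => Fin.ext (by
    have := congrArg Fin.val h; simpa using this)⟩
  have hnotriv : ∀ W : Submodule L V, W ≠ ⊥ →
      (∀ a : Perm (Fin 5), sign a = 1 → ∀ v ∈ W, S (a.viaEmbedding ι) v ∈ W) →
      (∀ v ∈ W, C₂ v = v) → False := by
    intro W hW hinv htriv
    have hsc : Scal W (S c₂) := Scal.of_pm hC2.symm ⟨1, fun v hv => by rw [htriv v hv, one_smul]⟩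
    let k₁ : Perm (Fin 5) := cyc3 1 3 2
    let k₂ : Perm (Fin 5) := cyc3 1 2 3
    obtain ⟨e1, e2, sk1, sk2⟩ :
        dt (5 : Fin 10) 6 7 8 = cyc3 6 8 7 * c₂ * (cyc3 6 8 7)⁻¹ * c₂ ^ 3 ∧
        dt (5 : Fin 10) 7 6 8 = cyc3 6 7 8 * dt 5 6 7 8 * (cyc3 6 7 8)⁻¹ ∧
        sign k₁ = 1 ∧ sign k₂ = 1 := by decide
    have hk : ∀ a b c : Fin 5, (cyc3 a b c).viaEmbedding ι = cyc3 (ι a) (ι b) (ι c) := fun a b c => by
      rw [cyc3, cyc3, viaEmbedding_mul, viaEmbedding_swap, viaEmbedding_swap]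
    have hi : ∀ k : Perm (Fin 5), sign k = 1 → ∀ v ∈ W, S (k.viaEmbedding ι)⁻¹ v ∈ W := by
      intro k hk' v hv
      have he : (k.viaEmbedding ι)⁻¹ = k⁻¹.viaEmbedding ι :=
        (_root_.map_inv (viaEmbeddingHom ι) k).symm
      rw [he]
      exact hinv _ (sign_inv_one hk') v hv
    have u1 := hS.scal_conj (g := k₁.viaEmbedding ι) (by rw [sign_viaEmbedding, sk1]) s2 (hi _ sk1) hsc
    rw [hk, show cyc3 (ι 1) (ι 3) (ι 2) = cyc3 (6 : Fin 10) 8 7 from rfl] at u1
    have hd1 : Scal W (S (dt (5 : Fin 10) 6 7 8)) := by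
      rw [e1]
      exact Scal.of_pm (hS.map_mul _ _ (by rw [sign_conj, s2]) (by rw [_root_.map_pow, s2, one_pow]))
        (u1.mul (hS.scal_pow s2 hsc 3))
    have u2 := hS.scal_conj (g := k₂.viaEmbedding ι) (a := dt (5 : Fin 10) 6 7 8)
      (by rw [sign_viaEmbedding, sk2]) (dt_sign (by decide) (by decide)) (hi _ sk2) hd1
    rw [hk, show cyc3 (ι 1) (ι 2) (ι 3) = cyc3 (6 : Fin 10) 7 8 from rfl, ← e2] at u2
    exact hS.not_scal h2 hW (by decide) (by decide) (by decide) (by decide) (by decide) (by decide) hd1 u2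
  -- a weight that is non-trivial on both cycles
  obtain ⟨v, x, y, hv, hvx, hvy, hx1, hy1⟩ : ∃ (v : V) (x y : L), v ≠ 0 ∧ C₁ v = x • v ∧ C₂ v = y • v ∧
      x ≠ 1 ∧ y ≠ 1 := by
    by_contra hcon
    push Not at hcon
    obtain ⟨u, hu⟩ : ∃ u, C₂ u ≠ u := by
      by_contra! hall
      refine hnotriv ⊤ (fun h => ?_) (fun _ _ _ _ => trivial) (fun v _ => hall v)
      rw [← finrank_top L V, h, finrank_bot] at hn
      omega
    obtain ⟨χ, w, -, ⟨hw0, hwv⟩, hχ⟩ := exists_weight_ne_one_on F hF (W := ⊤)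
      (fun _ _ _ => trivial) false 5 (by exact_mod_cast h5) q2 (v := u) trivial hu
    have ha : C₁ w = χ true • w := hwv true
    have hb : C₂ w = χ false • w := hwv false
    have hxt : χ true = 1 := by
      by_contra h; exact hχ (hcon w _ _ hw0 ha hb h)
    obtain ⟨hw', hb', -⟩ := moveG w _ _ hw0 ha hb
    have hy3 : χ false ^ 3 ≠ 1 := fun h => hχ (by
      have h5' := weight_pow_eq_one q2 hw0 hb
      linear_combination (χ false ^ 3 + 1) * h - χ false * h5')
    let E := LinearMap.ker (C₁ - (χ false ^ 3) • (1 : End L V))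
    have memE : ∀ z, z ∈ E ↔ C₁ z = χ false ^ 3 • z := fun z => by simp [E, sub_eq_zero]
    refine hnotriv E ((Submodule.ne_bot_iff _).2 ⟨_, (memE _).2 hb', hw'⟩) ?_ ?_
    · intro a ha z hz
      have hfix : ∀ i : Fin 10, i.val < 5 → a.viaEmbedding ι i = i := fun i hi => by
        refine viaEmbedding_apply_of_notMem _ _ _ ?_
        rintro ⟨j, rfl⟩
        have : (ι j).val = 5 + j.val := rfl
        omega
      have he : a.viaEmbedding ι * c₁ * (a.viaEmbedding ι)⁻¹ = c₁ := by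
        rw [show a.viaEmbedding ι * c₁ * (a.viaEmbedding ι)⁻¹ =
          (a.viaEmbedding ι * dt 0 1 1 2 * (a.viaEmbedding ι)⁻¹) *
          (a.viaEmbedding ι * dt 2 3 3 4 * (a.viaEmbedding ι)⁻¹) by simp only [c₁]; group,
          dt_conj, dt_conj, hfix 0 (by decide), hfix 1 (by decide), hfix 2 (by decide),
          hfix 3 (by decide), hfix 4 (by decide)]
      exact (memE _).2 (nc (by rw [sign_viaEmbedding, ha]) s1 he hC1 hC1 q1 q1 z _ ((memE _).1 hz))
    · intro z hz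
      by_contra hne
      obtain ⟨χ', w', hw'E, ⟨hw'0, hw'v⟩, hχ'⟩ := exists_weight_ne_one_on F hF (W := E)
        (fun a v hv => by
          rw [memE] at hv ⊢
          rw [← Module.End.mul_apply, show C₁ * F a = F a * C₁ from hF true a, Module.End.mul_apply,
            hv, map_smul])
        false 5 (by exact_mod_cast h5) q2 hz hne
      exact hχ' (hcon w' _ _ hw'0 ((memE _).1 hw'E) (hw'v false) hy3)
  have hx5 := weight_pow_eq_one q1 hv hvx
  have hy5 := weight_pow_eq_one q2 hv hvy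
  haveI : Fact (Nat.Prime 5) := ⟨by norm_num⟩
  have hord : orderOf x = 5 := orderOf_eq_prime hx5 hx1
  obtain ⟨i, hi, hxy⟩ := (hord ▸ IsPrimitiveRoot.orderOf x).eq_pow_of_pow_eq_one hy5
  let t₀ : Fin 5 := ⟨i, hi⟩
  have ht₀ : t₀ ≠ 0 := fun h => hy1 (by
    rw [← hxy, show i = 0 from congrArg Fin.val h, pow_zero])
  let τ : Fin 5 × Fin 5 → Fin 5 × Fin 5 := fun p => (4 * p.1, p.2)
  let σ : Fin 5 × Fin 5 → Fin 5 × Fin 5 := fun p => (3 * p.2, p.1)
  let P : Fin 5 × Fin 5 → Prop := fun p =>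
    ∃ w, w ≠ 0 ∧ C₁ w = x ^ p.1.val • w ∧ C₂ w = x ^ p.2.val • w
  have hmod : ∀ n, x ^ (n % 5) = x ^ n := fun n => by
    conv_rhs => rw [← Nat.mod_add_div n 5, pow_add, pow_mul, hx5, one_pow, mul_one]
  have pτ : ∀ p, P p → P (τ p) := fun p ⟨w, hw, h1, h2'⟩ => by
    obtain ⟨a, b, c⟩ := moveT w _ _ hw h1 h2'
    refine ⟨_, a, ?_, c⟩
    rw [b, show (τ p).1.val = (4 * p.1.val) % 5 from Fin.val_mul _ _, hmod, ← pow_mul, mul_comm]
  have pσ : ∀ p, P p → P (σ p) := fun p ⟨w, hw, h1, h2'⟩ => by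
    obtain ⟨a, b, c⟩ := moveG w _ _ hw h1 h2'
    refine ⟨_, a, ?_, c⟩
    rw [b, show (σ p).1.val = (3 * p.2.val) % 5 from Fin.val_mul _ _, hmod, ← pow_mul, mul_comm]
  have hiter : ∀ (f : Fin 5 × Fin 5 → Fin 5 × Fin 5), (∀ p, P p → P (f p)) →
      ∀ n p, P p → P (f^[n] p) := by
    intro f hf n
    induction n with
    | zero => exact fun p h => h
    | succ n ih => exact fun p h => by rw [Function.iterate_succ_apply']; exact hf _ (ih p h)
  have hreach : ∀ t : Fin 5, t ≠ 0 → ∀ a b : Fin 4, ∃ i : Fin 8, ∃ j : Fin 2,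
      σ^[i.val] (τ^[j.val] (1, t)) = (a.succ, b.succ) := by decide
  have hall : ∀ q : Fin 4 × Fin 4, P (q.1.succ, q.2.succ) := fun q => by
    obtain ⟨i', j', h⟩ := hreach t₀ ht₀ q.1 q.2
    rw [← h]
    refine hiter σ pσ _ _ (hiter τ pτ _ _ ⟨v, hv, ?_, ?_⟩)
    · simpa using hvx
    · simpa [t₀, hxy] using hvy
  choose W hW using hall
  have hinj : Function.Injective (fun (q : Fin 4 × Fin 4) (b : Bool) =>
      if b then x ^ (q.1.succ : Fin 5).val else x ^ (q.2.succ : Fin 5).val) := by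
    intro q q' h
    have hi' : ∀ a b : Fin 5, x ^ a.val = x ^ b.val → a = b := fun a b hab =>
      Fin.ext (pow_injOn_Iio_orderOf (Set.mem_Iio.2 (by rw [hord]; exact a.isLt)) (Set.mem_Iio.2 (by rw [hord]; exact b.isLt)) hab)
    exact Prod.ext (Fin.succ_injective _ (hi' _ _ (by simpa using congrFun h true)))
      (Fin.succ_injective _ (hi' _ _ (by simpa using congrFun h false)))
  have hli := linearIndependent_weightVec F _ hinj W (fun q => ⟨(hW q).1, fun b => by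
    cases b
    · exact (hW q).2.2
    · exact (hW q).2.1⟩)
  simpa using hli.fintype_card_le_finrank

end Cfsg.Agent.H73.AltDim
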