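import Mathlib
import Cfsg.Agent.Alt.ThreeCycle
import Cfsg.Agent.Weights.Basic

/-!
Maps that are multiplicative on the even permutations: transport along conjugation, faithfulness,
and weight spaces of commuting families.
-/

set_option autoImplicit false

namespace Cfsg.Agent.H73.AltDim

open Equiv Equiv.Perm Module Cfsg.Agent.Weights

/-- product of two transpositions -/
def dt {α : Type*} [DecidableEq α] (a b c d : α) : Perm α := swap a b * swap c d

theorem dt_conj {α : Type*} [DecidableEq α] (σ : Perm α) (a b c d : α) :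
    σ * dt a b c d * σ⁻¹ = dt (σ a) (σ b) (σ c) (σ d) := by
  simp only [dt, swap_apply_apply]; group

theorem dt_sign {α : Type*} [DecidableEq α] [Fintype α] {a b c d : α} (h : a ≠ b) (h' : c ≠ d) :
    sign (dt a b c d) = 1 := by
  rw [dt, map_mul, sign_swap h, sign_swap h']; rfl

theorem cyc3_sign {α : Type*} [DecidableEq α] [Fintype α] {a b c : α} (hab : a ≠ b) (hbc : b ≠ c) :
    sign (Alt.cyc3 a b c) = 1 := by
  rw [Alt.cyc3, map_mul, sign_swap hab, sign_swap hbc]; rfl

theorem cyc3_inv {α : Type*} [DecidableEq α] [Fintype α] {a b c : α} (hab : a ≠ b) (hac : a ≠ c)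
    (hbc : b ≠ c) : (Alt.cyc3 a b c)⁻¹ = Alt.cyc3 b a c := by
  rw [Alt.cyc3, Alt.cyc3, mul_inv_rev, swap_inv, swap_inv, swap_comm b a]
  ext y
  simp only [Perm.mul_apply]
  by_cases ha : y = a
  · subst ha; simp [swap_apply_of_ne_of_ne, hab, hab.symm, hac, hac.symm, hbc, hbc.symm]
  by_cases hb : y = b
  · subst hb; simp [swap_apply_of_ne_of_ne, hab, hab.symm, hac, hac.symm, hbc, hbc.symm]
  by_cases hc : y = c
  · subst hc; simp [swap_apply_of_ne_of_ne, hab, hab.symm, hac, hac.symm, hbc, hbc.symm]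
  simp [swap_apply_of_ne_of_ne, ha, hb, hc]

/-- an injective partial map extends to an even permutation when two points are to spare -/
theorem exists_even_map {r k : ℕ} (f g : Fin k → Fin r) (hf : Function.Injective f)
    (hg : Function.Injective g) (hk : k + 2 ≤ r) :
    ∃ σ : Perm (Fin r), sign σ = 1 ∧ ∀ i, σ (f i) = g i := by
  classical
  let e := (Equiv.ofInjective f hf).symm.trans (Equiv.ofInjective g hg)
  have h0 : ∀ i, e.extendSubtype (f i) = g i := fun i => by
    rw [Equiv.extendSubtype_apply_of_mem e (f i) ⟨i, rfl⟩]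
    show ((Equiv.ofInjective g hg) ((Equiv.ofInjective f hf).symm ⟨f i, _⟩)).1 = g i
    rw [Equiv.ofInjective_symm_apply]
    rfl
  rcases Int.units_eq_one_or (sign e.extendSubtype) with h | h
  · exact ⟨_, h, h0⟩
  obtain ⟨u, hu, v, hv, huv⟩ : ∃ u, u ∈ (Finset.univ.image g)ᶜ ∧ ∃ v, v ∈ (Finset.univ.image g)ᶜ ∧ u ≠ v := by
    refine Finset.one_lt_card.1 ?_
    rw [Finset.card_compl, Finset.card_image_of_injective _ hg, Finset.card_univ, Fintype.card_fin,
      Fintype.card_fin]
    omega
  simp only [Finset.mem_compl, Finset.mem_image, Finset.mem_univ, true_and, not_exists] at hu hv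
  refine ⟨swap u v * e.extendSubtype, by rw [map_mul, h, sign_swap huv]; rfl, fun i => ?_⟩
  rw [Perm.mul_apply, h0, swap_apply_of_ne_of_ne (hu i) (hv i)]

variable {L : Type*} [Field L] {V : Type*} [AddCommGroup V] [Module L V] {r : ℕ}

/-- `R` is multiplicative on even permutations -/
structure IsRep (R : Perm (Fin r) → End L V) : Prop where
  map_one : R 1 = 1
  map_mul : ∀ a b : Perm (Fin r), sign a = 1 → sign b = 1 → R (a * b) = R a * R b

theorem sign_inv_one {a : Perm (Fin r)} (ha : sign a = 1) : sign a⁻¹ = 1 := by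
  rw [sign_inv, ha]

theorem sign_mul_one {a b : Perm (Fin r)} (ha : sign a = 1) (hb : sign b = 1) : sign (a * b) = 1 := by
  rw [map_mul, ha, hb, mul_one]

theorem sign_conj (g a : Perm (Fin r)) : sign (g * a * g⁻¹) = sign a := by
  rw [map_mul, map_mul, sign_inv, mul_right_comm, Int.units_mul_self, one_mul]

namespace IsRep

variable {R : Perm (Fin r) → End L V} (hR : IsRep R)
include hR

theorem inv_mul {a : Perm (Fin r)} (ha : sign a = 1) : R a⁻¹ * R a = 1 := by
  rw [← hR.map_mul _ _ (sign_inv_one ha) ha, inv_mul_cancel, hR.map_one]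

theorem mul_inv {a : Perm (Fin r)} (ha : sign a = 1) : R a * R a⁻¹ = 1 := by
  rw [← hR.map_mul _ _ ha (sign_inv_one ha), mul_inv_cancel, hR.map_one]

theorem inv_apply {a : Perm (Fin r)} (ha : sign a = 1) (v : V) : R a⁻¹ (R a v) = v := by
  rw [← Module.End.mul_apply, hR.inv_mul ha, Module.End.one_apply]

theorem apply_inv {a : Perm (Fin r)} (ha : sign a = 1) (v : V) : R a (R a⁻¹ v) = v := by
  rw [← Module.End.mul_apply, hR.mul_inv ha, Module.End.one_apply]

theorem injective {a : Perm (Fin r)} (ha : sign a = 1) : Function.Injective (R a) :=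
  Function.LeftInverse.injective (hR.inv_apply ha)

theorem commute {a b : Perm (Fin r)} (ha : sign a = 1) (hb : sign b = 1) (h : a * b = b * a) :
    R a * R b = R b * R a := by
  rw [← hR.map_mul _ _ ha hb, h, hR.map_mul _ _ hb ha]

theorem map_pow {a : Perm (Fin r)} (ha : sign a = 1) (n : ℕ) : R (a ^ n) = R a ^ n := by
  induction n with
  | zero => simp [hR.map_one]
  | succ n ih =>
    rw [pow_succ, pow_succ, hR.map_mul _ _ (by rw [_root_.map_pow, ha, one_pow]) ha, ih]

theorem pow_eq_one {a : Perm (Fin r)} (ha : sign a = 1) {n : ℕ} (h : a ^ n = 1) : R a ^ n = 1 := by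
  rw [← hR.map_pow ha, h, hR.map_one]

theorem conj {g a : Perm (Fin r)} (hg : sign g = 1) (ha : sign a = 1) :
    R (g * a * g⁻¹) * R g = R g * R a := by
  rw [← hR.map_mul _ _ (by rw [sign_conj, ha]) hg, ← hR.map_mul _ _ hg ha]
  group

theorem conj_apply {g a : Perm (Fin r)} (hg : sign g = 1) (ha : sign a = 1) (v : V) :
    R (g * a * g⁻¹) (R g v) = R g (R a v) :=
  LinearMap.congr_fun (hR.conj hg ha) v

omit hR in
theorem mem_range_sub_one {f : End L V} {v : V} :
    v ∈ LinearMap.range (f - 1) ↔ ∃ u, f u - u = v := by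
  simp [LinearMap.mem_range]

theorem map_range {g a : Perm (Fin r)} (hg : sign g = 1) (ha : sign a = 1) :
    (LinearMap.range (R a - 1)).map (R g) = LinearMap.range (R (g * a * g⁻¹) - 1) := by
  ext w
  simp only [Submodule.mem_map, mem_range_sub_one]
  constructor
  · rintro ⟨v, ⟨u, rfl⟩, rfl⟩
    exact ⟨R g u, by rw [hR.conj_apply hg ha, map_sub]⟩
  · rintro ⟨u, rfl⟩
    refine ⟨R a (R g⁻¹ u) - R g⁻¹ u, ⟨_, rfl⟩, ?_⟩
    rw [map_sub, ← hR.conj_apply hg ha, hR.apply_inv hg]

theorem finrank_map {g : Perm (Fin r)} (hg : sign g = 1) (U : Submodule L V) :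
    finrank L (U.map (R g)) = finrank L U :=
  (Submodule.equivMapOfInjective _ (hR.injective hg) U).finrank_eq.symm

theorem finrank_range_conj {g a : Perm (Fin r)} (hg : sign g = 1) (ha : sign a = 1) :
    finrank L (LinearMap.range (R (g * a * g⁻¹) - 1)) = finrank L (LinearMap.range (R a - 1)) := by
  rw [← hR.map_range hg ha, hR.finrank_map hg]

theorem range_inv {a : Perm (Fin r)} (ha : sign a = 1) :
    LinearMap.range (R a⁻¹ - 1) = LinearMap.range (R a - 1) := by
  ext w
  simp only [mem_range_sub_one]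
  constructor
  · rintro ⟨u, rfl⟩
    exact ⟨-(R a⁻¹ u), by rw [map_neg, hR.apply_inv ha]; abel⟩
  · rintro ⟨u, rfl⟩
    exact ⟨-(R a u), by rw [map_neg, hR.inv_apply ha]; abel⟩

/-- a non-trivial map is faithful -/
theorem ne_one (hr : 5 ≤ r) (hnt : ∃ g : Perm (Fin r), sign g = 1 ∧ R g ≠ 1) {a : Perm (Fin r)}
    (ha : sign a = 1) (ha1 : a ≠ 1) : R a ≠ 1 := by
  intro hRa
  haveI : IsSimpleGroup (alternatingGroup (Fin r)) :=
    alternatingGroup.isSimpleGroup (by rwa [Nat.card_fin])
  let φ : alternatingGroup (Fin r) →* End L V :=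
    { toFun := fun g => R g.1
      map_one' := hR.map_one
      map_mul' := fun g h => hR.map_mul _ _ g.2 h.2 }
  have hN : φ.toHomUnits.ker.Normal := inferInstance
  rcases IsSimpleGroup.eq_bot_or_eq_top_of_normal _ hN with h | h
  · have : (⟨a, ha⟩ : alternatingGroup (Fin r)) ∈ φ.toHomUnits.ker := by
      rw [MonoidHom.mem_ker]; exact Units.ext hRa
    rw [h, Subgroup.mem_bot] at this
    exact ha1 (congrArg Subtype.val this)
  · obtain ⟨g, hg, hg1⟩ := hnt
    have : (⟨g, hg⟩ : alternatingGroup (Fin r)) ∈ φ.toHomUnits.ker := by rw [h]; trivial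
    rw [MonoidHom.mem_ker] at this
    exact hg1 (congrArg Units.val this)

end IsRep

/-- weight spaces of distinct weights are independent -/
theorem sum_finrank_le [FiniteDimensional L V] {A J : Type*} [Fintype J] (F : A → End L V)
    (χ : J → A → L) (hχ : Function.Injective χ) (U : J → Submodule L V)
    (hU : ∀ j, ∀ v ∈ U j, ∀ a, F a v = χ j a • v) :
    ∑ j, finrank L (U j) ≤ finrank L V := by
  classical
  let Φ : ((j : J) → U j) →ₗ[L] V := ∑ j, (U j).subtype.comp (LinearMap.proj j)
  have hΦ : ∀ x, Φ x = ∑ j, (x j : V) := fun x => by simp [Φ]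
  have hinj : Function.Injective Φ := by
    rw [← LinearMap.ker_eq_bot, LinearMap.ker_eq_bot']
    intro x hx
    rw [hΦ] at hx
    by_contra hne
    let T : Finset J := Finset.univ.filter fun j => (x j : V) ≠ 0
    have hli := linearIndependent_weightVec F (fun j : T => χ j.1)
      (hχ.comp Subtype.val_injective) (fun j : T => (x j.1 : V))
      (fun j => ⟨(Finset.mem_filter.1 j.2).2, hU _ _ (x j.1).2⟩)
    have hsum : ∑ j : T, (1 : L) • (x j.1 : V) = 0 := by
      simp only [one_smul]
      rw [Finset.sum_coe_sort T (fun j => (x j : V)), ← hx]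
      exact Finset.sum_filter_ne_zero _
    obtain ⟨j, hj⟩ : ∃ j, (x j : V) ≠ 0 := by
      by_contra! h
      exact hne (funext fun j => Subtype.ext (h j))
    exact one_ne_zero (Fintype.linearIndependent_iff.1 hli (fun _ => 1) hsum
      ⟨j, Finset.mem_filter.2 ⟨Finset.mem_univ _, hj⟩⟩)
  calc ∑ j, finrank L (U j) = finrank L ((j : J) → U j) := (Module.finrank_pi_fintype L).symm
    _ ≤ finrank L V := LinearMap.finrank_le_finrank_of_injective hinj

/-- a commuting family stabilising a non-zero subspace has a weight vector in it -/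
theorem exists_weight [IsAlgClosed L] [FiniteDimensional L V] {A : Type*} [Finite A]
    (F : A → End L V) (hcomm : ∀ a b, F a * F b = F b * F a) {W : Submodule L V} (hW : W ≠ ⊥)
    (hinv : ∀ a, ∀ v ∈ W, F a v ∈ W) : ∃ χ : A → L, ∃ v ∈ W, IsWeightVec F χ v := by
  haveI := Fintype.ofFinite A
  obtain ⟨W', hle, hne, -, hsc⟩ :=
    exists_common_eigen F hcomm W hW hinv (Finset.univ : Finset A).toList
  choose χ hχ using fun a => hsc a (Finset.mem_toList.2 (Finset.mem_univ a))
  obtain ⟨x, hx, hx0⟩ := (Submodule.ne_bot_iff _).1 hne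
  exact ⟨χ, x, hle hx, hx0, fun a => hχ a x hx⟩

/-- in a commuting family, an operator of order prime to the characteristic that is not trivial on
an invariant subspace has a weight different from `1` there -/
theorem exists_weight_ne_one_on [IsAlgClosed L] [FiniteDimensional L V] {A : Type*} [Finite A]
    (F : A → End L V) (hcomm : ∀ a b, F a * F b = F b * F a) {W : Submodule L V}
    (hinv : ∀ a, ∀ v ∈ W, F a v ∈ W) (a₀ : A) (n : ℕ) (hn : (n : L) ≠ 0) (hpow : F a₀ ^ n = 1)
    {v : V} (hv : v ∈ W) (hne : F a₀ v ≠ v) :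
    ∃ χ : A → L, ∃ w ∈ W, IsWeightVec F χ w ∧ χ a₀ ≠ 1 := by
  let G : A → End L W := fun a => (F a).restrict (hinv a)
  have hco : ∀ a (x : W), ((G a x : W) : V) = F a x := fun a x => rfl
  have hp : ∀ (k : ℕ) (x : W), (((G a₀ ^ k) x : W) : V) = (F a₀ ^ k) x := by
    intro k
    induction k with
    | zero => intro x; simp
    | succ k ih =>
      intro x
      rw [pow_succ', Module.End.mul_apply, hco, ih, pow_succ', Module.End.mul_apply]
  obtain ⟨χ, ⟨x, hx0, hx⟩, hχ⟩ := Weights.exists_weight_ne_one G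
    (fun a b => LinearMap.ext fun x => Subtype.ext (LinearMap.congr_fun (hcomm a b) (x : V))) a₀ n hn
    (LinearMap.ext fun x => Subtype.ext (by rw [hp, hpow]; rfl))
    (fun h => hne (congrArg Subtype.val (LinearMap.congr_fun h ⟨v, hv⟩)))
  refine ⟨χ, x, x.2, ⟨fun h => hx0 (Subtype.ext h), fun a => ?_⟩, hχ⟩
  have := congrArg Subtype.val (hx a)
  rwa [hco] at this

theorem pow_weight {f : End L V} {c : L} {v : V} (h : f v = c • v) (k : ℕ) :
    (f ^ k) v = c ^ k • v := by
  induction k with
  | zero => simp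
  | succ k ih =>
    rw [pow_succ', Module.End.mul_apply, ih, map_smul, h, smul_smul, pow_succ]

theorem weight_pow_eq_one {f : End L V} {n : ℕ} (hf : f ^ n = 1) {c : L} {v : V} (h0 : v ≠ 0)
    (h : f v = c • v) : c ^ n = 1 := by
  have h1 := pow_weight h n
  rw [hf, Module.End.one_apply] at h1
  have h2 : (c ^ n - 1) • v = 0 := by rw [sub_smul, ← h1, one_smul, sub_self]
  exact sub_eq_zero.1 ((smul_eq_zero.1 h2).resolve_right h0)

end Cfsg.Agent.H73.AltDim
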