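import Cfsg.Agent.H73.AltDim.Blocks
import Cfsg.Agent.H73.AltDim.Embed
import Cfsg.Agent.H73.AltDim.Orbit

/-!
Characteristic two: in small degree every three cycle moves exactly a plane.
-/

set_option autoImplicit false

namespace Cfsg.Agent.H73.AltDim

open Equiv Equiv.Perm Module Cfsg.Agent.Weights
open Cfsg.Agent.Alt (cyc3 cyc3_conj)

/-- a three cycle and its inverse -/
def tthree (c : Fin 2) : Perm (Fin 3) := ![swap 0 1 * swap 1 2, swap 1 2 * swap 0 1] c

/-- the inversion of the three cycle -/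
def flip3 (d : Fin 2) : Perm (Fin 3) := ![1, swap 1 2] d

theorem tthree_facts :
    (∀ c, sign (tthree c) = 1) ∧ (∀ c, tthree c ^ 3 = 1) ∧
      (∀ c c', tthree c * tthree c' = tthree c' * tthree c) ∧
      tthree 1 = tthree 0 ^ 2 ∧
      (∀ c d, flip3 d * tthree c * (flip3 d)⁻¹ = tthree (c + d)) ∧
      (∀ c d, sign (flip3 (c - d)) = sign (flip3 c) * sign (flip3 d)) := by
  decide

variable {r k : ℕ} (f : Fin k × Fin 3 ↪ Fin r)

/-- the three cycles of the blocks -/
noncomputable def threeT (a : Fin k × Fin 2) : Perm (Fin r) := blk f a.1 (tthree a.2)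

theorem threeT_sign (a : Fin k × Fin 2) : sign (threeT f a) = 1 := by
  rw [threeT, sign_blk, tthree_facts.1]

theorem threeT_cube (a : Fin k × Fin 2) : threeT f a ^ 3 = 1 := by
  rw [threeT, ← blk_pow, tthree_facts.2.1, blk_one]

theorem threeT_zero (i : Fin k) :
    threeT f (i, 0) = cyc3 (f (i, 0)) (f (i, 1)) (f (i, 2)) := by
  rw [threeT, show tthree 0 = swap (0 : Fin 3) 1 * swap 1 2 from rfl, blk_mul, blk_swap, blk_swap, cyc3]

theorem threeT_conj (π : Perm (Fin k)) (d : Fin k → Fin 2) (i : Fin k) (u : Fin 2) :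
    mover f π (fun i => flip3 (d i)) * threeT f (i, u) * (mover f π (fun i => flip3 (d i)))⁻¹
      = threeT f (π i, u + d i) := by
  rw [threeT, threeT, mover_conj, tthree_facts.2.2.2.2.1]

theorem threeMove_sign (π : Perm (Fin k)) (d : Fin k → Fin 2) :
    sign (mover f π (fun i => flip3 (d i))) = sign π * ∏ i, sign (flip3 (d i)) := by
  rw [sign_mover, pow_succ, sq, Int.units_mul_self, one_mul]

variable {L : Type*} [Field L] {V : Type*} [AddCommGroup V] [Module L V]
  {R : Perm (Fin r) → End L V}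

theorem three_blocks (hR : IsRep R) {ω : L} (hω : ω ^ 2 + ω + 1 = 0) (h3 : (3 : L) ≠ 0) :
    IsBlocks R (threeT f) ω (ω ^ 2) where
  rep := hR
  even := threeT_sign f
  comm := fun a b => hR.commute (threeT_sign f a) (threeT_sign f b)
    (blk_comm f fun _ => tthree_facts.2.2.1 _ _)
  hαβ := fun h => h3 (by
    have h2' : 2 * ω + 1 = 0 := by linear_combination hω + h
    linear_combination 4 * hω - (2 * ω + 1) * h2')
  hβ := fun h => h3 (by
    have h1 : ω = -2 := by linear_combination hω - h
    rw [h1] at h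
    linear_combination h)
  two := le_rfl
  decode := by
    intro i χ v hv hχ
    have hω3 : ω ^ 3 = 1 := by linear_combination (ω - 1) * hω
    have h03 : χ 0 ^ 3 = 1 :=
      weight_pow_eq_one (hR.pow_eq_one (threeT_sign f _) (threeT_cube f _)) hv (hχ 0)
    have h1 : χ 1 = χ 0 ^ 2 := by
      have h : R (threeT f (i, 1)) = R (threeT f (i, 0)) ^ 2 := by
        rw [← hR.map_pow (threeT_sign f _), threeT, threeT, ← blk_pow, tthree_facts.2.2.2.1]
      have h' := hχ 1
      rw [h, pow_weight (hχ 0)] at h'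
      exact (smul_left_injective L hv h').symm
    have hcases : χ 0 = 1 ∨ χ 0 = ω ∨ χ 0 = ω ^ 2 := by
      have : (χ 0 - 1) * ((χ 0 - ω) * (χ 0 - ω ^ 2)) = 0 := by
        linear_combination h03 - hω3 + (χ 0 * ω - χ 0 ^ 2) * hω
      rcases mul_eq_zero.1 this with h | h
      · exact Or.inl (sub_eq_zero.1 h)
      · rcases mul_eq_zero.1 h with h | h
        · exact Or.inr (Or.inl (sub_eq_zero.1 h))
        · exact Or.inr (Or.inr (sub_eq_zero.1 h))
    rcases hcases with h0 | h0 | h0
    · exact ⟨none, funext fun u => by fin_cases u <;> simp [blockVal, h0, h1]⟩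
    · exact ⟨some 0, funext fun u => by fin_cases u <;> simp [blockVal, h0, h1]⟩
    · exact ⟨some 1, funext fun u => by
        fin_cases u <;> simp [blockVal, h0, h1]
        linear_combination ω * hω3⟩

theorem three_move (hR : IsRep R) {ω : L} (hω : ω ^ 2 + ω + 1 = 0) (h3 : (3 : L) ≠ 0) (hk : 3 ≤ k)
    {s s' : Fin k → Option (Fin 2)} (hc : (supp s).card = (supp s').card)
    (h : Wt R (threeT f) ω (ω ^ 2) s) : Wt R (threeT f) ω (ω ^ 2) s' := by
  classical
  obtain ⟨π₀, hπ₀⟩ := exists_perm_finset hc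
  obtain ⟨a, b, hab, hst⟩ : ∃ a b : Fin k, a ≠ b ∧ (a ∈ supp s ↔ b ∈ supp s) := by
    obtain ⟨a, b, hab, h⟩ := Fintype.exists_ne_map_eq_of_card_lt
      (fun i : Fin k => decide (i ∈ supp s)) (by simp; omega)
    exact ⟨a, b, hab, by simpa using h⟩
  let g : Fin k → Fin 2 := fun i => (s i).getD 0
  let g' : Fin k → Fin 2 := fun i => (s' i).getD 0
  have hsgn : ∀ π : Perm (Fin k), sign (mover f π (fun i => flip3 (g' (π i) - g i))) =
      sign π * ((∏ i, sign (flip3 (g' i))) * ∏ i, sign (flip3 (g i))) := by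
    intro π
    rw [threeMove_sign]
    simp only [tthree_facts.2.2.2.2.2, Finset.prod_mul_distrib]
    rw [Equiv.prod_comp π (fun i => sign (flip3 (g' i)))]
  obtain ⟨π, hπ, hsign⟩ : ∃ π : Perm (Fin k), (∀ i, π i ∈ supp s' ↔ i ∈ supp s) ∧
      sign (mover f π (fun i => flip3 (g' (π i) - g i))) = 1 := by
    rcases Int.units_eq_one_or (sign (mover f π₀ (fun i => flip3 (g' (π₀ i) - g i)))) with h | h
    · exact ⟨π₀, hπ₀, h⟩
    · refine ⟨π₀ * swap a b, fun i => ?_, ?_⟩
      · rw [Perm.mul_apply, hπ₀]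
        by_cases hia : i = a
        · subst hia; rw [swap_apply_left]; exact hst.symm
        by_cases hib : i = b
        · subst hib; rw [swap_apply_right]; exact hst
        rw [swap_apply_of_ne_of_ne hia hib]
      · rw [hsgn] at h ⊢
        rw [map_mul, sign_swap hab, mul_right_comm, h]
        rfl
  refine (three_blocks f hR hω h3).transport hsign π _ (threeT_conj f π _) (fun i => ?_) h
  have hi := hπ i
  simp only [supp, Finset.mem_filter, Finset.mem_univ, true_and] at hi
  rcases hs : s i with _ | c <;> rcases hs' : s' (π i) with _ | c' <;> simp [hs, hs'] at hi ⊢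
  simp [g, g', hs, hs']

theorem three_eig_finrank [FiniteDimensional L V] (hR : IsRep R) {ω : L} (hω : ω ^ 2 + ω + 1 = 0)
    (h3 : (3 : L) ≠ 0) (hk : 3 ≤ k) (i j : Fin k) (c c' : Fin 2) :
    finrank L (IsBlocks.eigB R (threeT f) ω (ω ^ 2) i (some c)) ≤
      finrank L (IsBlocks.eigB R (threeT f) ω (ω ^ 2) j (some c')) := by
  classical
  obtain ⟨a, ha, b, hb, hab⟩ : ∃ a ∈ Finset.univ.erase i, ∃ b ∈ Finset.univ.erase i, a ≠ b := by
    refine Finset.one_lt_card.1 ?_
    rw [Finset.card_erase_of_mem (Finset.mem_univ _), Finset.card_univ, Fintype.card_fin]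
    omega
  obtain ⟨π, hπi, hsign⟩ : ∃ π : Perm (Fin k), π i = j ∧
      sign (mover f π (fun _ => flip3 (c' - c))) = 1 := by
    rcases Int.units_eq_one_or (sign (mover f (swap i j) (fun _ => flip3 (c' - c)))) with h | h
    · exact ⟨_, swap_apply_left i j, h⟩
    · refine ⟨swap i j * swap a b, ?_, ?_⟩
      · rw [Perm.mul_apply, swap_apply_of_ne_of_ne (Finset.ne_of_mem_erase ha).symm
          (Finset.ne_of_mem_erase hb).symm, swap_apply_left]
      · rw [threeMove_sign f _ (fun _ => c' - c)] at h ⊢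
        rw [map_mul, sign_swap hab, mul_right_comm, h]
        rfl
  have h := (three_blocks f hR hω h3).transport_eigB hsign π (fun _ => c' - c) (threeT_conj f _ _) i c
  rw [hπi, add_sub_cancel] at h
  exact le_of_eq_of_le (hR.finrank_map hsign _).symm (Submodule.finrank_mono h)

variable [IsAlgClosed L] [FiniteDimensional L V]

set_option maxRecDepth 20000 in
/-- eleven points and degree at most nine -/
theorem three_exception {R : Perm (Fin 11) → End L V} (hR : IsRep R) {ω : L}
    (hω : ω ^ 2 + ω + 1 = 0) (h3 : (3 : L) ≠ 0) (h5 : (5 : L) ≠ 0)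
    (hnt : ∃ g : Perm (Fin 11), sign g = 1 ∧ R g ≠ 1) (hn : finrank L V ≤ 9)
    {s : Fin 3 → Option (Fin 2)}
    (h : Wt R (threeT (blockEmb (show 3 * 3 ≤ 11 by norm_num))) ω (ω ^ 2) s)
    (hs : (supp s).card = 3) : False := by
  classical
  set f : Fin 3 × Fin 3 ↪ Fin 11 := blockEmb (show 3 * 3 ≤ 11 by norm_num) with hf
  have hB := three_blocks (k := 3) f hR hω h3
  let U := IsBlocks.eigB R (threeT f) ω (ω ^ 2) 0
  -- four weights in each non-trivial eigenspace of the first block
  have hU4 : ∀ c, 4 ≤ finrank L (U (some c)) := by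
    intro c
    let mk : Fin 2 × Fin 2 → Fin 3 → Option (Fin 2) := fun p => ![some c, some p.1, some p.2]
    have hW : ∀ p, Wt R (threeT f) ω (ω ^ 2) (mk p) := fun p =>
      three_move f hR hω h3 le_rfl (by
        rw [hs, supp, Finset.filter_true_of_mem fun i _ => by fin_cases i <;> rfl, Finset.card_univ,
          Fintype.card_fin]) h
    choose v hv using hW
    have hmk : Function.Injective mk := fun p q hpq =>
      Prod.ext (Option.some_injective _ (congrFun hpq 1)) (Option.some_injective _ (congrFun hpq 2))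
    have hli := linearIndependent_weightVec (fun a => R (threeT f a))
      (fun p => chi ω (ω ^ 2) (mk p)) (hB.chi_inj.comp hmk) v hv
    have hmem : ∀ p, v p ∈ U (some c) := fun p => IsBlocks.mem_eigB.2 fun u => by
      simpa [chi, mk] using (hv p).2 (0, u)
    have hli' : LinearIndependent L (fun p => (⟨v p, hmem p⟩ : U (some c))) :=
      LinearIndependent.of_comp (U (some c)).subtype hli
    simpa using hli'.fintype_card_le_finrank
  have h0 : finrank L (U none) ≤ 1 := by
    have hsum := sum_finrank_le (fun u => R (threeT f (0, u)))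
      (fun c => blockVal ω (ω ^ 2) c) hB.blockVal_inj
      U (fun c v hv u => IsBlocks.mem_eigB.1 hv u)
    rw [Fintype.sum_option, Fin.sum_univ_two] at hsum
    have := hU4 0
    have := hU4 1
    omega
  -- the five cycle
  obtain ⟨c, g, hc, hg, hc5, hconj, hc1⟩ : ∃ c g : Perm (Fin 11),
      sign c = 1 ∧ sign g = 1 ∧ c ^ 5 = 1 ∧ g * c * g⁻¹ = c ^ 2 ∧ c ≠ 1 ∧
      c = swap 3 4 * swap 4 5 * swap 5 6 * swap 6 7 :=
    ⟨swap 3 4 * swap 4 5 * swap 5 6 * swap 6 7, swap 4 5 * swap 5 7 * swap 7 6 * swap 9 10,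
      by decide, by decide, by decide, by decide, by decide, rfl⟩
  obtain ⟨hc1, hceq⟩ := hc1
  obtain ⟨x, y, g', hx, hy, hg', hx3, hy3, hxy, h1, h2, kx, ky, kg, hxeq⟩ :
      ∃ x y g' : Perm (Fin 11), sign x = 1 ∧ sign y = 1 ∧ sign g' = 1 ∧ x ^ 3 = 1 ∧ y ^ 3 = 1 ∧
        x * y = y * x ∧ g' * x * g'⁻¹ = y ∧ g' * y * g'⁻¹ = x⁻¹ ∧
        x * c = c * x ∧ y * c = c * y ∧ g' * c = c * g' ∧ x = cyc3 0 1 2 := by
    subst hceq
    exact ⟨cyc3 0 1 2, cyc3 8 9 10, swap 0 8 * swap 1 9 * swap 2 10 * swap 9 10, by decide,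
      by decide, by decide, by decide, by decide, by decide, by decide, by decide, by decide,
      by decide, by decide, rfl⟩
  have hx0 : threeT f (0, 0) = x := by rw [threeT_zero, hxeq]; rfl
  -- non-trivial eigenspaces of the five cycle are in the fixed space of the first block
  have hE : ∀ ζ : L, ζ ^ 5 = 1 → ζ ≠ 1 → ∀ v, R c v = ζ • v → v ∈ U none := by
    intro ζ hζ5 hζ v hv
    let E : L → Submodule L V := fun η => LinearMap.ker (R c - η • (1 : End L V))
    have memE : ∀ η w, w ∈ E η ↔ R c w = η • w := fun η w => by simp [E, sub_eq_zero]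
    have hstep : ∀ η, finrank L (E η) ≤ finrank L (E (η ^ 3)) := fun η => by
      rw [← hR.finrank_map hg (E η)]
      refine Submodule.finrank_mono ?_
      rintro _ ⟨w, hw, rfl⟩
      exact (memE _ _).2 (five_step hR hc hg hconj hc5 ((memE _ _).1 hw))
    have hsum := sum_finrank_le (fun _ : Unit => R c) (fun (j : Fin 4) _ => ζ ^ (j.val + 1))
      (fun i j h => five_distinct hζ5 hζ (congrFun h ())) (fun j => E (ζ ^ (j.val + 1)))
      (fun j w hw _ => (memE _ _).1 hw)
    rw [Fin.sum_univ_four] at hsum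
    have s1 := hstep ζ
    have s2 := hstep (ζ ^ 3)
    have s3 := hstep (ζ ^ 4)
    have e2 : (ζ ^ 3) ^ 3 = ζ ^ 4 := by
      rw [← pow_mul, show 3 * 3 = 5 + 4 from rfl, pow_add, hζ5, one_mul]
    have e3 : (ζ ^ 4) ^ 3 = ζ ^ 2 := by
      rw [← pow_mul, show 4 * 3 = 5 * 2 + 2 from rfl, pow_add, pow_mul, hζ5, one_pow, one_mul]
    rw [e2] at s2
    rw [e3] at s3
    rw [show (0 : Fin 4).val + 1 = 1 from rfl, show (1 : Fin 4).val + 1 = 2 from rfl,
      show (2 : Fin 4).val + 1 = 3 from rfl, show (3 : Fin 4).val + 1 = 4 from rfl, pow_one] at hsum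
    have hlt : finrank L (E ζ) < 4 := by omega
    have hinv : ∀ {a : Perm (Fin 11)}, sign a = 1 → a * c = c * a → ∀ w ∈ E ζ, R a w ∈ E ζ := by
      intro a ha hac w hw
      rw [memE] at hw ⊢
      rw [← Module.End.mul_apply, hR.commute hc ha hac.symm, Module.End.mul_apply, hw, map_smul]
    have hfix : R x v = v := pair_trivial h3 hR hx hy hg' hx3 hy3 hxy h1 h2 (E ζ) (hinv hx kx)
      (hinv hy ky) (hinv hg' kg) hlt ((memE _ _).2 hv)
    refine IsBlocks.mem_eigB.2 fun u => ?_
    have h10 : R (threeT f (0, 1)) = R (threeT f (0, 0)) ^ 2 := by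
      rw [← hR.map_pow (threeT_sign f _), threeT, threeT, ← blk_pow, tthree_facts.2.2.2.1]
    fin_cases u
    · simpa [blockVal, hx0] using hfix
    · show R (threeT f (0, 1)) v = _
      rw [h10, hx0, sq, Module.End.mul_apply, hfix, hfix]
      simp [blockVal]
  obtain ⟨v, hv⟩ : ∃ v, R c v ≠ v := by
    by_contra! h
    exact hR.ne_one (by norm_num) hnt hc hc1 (LinearMap.ext h)
  obtain ⟨χ, w, -, ⟨hw0, hwv⟩, hχ⟩ := exists_weight_ne_one_on (fun _ : Unit => R c)
    (W := ⊤) (fun _ _ => rfl) (fun _ _ _ => trivial) () 5 (by exact_mod_cast h5)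
    (hR.pow_eq_one hc hc5) (v := v) trivial hv
  have hz : R c w = χ () • w := hwv ()
  set ζ := χ ()
  have hζ5 : ζ ^ 5 = 1 := weight_pow_eq_one (hR.pow_eq_one hc hc5) hw0 hz
  have s1 := five_step hR hc hg hconj hc5 hz
  have hne1 : ζ ^ 3 ≠ 1 := fun h => hχ (by
    have : ζ ^ 5 * ζ = (ζ ^ 3) ^ 2 := by ring
    rwa [hζ5, h, one_mul, one_pow] at this)
  have hgw : R g w ≠ 0 := fun h => hw0 (hR.injective hg (by rw [h, map_zero]))
  have hli := linearIndependent_weightVec (fun _ : Unit => R c) (fun (j : Fin 2) _ => ![ζ, ζ ^ 3] j)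
    (fun i j h => by
      have h' := congrFun h ()
      have : ζ ≠ ζ ^ 3 := fun e => hχ (by linear_combination hζ5 + (1 + ζ ^ 2) * e)
      fin_cases i <;> fin_cases j <;> simp [this, this.symm] at h' ⊢)
    ![w, R g w] (fun j => by
      fin_cases j
      · exact ⟨hw0, fun _ => hz⟩
      · exact ⟨hgw, fun _ => s1⟩)
  have hli' : LinearIndependent L (![⟨w, hE ζ hζ5 hχ w hz⟩,
      ⟨R g w, hE _ (by rw [← pow_mul, mul_comm, pow_mul, hζ5, one_pow]) hne1 _ s1⟩] : Fin 2 → U none) := by
    refine LinearIndependent.of_comp (U none).subtype ?_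
    convert hli using 1
    funext j
    fin_cases j <;> rfl
  have := hli'.fintype_card_le_finrank
  simp at this
  omega

theorem two_planes {R : Perm (Fin r) → End L V} (hR : IsRep R) (h2 : (2 : L) = 0) (hr : 9 ≤ r)
    (hnt : ∃ g : Perm (Fin r), sign g = 1 ∧ R g ≠ 1) (hn : finrank L V ≤ r - 2)
    (h10 : r = 10 → finrank L V ≤ 7) :
    5 ≤ finrank L V ∧ ∀ a b c : Fin r, a ≠ b → a ≠ c → b ≠ c →
      finrank L (LinearMap.range (R (cyc3 a b c) - 1)) = 2 := by
  classical
  have h3 : (3 : L) ≠ 0 := fun h => one_ne_zero (α := L) (by linear_combination h - h2)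
  have h5 : (5 : L) ≠ 0 := fun h => one_ne_zero (α := L) (by linear_combination h - 2 * h2)
  obtain ⟨ω, hω⟩ : ∃ ω : L, ω ^ 2 + ω + 1 = 0 := by
    obtain ⟨ω, hω⟩ := IsAlgClosed.exists_root (Polynomial.X ^ 2 + Polynomial.X + 1 : Polynomial L)
      (by rw [Polynomial.degree_add_eq_left_of_degree_lt] <;>
        simp [Polynomial.degree_add_eq_left_of_degree_lt])
    exact ⟨ω, by simpa [Polynomial.IsRoot] using hω⟩
  obtain ⟨k, hk, hk3, hkn⟩ : ∃ k, 3 * k ≤ r ∧ 3 ≤ k ∧ r ≤ 3 * k + 2 :=
    ⟨r / 3, by omega, by omega, by omega⟩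
  let f : Fin k × Fin 3 ↪ Fin r := blockEmb hk
  have hB := three_blocks (k := k) f hR hω h3
  let U : Fin k → Option (Fin 2) → Submodule L V := IsBlocks.eigB R (threeT f) ω (ω ^ 2)
  have hcube : ∀ a, R (threeT f a) ^ 3 = 1 := fun a => hR.pow_eq_one (threeT_sign f a) (threeT_cube f a)
  have hsingle : ∀ s, Wt R (threeT f) ω (ω ^ 2) s → (supp s).card ≤ 1 := by
    intro s h
    by_contra hs
    have hb := hB.support_bound (fun _ _ h h' => three_move f hR hω h3 hk3 h h') h
    have hle : (supp s).card ≤ k := by simpa using (supp s).card_le_univ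
    rcases lt_or_eq_of_le hle with hlt | heq
    · have h1 := le_choose (by omega) hlt
      have h4 : 2 ^ 2 ≤ 2 ^ (supp s).card := Nat.pow_le_pow_right (by norm_num) (by omega)
      have := Nat.mul_le_mul h1 h4
      omega
    · rw [heq, Nat.choose_self, one_mul] at hb
      by_cases hk4 : k = 3
      · subst hk4
        obtain rfl : r = 11 := by norm_num at hb; omega
        exact three_exception hR hω h3 h5 hnt (by omega) h heq
      · have : ∀ j, 3 * (j + 4) < 2 ^ (j + 4) := by
          intro j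
          induction j with
          | zero => norm_num
          | succ j ih => rw [show j + 1 + 4 = (j + 4) + 1 by omega, pow_succ]; omega
        have := this (k - 4)
        rw [show k - 4 + 4 = k by omega] at this
        omega
  have hsum := hB.sum_eigB_le (n := 3) (by exact_mod_cast h3) hcube hsingle
  let i₀ : Fin k := ⟨0, by omega⟩
  set m := finrank L (U i₀ (some 0)) with hm
  have hdim : ∀ i c, finrank L (U i (some c)) = m := fun i c =>
    le_antisymm (three_eig_finrank f hR hω h3 hk3 i i₀ c 0)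
      (three_eig_finrank f hR hω h3 hk3 i₀ i 0 c)
  rw [Finset.sum_congr rfl (fun x _ => hdim x.1 x.2), Finset.sum_const, Finset.card_univ,
    Fintype.card_prod, Fintype.card_fin, Fintype.card_fin, smul_eq_mul] at hsum
  set x := threeT f (i₀, 0) with hxdef
  have hrange : LinearMap.range (R x - 1) = U i₀ (some 0) ⊔ U i₀ (some 1) := by
    have hδ : ω - ω ^ 2 ≠ 0 := sub_ne_zero.2 hB.hαβ
    have hω3 : ω ^ 3 = 1 := by linear_combination (ω - 1) * hω
    have hx2 : ∀ v, R (threeT f (i₀, 1)) v = R x (R x v) := fun v => by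
      rw [← Module.End.mul_apply, ← sq, ← hR.map_pow (threeT_sign f _), threeT, threeT,
        ← blk_pow, tthree_facts.2.2.2.1]
    have hmem : ∀ (c : Fin 2) (v : V), R x v = ![ω, ω ^ 2] c • v → v ∈ U i₀ (some c) := by
      intro c v hv
      refine IsBlocks.mem_eigB.2 fun u => ?_
      fin_cases u
      · fin_cases c <;> simpa [blockVal] using hv
      · show R (threeT f (i₀, 1)) v = _
        rw [hx2, hv, map_smul, hv, smul_smul]
        fin_cases c
        · simp [blockVal, sq]
        · simp only [blockVal, Fin.mk_one, Option.elim_some, if_pos, Matrix.cons_val_one,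
            Matrix.cons_val_zero]
          congr 1
          linear_combination ω * hω3
    apply le_antisymm
    · rintro _ ⟨v, rfl⟩
      set w := (R x - 1) v with hw
      have hsum0 : R x (R x w) = -w - R x w := by
        have h1 : R x (R x (R x v)) = v := by
          have := LinearMap.congr_fun (hcube (i₀, 0)) v
          rw [pow_succ, pow_succ, pow_one] at this
          exact this
        simp only [hw, LinearMap.sub_apply, Module.End.one_apply, map_sub, h1]
        abel
      have hsplit : w = (ω - ω ^ 2)⁻¹ • (R x w - ω ^ 2 • w) + (ω - ω ^ 2)⁻¹ • (ω • w - R x w) := by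
        rw [← smul_add, show R x w - ω ^ 2 • w + (ω • w - R x w) = (ω - ω ^ 2) • w by module,
          smul_smul, inv_mul_cancel₀ hδ, one_smul]
      rw [hsplit]
      refine Submodule.add_mem_sup (hmem 0 _ ?_) (hmem 1 _ ?_)
      · simp only [Matrix.cons_val_zero, map_smul, map_sub, hsum0]
        rw [smul_comm ω]
        congr 1
        match_scalars <;> first | linear_combination hω | linear_combination -hω |
          linear_combination hω3 | linear_combination -hω3
      · simp only [Matrix.cons_val_one, Matrix.cons_val_zero, map_smul, map_sub, hsum0]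
        rw [smul_comm (ω ^ 2)]
        congr 1
        match_scalars <;> first | linear_combination hω | linear_combination -hω |
          linear_combination hω3 | linear_combination -hω3
    · have key : ∀ (c : L) (w : V), c ≠ 1 → R x w = c • w → w ∈ LinearMap.range (R x - 1) := by
        intro c w hc hw
        refine ⟨(c - 1)⁻¹ • w, ?_⟩
        rw [LinearMap.sub_apply, Module.End.one_apply, map_smul, hw, smul_smul, ← sub_smul,
          show (c - 1)⁻¹ * c - (c - 1)⁻¹ = 1 by field_simp [sub_ne_zero.2 hc], one_smul]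
      refine sup_le (fun w hw => key ω w ?_ ?_) (fun w hw => key (ω ^ 2) w hB.hβ ?_)
      · exact fun h => h3 (by rw [h] at hω; linear_combination hω)
      · simpa [blockVal] using IsBlocks.mem_eigB.1 hw 0
      · simpa [blockVal] using IsBlocks.mem_eigB.1 hw 0
  have hinf : U i₀ (some 0) ⊓ U i₀ (some 1) = ⊥ := by
    rw [eq_bot_iff]
    rintro w ⟨h1, h1'⟩
    have e1 := IsBlocks.mem_eigB.1 h1 0
    have e2 := IsBlocks.mem_eigB.1 h1' 0
    rw [e1] at e2
    simp only [blockVal, Option.elim_some, if_pos, if_neg (show ¬ (0 : Fin 2) = 1 by decide)] at e2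
    have : (ω - ω ^ 2) • w = 0 := by rw [sub_smul, e2, sub_self]
    exact (smul_eq_zero.1 this).resolve_left (sub_ne_zero.2 hB.hαβ)
  have hmd : finrank L (LinearMap.range (R x - 1)) = 2 * m := by
    have := Submodule.finrank_sup_add_finrank_inf_eq (U i₀ (some 0)) (U i₀ (some 1))
    rw [hinf, finrank_bot, hdim, hdim] at this
    rw [hrange]; omega
  have hm1 : m = 1 := by
    have hle : m ≤ 1 := by
      by_contra hmm
      have := Nat.mul_le_mul_left (k * 2) (show 2 ≤ m by omega)
      omega
    refine le_antisymm hle (Nat.one_le_iff_ne_zero.2 fun h0 => ?_)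
    rw [h0, mul_zero, Submodule.finrank_eq_zero, LinearMap.range_eq_bot, sub_eq_zero] at hmd
    have hx1 : x ≠ 1 := fun h => by
      have := Equiv.congr_fun h (f (i₀, 0))
      rw [hxdef, threeT, blk_apply_self, Perm.one_apply] at this
      have h' : tthree (0 : Fin 2) (0 : Fin 3) = 0 := congrArg Prod.snd (f.injective this)
      revert h'
      decide
    exact hR.ne_one (by omega) hnt (threeT_sign f _) hx1 hmd
  refine ⟨by rw [hm1] at hsum; omega, fun a b c hab hac hbc => ?_⟩
  obtain ⟨σ, hσ, hσi⟩ := exists_even_map ![f (i₀, 0), f (i₀, 1), f (i₀, 2)] ![a, b, c]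
    (by intro i j h; fin_cases i <;> fin_cases j <;> simp at h ⊢)
    (by intro i j h; fin_cases i <;> fin_cases j <;> simp [hab, hac, hbc, hab.symm, hac.symm,
      hbc.symm] at h ⊢)
    (by omega)
  have h0 := hσi 0; have h1 := hσi 1; have h2' := hσi 2
  simp only [Fin.isValue, Matrix.cons_val_zero, Matrix.cons_val_one, Matrix.cons_val] at h0 h1 h2'
  rw [← h0, ← h1, ← h2', ← cyc3_conj, ← threeT_zero, hR.finrank_range_conj hσ (threeT_sign f _),
    hmd, hm1]

end Cfsg.Agent.H73.AltDim
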